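import Mathlib

set_option autoImplicit false

namespace Cfsg.Agent.Lib.Helper98.SM

theorem smn5_F1 {A : Type*} [Ring A] (a b : A) (haa : a * a = 1) (hbb : b * b = 1)
    (hab : a * b = -(b * a)) : (1 + a * b) * a = (-b) * (1 + a * b) := by
  have hba : b * a = -(a * b) := by rw [hab, neg_neg]
  have h1 : (1 + a * b) * a = a + a * (b * a) := by noncomm_ring
  have h2 : (-b) * (1 + a * b) = -(b + (b * a) * b) := by noncomm_ring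
  rw [h1, h2, hba]
  have h3 : a * -(a * b) = -(a * a * b) := by noncomm_ring
  have h4 : -(a * b) * b = -(a * (b * b)) := by noncomm_ring
  rw [h3, h4, haa, hbb]
  noncomm_ring

theorem smn5_F2 {A : Type*} [Ring A] (a b : A) (haa : a * a = 1) (hbb : b * b = 1) :
    (1 + a * b) * b = a * (1 + a * b) := by
  have h1 : (1 + a * b) * b = b + a * (b * b) := by noncomm_ring
  have h2 : a * (1 + a * b) = a + (a * a) * b := by noncomm_ring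
  rw [h1, h2, haa, hbb]
  noncomm_ring

theorem smn5_F3 {A : Type*} [Ring A] (a b d : A) (had : a * d = -(d * a))
    (hbd : b * d = -(d * b)) : (1 + a * b) * d = d * (1 + a * b) := by
  have h1 : (1 + a * b) * d = d + a * (b * d) := by noncomm_ring
  rw [h1, hbd]
  have h2 : a * -(d * b) = -((a * d) * b) := by noncomm_ring
  rw [h2, had]
  noncomm_ring

theorem smn5_F3n {A : Type*} [Ring A] (a b d : A) (had : a * d = -(d * a))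
    (hbd : b * d = -(d * b)) : (1 + a * b) * (-d) = (-d) * (1 + a * b) := by
  rw [mul_neg, neg_mul, smn5_F3 a b d had hbd]

theorem smn5_chain {A : Type*} [Ring A] (P Q R S x y z w v : A) (h4 : S * x = y * S)
    (h3 : R * y = z * R) (h2 : Q * z = w * Q) (h1 : P * w = v * P) :
    P * Q * R * S * x = v * (P * Q * R * S) := by
  calc P * Q * R * S * x = P * Q * R * (S * x) := by simp only [mul_assoc]
    _ = P * Q * R * (y * S) := by rw [h4]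
    _ = P * Q * (R * y) * S := by simp only [mul_assoc]
    _ = P * Q * (z * R) * S := by rw [h3]
    _ = P * (Q * z) * R * S := by simp only [mul_assoc]
    _ = P * (w * Q) * R * S := by rw [h2]
    _ = (P * w) * Q * R * S := by simp only [mul_assoc]
    _ = (v * P) * Q * R * S := by rw [h1]
    _ = v * (P * Q * R * S) := by simp only [mul_assoc]

theorem five_cycle {A : Type*} [Ring A] (u₁ u₂ u₃ u₄ u₅ : A)
    (h11 : u₁ * u₁ = 1) (h22 : u₂ * u₂ = 1) (h33 : u₃ * u₃ = 1) (h44 : u₄ * u₄ = 1)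
    (h55 : u₅ * u₅ = 1)
    (h12 : u₁ * u₂ = -(u₂ * u₁)) (h13 : u₁ * u₃ = -(u₃ * u₁)) (h14 : u₁ * u₄ = -(u₄ * u₁))
    (h15 : u₁ * u₅ = -(u₅ * u₁)) (h23 : u₂ * u₃ = -(u₃ * u₂)) (h24 : u₂ * u₄ = -(u₄ * u₂))
    (h25 : u₂ * u₅ = -(u₅ * u₂)) (h34 : u₃ * u₄ = -(u₄ * u₃)) (h35 : u₃ * u₅ = -(u₅ * u₃))
    (h45 : u₄ * u₅ = -(u₅ * u₄)) (n : A)
    (hn : n = (1 + u₁ * u₂) * (1 + u₂ * u₃) * (1 + u₃ * u₄) * (1 + u₄ * u₅)) :
    n * u₁ = -(u₂ * n) ∧ n * u₂ = -(u₃ * n) ∧ n * u₃ = -(u₄ * n) ∧ n * u₄ = -(u₅ * n) ∧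
      n * u₅ = u₁ * n := by
  have h21 : u₂ * u₁ = -(u₁ * u₂) := by rw [h12, neg_neg]
  have h31 : u₃ * u₁ = -(u₁ * u₃) := by rw [h13, neg_neg]
  have h41 : u₄ * u₁ = -(u₁ * u₄) := by rw [h14, neg_neg]
  have h51 : u₅ * u₁ = -(u₁ * u₅) := by rw [h15, neg_neg]
  have h32 : u₃ * u₂ = -(u₂ * u₃) := by rw [h23, neg_neg]
  have h42 : u₄ * u₂ = -(u₂ * u₄) := by rw [h24, neg_neg]
  have h52 : u₅ * u₂ = -(u₂ * u₅) := by rw [h25, neg_neg]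
  have h43 : u₄ * u₃ = -(u₃ * u₄) := by rw [h34, neg_neg]
  have h53 : u₅ * u₃ = -(u₃ * u₅) := by rw [h35, neg_neg]
  subst hn
  refine ⟨?_, ?_, ?_, ?_, ?_⟩
  · rw [← neg_mul]
    exact smn5_chain _ _ _ _ u₁ u₁ u₁ u₁ (-u₂) (smn5_F3 u₄ u₅ u₁ h41 h51)
      (smn5_F3 u₃ u₄ u₁ h31 h41) (smn5_F3 u₂ u₃ u₁ h21 h31) (smn5_F1 u₁ u₂ h11 h22 h12)
  · rw [← neg_mul]
    exact smn5_chain _ _ _ _ u₂ u₂ u₂ (-u₃) (-u₃) (smn5_F3 u₄ u₅ u₂ h42 h52)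
      (smn5_F3 u₃ u₄ u₂ h32 h42) (smn5_F1 u₂ u₃ h22 h33 h23) (smn5_F3n u₁ u₂ u₃ h13 h23)
  · rw [← neg_mul]
    exact smn5_chain _ _ _ _ u₃ u₃ (-u₄) (-u₄) (-u₄) (smn5_F3 u₄ u₅ u₃ h43 h53)
      (smn5_F1 u₃ u₄ h33 h44 h34) (smn5_F3n u₂ u₃ u₄ h24 h34) (smn5_F3n u₁ u₂ u₄ h14 h24)
  · rw [← neg_mul]
    exact smn5_chain _ _ _ _ u₄ (-u₅) (-u₅) (-u₅) (-u₅) (smn5_F1 u₄ u₅ h44 h55 h45)
      (smn5_F3n u₃ u₄ u₅ h35 h45) (smn5_F3n u₂ u₃ u₅ h25 h35) (smn5_F3n u₁ u₂ u₅ h15 h25)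
  · exact smn5_chain _ _ _ _ u₅ u₄ u₃ u₂ u₁ (smn5_F2 u₄ u₅ h44 h55)
      (smn5_F2 u₃ u₄ h33 h44) (smn5_F2 u₂ u₃ h22 h33) (smn5_F2 u₁ u₂ h11 h22)

end Cfsg.Agent.Lib.Helper98.SM
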