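import Cfsg.Agent.Lib.Helper98.T73Defs

/-!
# Project T73 (S5973), piece HALF (for helper98)

A totally singular subspace of a nondegenerate subspace `K` has at most half the dimension.
-/

set_option autoImplicit false
set_option linter.unusedSectionVars false

namespace Cfsg.Agent.Lib.Helper98.T73

open Cfsg.Agent.Lib.Helper47 Module Polynomial

universe u

variable {F : Type u} [Field F] [Fintype F] {V : Type u} [AddCommGroup V] [Module F V]
  [FiniteDimensional F V] {Q : V → F} {B : V → V → F}

/-- HALF -/
theorem half_bound (hQ : IsQuad Q B) (K U : Submodule F V) (hK : Nondeg (resForm B K))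
    (hUK : U ≤ K) (hU : TS Q U) : 2 * finrank F U ≤ finrank F K := by
  have hB := hQ.form
  have hsymm : ∀ x y : V, B y x = B x y := fun x y => by simpa using hB.symm x y
  let bK : LinearMap.BilinForm F K := LinearMap.mk₂ F (fun x y : K => B (x : V) (y : V))
    (fun x y z => hB.add_left _ _ _) (fun c x y => hB.smul_left _ _ _)
    (fun x y z => hB.add_right _ _ _)
    (fun c x y => by simpa using hB.smul_right c (x : V) (y : V))
  have hnd : bK.Nondegenerate := by
    refine ⟨fun x hx => hK x (fun y => hx y), fun y hy => hK y (fun x => ?_)⟩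
    show B (y : V) (x : V) = 0
    rw [hsymm]
    exact hy x
  have hle : U.comap K.subtype ≤ bK.orthogonal (U.comap K.subtype) := by
    intro m hm
    rw [LinearMap.BilinForm.mem_orthogonal_iff]
    intro n hn
    show B (n : V) (m : V) = 0
    have hn' : (n : V) ∈ U := hn
    have hm' : (m : V) ∈ U := hm
    have h1 := hQ.polar (n : V) (m : V)
    rw [hU _ hn', hU _ hm', hU _ (U.add_mem hn' hm')] at h1
    simpa using h1.symm
  have h1 := Submodule.finrank_mono hle
  rw [LinearMap.BilinForm.finrank_orthogonal hnd] at h1
  have h2 : finrank F (U.comap K.subtype) = finrank F U :=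
    LinearEquiv.finrank_eq (Submodule.comapSubtypeEquivOfLe hUK)
  have h3 := Submodule.finrank_le (U.comap K.subtype)
  omega

end Cfsg.Agent.Lib.Helper98.T73
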