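import Mathlib
import Cfsg.Prelude.Def_Classical

/-!
Project PI (S5989, helper96), piece EXA: for even `d` there is an isometry `x` of the plus-type
quadratic form `Σ x_i y_i` with `x * x = -1`.
-/

set_option autoImplicit false
set_option linter.unusedSectionVars false
set_option linter.unusedVariables false

namespace Cfsg.Agent.Lib.Helper42.Pi

open Matrix
open scoped MatrixGroups

universe u

variable {F : Type u} [Field F] [Fintype F]

/-- an orthogonal matrix with square `-1` in even dimension -/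
theorem exa_exists_A (d : ℕ) (hd : Even d) :
    ∃ A : Matrix (Fin d) (Fin d) F, Aᵀ * A = 1 ∧ A * A = -1 := by
  obtain ⟨e, rfl⟩ := hd
  obtain ⟨J, hJ⟩ : ∃ J : Matrix (Fin e ⊕ Fin e) (Fin e ⊕ Fin e) F,
      J = Matrix.fromBlocks 0 1 (-1) 0 := ⟨_, rfl⟩
  have h1 : Jᵀ * J = 1 := by
    rw [hJ, Matrix.fromBlocks_transpose, Matrix.fromBlocks_multiply]
    simp [Matrix.fromBlocks_one]
  have h2 : J * J = -1 := by
    rw [hJ, Matrix.fromBlocks_multiply, ← Matrix.fromBlocks_one, Matrix.fromBlocks_neg]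
    simp
  refine ⟨J.submatrix finSumFinEquiv.symm finSumFinEquiv.symm, ?_, ?_⟩
  · rw [Matrix.transpose_submatrix, Matrix.submatrix_mul_equiv, h1, Matrix.submatrix_one_equiv]
  · rw [Matrix.submatrix_mul_equiv, h2]
    ext i j
    simp [Matrix.one_apply]

-- PIECE EXA
theorem exists_sq_neg_even (d : ℕ) (hd : Even d) :
    ∃ x : GL (Fin d ⊕ Fin d) F,
      (∀ v, Cfsg.quadFormPlus d F ((x : Matrix (Fin d ⊕ Fin d) (Fin d ⊕ Fin d) F) *ᵥ v)
        = Cfsg.quadFormPlus d F v) ∧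
      (x : Matrix (Fin d ⊕ Fin d) (Fin d ⊕ Fin d) F) * (x : Matrix (Fin d ⊕ Fin d) (Fin d ⊕ Fin d) F)
        = -1 := by
  obtain ⟨A, hA1, hA2⟩ := exa_exists_A (F := F) d hd
  have hxx : Matrix.fromBlocks A 0 0 A * Matrix.fromBlocks A 0 0 A
      = (-1 : Matrix (Fin d ⊕ Fin d) (Fin d ⊕ Fin d) F) := by
    rw [Matrix.fromBlocks_multiply, ← Matrix.fromBlocks_one, Matrix.fromBlocks_neg]
    simp [hA2]
  refine ⟨⟨Matrix.fromBlocks A 0 0 A, -Matrix.fromBlocks A 0 0 A, ?_, ?_⟩, ?_, hxx⟩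
  · rw [mul_neg, hxx, neg_neg]
  · rw [neg_mul, hxx, neg_neg]
  · intro v
    show Cfsg.quadFormPlus d F (Matrix.fromBlocks A 0 0 A *ᵥ v) = Cfsg.quadFormPlus d F v
    unfold Cfsg.quadFormPlus
    rw [Matrix.fromBlocks_mulVec]
    simp only [Sum.elim_inl, Sum.elim_inr, Matrix.zero_mulVec, add_zero, zero_add]
    have h3 : ∑ i : Fin d, (A *ᵥ (v ∘ Sum.inl)) i * (A *ᵥ (v ∘ Sum.inr)) i
        = (A *ᵥ (v ∘ Sum.inl)) ⬝ᵥ (A *ᵥ (v ∘ Sum.inr)) := rfl
    rw [h3, ← Matrix.vecMul_transpose, ← Matrix.dotProduct_mulVec, Matrix.mulVec_mulVec, hA1,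
      Matrix.one_mulVec]
    rfl

end Cfsg.Agent.Lib.Helper42.Pi
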