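import Mathlib
import Cfsg.Prelude.Def_GeometricClasses
import Cfsg.Agent.Lib.Helper71.Asch8

/-! Project SPG (helper71), sub-project TIF, piece T6b: `pure tensor * factor permutation` maps
pure tensors to pure tensors. -/

set_option autoImplicit false
set_option linter.unusedSectionVars false

namespace Cfsg.Agent.Lib.Helper42.TIFT6b

open Matrix Cfsg.Geo Cfsg.Agent.Lib.Helper71.Asch

variable {n : ℕ} {F : Type*} [Field F] [Fintype F]

/-- the matrix permuting the `k` tensor factors according to `σ` (as in `IsFactorPermutation`) -/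
def permM (m : ℕ) {k : ℕ} (σ : Equiv.Perm (Fin k)) : Matrix (Fin k → Fin m) (Fin k → Fin m) F :=
  Matrix.of fun x y => if y = x ∘ σ then 1 else 0

/-- T6b: `pure tensor * factor permutation` maps pure tensors to pure tensors. -/
theorem T6b {m k : ℕ} (cs : Fin k → Matrix (Fin m) (Fin m) F) (σ : Equiv.Perm (Fin k))
    (w : Fin k → Fin m → F) :
    ∃ w' : Fin k → Fin m → F,
      (pt cs * permM m σ) *ᵥ (fun a => ∏ i, w i (a i)) = fun a => ∏ i, w' i (a i) := by
  refine ⟨fun i => cs i *ᵥ w (σ.symm i), ?_⟩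
  have h1 : (permM (F := F) m σ) *ᵥ (fun a : Fin k → Fin m => ∏ i, w i (a i))
      = fun a => ∏ j, w (σ.symm j) (a j) := by
    funext a
    have e : (permM (F := F) m σ *ᵥ (fun a : Fin k → Fin m => ∏ i, w i (a i))) a
        = ∑ y : Fin k → Fin m, (if y = a ∘ σ then (1 : F) else 0) * ∏ i, w i (y i) := rfl
    rw [e]
    simp only [ite_mul, one_mul, zero_mul, Finset.sum_ite_eq', Finset.mem_univ, if_true]
    rw [← Equiv.prod_comp σ (fun j => w (σ.symm j) (a j))]
    simp
  rw [← Matrix.mulVec_mulVec, h1]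
  funext a
  have e2 : (pt cs *ᵥ fun a : Fin k → Fin m => ∏ j, w (σ.symm j) (a j)) a
      = ∑ b : Fin k → Fin m, (∏ i, cs i (a i) (b i)) * ∏ j, w (σ.symm j) (b j) := rfl
  rw [e2]
  simp only [← Finset.prod_mul_distrib]
  have e3 : ∀ i, (cs i *ᵥ w (σ.symm i)) (a i) = ∑ u, cs i (a i) u * w (σ.symm i) u :=
    fun i => rfl
  simp only [e3]
  rw [Finset.prod_univ_sum]
  simp

end Cfsg.Agent.Lib.Helper42.TIFT6b
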