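import Mathlib

/-! Definitions for the S5047 project (root involutions, helper42). -/

set_option autoImplicit false

namespace Cfsg.Agent.Lib.Helper42.RT

variable {G : Type*} [Group G]

/-- the operator `t ↦ (ρ t ρ⁻¹)(ρ⁻¹ t ρ)` -/
def theta (ρ : G) (t : G) : G := (ρ * t * ρ⁻¹) * (ρ⁻¹ * t * ρ)

theorem theta_def (ρ t : G) : theta ρ t = (ρ * t * ρ⁻¹) * (ρ⁻¹ * t * ρ) := rfl

end Cfsg.Agent.Lib.Helper42.RT
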