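import Mathlib
import Cfsg.Prelude.Def_GeometricClasses
import Cfsg.Prelude.Def_Classical

/-!
Project H74 (helper98, for S5974), piece SIEGOM: in characteristic 2 and dimension `2d ≥ 6`,
the Siegel element `fromBlocks 1 S 0 1` (`S` symmetric with zero diagonal) lies in
`omegaGL (quadFormPlus d F)`: it is a product of commutators of isometries.
-/

set_option autoImplicit false
set_option linter.unusedSectionVars false
set_option linter.unusedSimpArgs false

namespace Cfsg.Agent.Lib.Helper98.H74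

open Matrix

universe u

variable {F : Type u} [Field F] [Fintype F]

/-- An alternating matrix is `U + Uᵀ` with `U` strictly upper triangular. -/
theorem siegom_decomp (d : ℕ) (S : Matrix (Fin d) (Fin d) F)
    (hS0 : ∀ a, S a a = 0) (hSt : S.transpose = S) :
    ∃ U : Matrix (Fin d) (Fin d) F, S = U + Uᵀ ∧ ∀ a b, ¬ a < b → U a b = 0 := by
  refine ⟨Matrix.of fun a b => if a < b then S a b else 0, ?_, ?_⟩
  · ext i j
    rw [Matrix.add_apply, Matrix.transpose_apply, Matrix.of_apply, Matrix.of_apply]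
    rcases lt_trichotomy i j with h | h | h
    · rw [if_pos h, if_neg (not_lt.mpr h.le), add_zero]
    · subst h; rw [if_neg (lt_irrefl _), add_zero, hS0]
    · rw [if_neg (not_lt.mpr h.le), if_pos h, zero_add]
      have := congrFun (congrFun hSt i) j
      rw [Matrix.transpose_apply] at this
      exact this.symm
  · intro a b hab
    rw [Matrix.of_apply, if_neg hab]

theorem siegom_alt [CharP F 2] (d : ℕ) (T : Matrix (Fin d) (Fin d) F)
    (hT0 : ∀ a, T a a = 0) (hTt : T.transpose = T) (y : Fin d → F) : (T *ᵥ y) ⬝ᵥ y = 0 := by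
  obtain ⟨U, hU, -⟩ := siegom_decomp d T hT0 hTt
  have e : (Uᵀ *ᵥ y) ⬝ᵥ y = (U *ᵥ y) ⬝ᵥ y := by
    rw [dotProduct_comm, Matrix.dotProduct_mulVec, Matrix.vecMul_transpose]
  rw [hU, Matrix.add_mulVec, add_dotProduct, e]
  exact CharTwo.add_self_eq_zero _

theorem siegom_Q (d : ℕ) (v : Fin d ⊕ Fin d → F) :
    Cfsg.quadFormPlus d F v = (v ∘ Sum.inl) ⬝ᵥ (v ∘ Sum.inr) := rfl

/-- The Siegel element. -/
def siegomX (d : ℕ) (T : Matrix (Fin d) (Fin d) F) : GL (Fin d ⊕ Fin d) F :=
  ⟨Matrix.fromBlocks 1 T 0 1, Matrix.fromBlocks 1 (-T) 0 1, by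
    rw [Matrix.fromBlocks_multiply]; simp [Matrix.fromBlocks_one], by
    rw [Matrix.fromBlocks_multiply]; simp [Matrix.fromBlocks_one]⟩

/-- The Levi element `diag(A, A⁻ᵀ)`. -/
def siegomD (d : ℕ) (A A' : Matrix (Fin d) (Fin d) F) (h : A * A' = 1) (h' : A' * A = 1) :
    GL (Fin d ⊕ Fin d) F :=
  ⟨Matrix.fromBlocks A 0 0 A'ᵀ, Matrix.fromBlocks A' 0 0 Aᵀ, by
    rw [Matrix.fromBlocks_multiply]
    simp only [Matrix.mul_zero, Matrix.zero_mul, add_zero, zero_add, ← Matrix.transpose_mul, h,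
      Matrix.transpose_one, Matrix.fromBlocks_one], by
    rw [Matrix.fromBlocks_multiply]
    simp only [Matrix.mul_zero, Matrix.zero_mul, add_zero, zero_add, ← Matrix.transpose_mul, h',
      Matrix.transpose_one, Matrix.fromBlocks_one]⟩

theorem siegomX_mem [CharP F 2] (d : ℕ) (T : Matrix (Fin d) (Fin d) F)
    (hT0 : ∀ a, T a a = 0) (hTt : T.transpose = T) :
    siegomX d T ∈ Cfsg.isometryGroup F (Cfsg.quadFormPlus d F) := by
  intro u v
  change Cfsg.quadFormPlus d F (Matrix.fromBlocks 1 T 0 1 *ᵥ u) = Cfsg.quadFormPlus d F u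
  rw [siegom_Q, siegom_Q, Matrix.fromBlocks_mulVec]
  simp only [Sum.elim_comp_inl, Sum.elim_comp_inr, Matrix.one_mulVec, Matrix.zero_mulVec, zero_add]
  rw [add_dotProduct, siegom_alt d T hT0 hTt, add_zero]

theorem siegomD_mem (d : ℕ) (A A' : Matrix (Fin d) (Fin d) F) (h : A * A' = 1)
    (h' : A' * A = 1) :
    siegomD d A A' h h' ∈ Cfsg.isometryGroup F (Cfsg.quadFormPlus d F) := by
  intro u v
  change Cfsg.quadFormPlus d F (Matrix.fromBlocks A 0 0 A'ᵀ *ᵥ u) = Cfsg.quadFormPlus d F u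
  rw [siegom_Q, siegom_Q, Matrix.fromBlocks_mulVec]
  simp only [Sum.elim_comp_inl, Sum.elim_comp_inr, Matrix.zero_mulVec, zero_add, add_zero]
  rw [Matrix.dotProduct_mulVec, Matrix.vecMul_transpose, Matrix.mulVec_mulVec, h',
    Matrix.one_mulVec]

theorem siegom_comm_mem (d : ℕ) (g h : GL (Fin d ⊕ Fin d) F)
    (hg : g ∈ Cfsg.isometryGroup F (Cfsg.quadFormPlus d F))
    (hh : h ∈ Cfsg.isometryGroup F (Cfsg.quadFormPlus d F)) :
    g * h * g⁻¹ * h⁻¹ ∈ Cfsg.Geo.omegaGL (Cfsg.quadFormPlus d F) := by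
  have hm := Subgroup.commutator_mem_commutator (H₁ := ⊤) (H₂ := ⊤)
    (Subgroup.mem_top (⟨g, hg⟩ : ↥(Cfsg.isometryGroup F (Cfsg.quadFormPlus d F))))
    (Subgroup.mem_top (⟨h, hh⟩ : ↥(Cfsg.isometryGroup F (Cfsg.quadFormPlus d F))))
  exact ⟨_, hm, rfl⟩

/-- The property to be proved, as a predicate on `S`. -/
def SiegomP (d : ℕ) (S : Matrix (Fin d) (Fin d) F) : Prop :=
  ∃ x : GL (Fin d ⊕ Fin d) F, x ∈ Cfsg.Geo.omegaGL (Cfsg.quadFormPlus d F) ∧
    (x : Matrix (Fin d ⊕ Fin d) (Fin d ⊕ Fin d) F) = Matrix.fromBlocks 1 S 0 1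

theorem siegom_zero (d : ℕ) : SiegomP (F := F) d 0 :=
  ⟨1, one_mem _, Matrix.fromBlocks_one.symm⟩

theorem siegom_add (d : ℕ) {S S' : Matrix (Fin d) (Fin d) F} (h : SiegomP d S)
    (h' : SiegomP d S') : SiegomP d (S + S') := by
  obtain ⟨x, hx, ex⟩ := h
  obtain ⟨x', hx', ex'⟩ := h'
  refine ⟨x * x', mul_mem hx hx', ?_⟩
  rw [Units.val_mul, ex, ex', Matrix.fromBlocks_multiply]
  simp only [Matrix.one_mul, Matrix.mul_one, Matrix.mul_zero, Matrix.zero_mul, add_zero,
    zero_add]
  rw [add_comm]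

theorem siegom_elem [CharP F 2] (d : ℕ) (a b c : Fin d) (hab : a ≠ b) (hac : a ≠ c)
    (hbc : b ≠ c) (s : F) :
    SiegomP d (Matrix.single a b s + Matrix.single b a s) := by
  obtain ⟨T, hT⟩ : ∃ T : Matrix (Fin d) (Fin d) F,
      T = Matrix.single a c s + Matrix.single c a s := ⟨_, rfl⟩
  have hT0 : ∀ i, T i i = 0 := by
    intro i
    rw [hT, Matrix.add_apply, Matrix.single_apply, Matrix.single_apply]
    rw [if_neg, if_neg, add_zero]
    · rintro ⟨h1, h2⟩; exact hac (h2.trans h1.symm)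
    · rintro ⟨h1, h2⟩; exact hac (h1.trans h2.symm)
  have hTt : Tᵀ = T := by
    rw [hT, Matrix.transpose_add, Matrix.transpose_single, Matrix.transpose_single, add_comm]
  have hA : Matrix.transvection b c (1 : F) * Matrix.transvection b c (-1) = 1 := by
    rw [Matrix.transvection_mul_transvection_same _ _ hbc, add_neg_cancel,
      Matrix.transvection_zero]
  have hA' : Matrix.transvection b c (-1 : F) * Matrix.transvection b c 1 = 1 := by
    rw [Matrix.transvection_mul_transvection_same _ _ hbc, neg_add_cancel,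
      Matrix.transvection_zero]
  have key : Matrix.transvection b c (1 : F) * T * (Matrix.transvection b c (1 : F))ᵀ
      = T + (Matrix.single a b s + Matrix.single b a s) := by
    have e1 : Matrix.single b c (1 : F) * Matrix.single a c s = 0 :=
      Matrix.single_mul_single_of_ne _ _ _ _ hac.symm _
    have e2 : Matrix.single c a s * Matrix.single c b (1 : F) = 0 :=
      Matrix.single_mul_single_of_ne _ _ _ _ hac _
    have e3 : Matrix.single b a s * Matrix.single c b (1 : F) = 0 :=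
      Matrix.single_mul_single_of_ne _ _ _ _ hac _
    rw [hT]
    simp only [Matrix.transvection, Matrix.transpose_add, Matrix.transpose_one,
      Matrix.transpose_single, add_mul, mul_add, Matrix.one_mul, Matrix.mul_one,
      Matrix.single_mul_single_same, one_mul, mul_one]
    rw [e1, e2, e3, Matrix.zero_mul]
    abel
  refine ⟨siegomD d _ _ hA hA' * siegomX d T * (siegomD d _ _ hA hA')⁻¹ * (siegomX d T)⁻¹,
    siegom_comm_mem d _ _ (siegomD_mem d _ _ hA hA') (siegomX_mem d T hT0 hTt), ?_⟩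
  change Matrix.fromBlocks (Matrix.transvection b c (1 : F)) 0 0
      (Matrix.transvection b c (-1 : F))ᵀ * Matrix.fromBlocks 1 T 0 1 *
      Matrix.fromBlocks (Matrix.transvection b c (-1 : F)) 0 0 (Matrix.transvection b c (1 : F))ᵀ *
      Matrix.fromBlocks 1 (-T) 0 1 = _
  rw [Matrix.fromBlocks_multiply, Matrix.fromBlocks_multiply, Matrix.fromBlocks_multiply]
  simp only [Matrix.one_mul, Matrix.mul_one, Matrix.mul_zero, Matrix.zero_mul, add_zero,
    zero_add, ← Matrix.transpose_mul, hA, Matrix.transpose_one]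
  rw [key]
  congr 1
  abel

/-- SIEGOM -/
theorem siegel_mem_omega [CharP F 2] (d : ℕ) (hd : 3 ≤ d) (S : Matrix (Fin d) (Fin d) F)
    (hS0 : ∀ a, S a a = 0) (hSt : S.transpose = S) :
    ∃ x : GL (Fin d ⊕ Fin d) F, x ∈ Cfsg.Geo.omegaGL (Cfsg.quadFormPlus d F) ∧
      (x : Matrix (Fin d ⊕ Fin d) (Fin d ⊕ Fin d) F) = Matrix.fromBlocks 1 S 0 1 := by
  obtain ⟨U, hU, hU0⟩ := siegom_decomp d S hS0 hSt
  have h1 : ∑ a, ∑ b, Matrix.single a b (U a b) = U := (Matrix.matrix_eq_sum_single U).symm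
  have h2 : ∑ a, ∑ b, Matrix.single b a (U a b) = Uᵀ := by
    have := congrArg Matrix.transpose h1
    simp only [Matrix.transpose_sum, Matrix.transpose_single] at this
    exact this
  have hsum : S = ∑ a, ∑ b, (Matrix.single a b (U a b) + Matrix.single b a (U a b)) := by
    simp only [Finset.sum_add_distrib]
    rw [h1, h2]
    exact hU
  have hP : SiegomP d S := by
    rw [hsum]
    refine Finset.sum_induction _ (SiegomP d) (fun _ _ => siegom_add d) (siegom_zero d) ?_
    intro a _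
    refine Finset.sum_induction _ (SiegomP d) (fun _ _ => siegom_add d) (siegom_zero d) ?_
    intro b _
    by_cases hab : a < b
    · have hc : ∃ c : Fin d, c ≠ a ∧ c ≠ b := by
        by_contra hcon
        push Not at hcon
        have h0 := hcon ⟨0, by omega⟩
        have h1 := hcon ⟨1, by omega⟩
        have h2 := hcon ⟨2, by omega⟩
        simp only [ne_eq, Fin.ext_iff] at h0 h1 h2
        omega
      obtain ⟨c, hca, hcb⟩ := hc
      exact siegom_elem d a b c hab.ne hca.symm hcb.symm (U a b)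
    · rw [hU0 a b hab, Matrix.single_zero, Matrix.single_zero, add_zero]
      exact siegom_zero d
  exact hP

end Cfsg.Agent.Lib.Helper98.H74
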