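import Mathlib
import Cfsg.Agent.Lib.Helper79.DGMK
import Cfsg.Agent.Lib.Helper33.BFOne2
import Cfsg.Agent.Lib.Helper22.IndCent2
import Cfsg.Agent.Lib.Helper81.BrPair
import Cfsg.Agent.Lib.Helper81.BrMax
import Cfsg.Agent.Lib.Helper81.BrChain

/-! PIECE INDQ of the DG project (S4502, helper79): every block of `C_H(Q)`, `Q` a Sylow
`p`-subgroup, induces a block of `H` with defect group `Q`. -/

set_option autoImplicit false
set_option linter.style.haveILetI false
set_option maxHeartbeats 1600000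

namespace Cfsg.Agent.Lib.Helper42.DG

open Cfsg Cfsg.Agent.Lib.Helper79.DG
open scoped ComplexConjugate

section

variable {H : Type*} [Group H] [Fintype H]

/-- PIECE INDQ -/
theorem exists_induced_at (p : ℕ) [Fact p.Prime] (M : Ideal AlgInt) (hM : IsPModular p M)
    (Q : Sylow p H) (hQ : Nat.card Q = p)
    (θ : IrrCharacter (Subgroup.centralizer ((Q : Subgroup H) : Set H))) :
    ∃ B : Set (IrrCharacter H),
      IsInducedBlock M (Subgroup.centralizer ((Q : Subgroup H) : Set H)) (blockOf M θ.1) B ∧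
      IsDefectGroup p M B Q := by
  have hQp : IsPGroup p (Q : Subgroup H) := Q.isPGroup'
  obtain ⟨B, hB⟩ := Cfsg.Agent.Lib.Helper81.inducedBlockDefined_centralizer hM (Q : Subgroup H)
    hQp (blockOf M θ.1) ⟨θ, rfl⟩
  refine ⟨B, hB, ?_⟩
  have hpair : IsBrauerPairOf p M B (Q : Subgroup H) (blockOf M θ.1) :=
    (Cfsg.Agent.Lib.Helper81.isBrauerPairOf_iff_isInducedBlock hM (Q : Subgroup H) hQp _ B).mpr hB
  apply Cfsg.Agent.Lib.Helper81.isDefectGroup_of_maximal hM B (Q : Subgroup H) (blockOf M θ.1)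
  refine ⟨hpair, ?_⟩
  intro R g hRg hle
  have h1 : (Q : Subgroup H) ≤ R :=
    Cfsg.Agent.Lib.Helper81.reflTransGen_le (⟨(Q : Subgroup H), blockOf M θ.1⟩ : BrauerPairIdx H)
      ⟨R, g⟩ hle
  have hRp : IsPGroup p R := hRg.1.1
  exact Q.is_maximal' hRp h1

end

end Cfsg.Agent.Lib.Helper42.DG
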