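import Mathlib
import Cfsg.Agent.Lib.Helper53.GT6Def

/-!
# GT6-M3B (helper42, piece of helper53's project S2707/S2706/S2708)

A congruence `k₀ g₀ k₀ᵀ = μ g₀'` over the fixed field lifts to a unitary `h = d B' j(k₀) B⁻¹`.
-/

set_option autoImplicit false

namespace Cfsg.Agent.Lib.Helper42.GT6M3B
open Matrix Cfsg.Agent.Lib.Helper53 Cfsg.Agent.Lib.Helper53.GT6
variable {F : Type*} [Field F] {F₀ : Type*} [Field F₀] {n : ℕ}

theorem cancel_right {A B C : Matrix (Fin n) (Fin n) F} (hC : C.det ≠ 0) (h : A * C = B * C) :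
    A = B := by
  have hu : IsUnit C.det := isUnit_iff_ne_zero.2 hC
  have h2 := congrArg (fun M : Matrix (Fin n) (Fin n) F => M * C⁻¹) h
  simpa [Matrix.mul_assoc, Matrix.mul_nonsing_inv _ hu] using h2

theorem cancel_left {A B C : Matrix (Fin n) (Fin n) F} (hC : C.det ≠ 0) (h : C * A = C * B) :
    A = B := by
  have hu : IsUnit C.det := isUnit_iff_ne_zero.2 hC
  have h2 := congrArg (fun M : Matrix (Fin n) (Fin n) F => C⁻¹ * M) h
  simpa [← Matrix.mul_assoc, Matrix.nonsing_inv_mul _ hu] using h2

/-- `σ(Bᵀ σ(B))ᵀ = Bᵀ σ(B)` -/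
theorem herm_P (σ : F ≃+* F) (hσ2 : ∀ x, σ (σ x) = x) (B : Matrix (Fin n) (Fin n) F) :
    ((B.transpose * B.map σ).map σ).transpose = B.transpose * B.map σ := by
  ext a b
  simp [Matrix.mul_apply, hσ2, mul_comm]

/-- from `Bᵀ σ(B) G = ω` with `G` fixed by `σ`: `ω Gᵀ = σ(ω) G` -/
theorem sym_of_desc (σ : F ≃+* F) (hσ2 : ∀ x, σ (σ x) = x) (B G : Matrix (Fin n) (Fin n) F)
    (hG : G.map σ = G) (ω : F)
    (hω : B.transpose * B.map σ * G = ω • (1 : Matrix (Fin n) (Fin n) F)) :
    ω • G.transpose = σ ω • G := by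
  have h1 : (B.transpose * B.map σ).map σ * G = σ ω • (1 : Matrix (Fin n) (Fin n) F) := by
    have := congrArg (fun M : Matrix (Fin n) (Fin n) F => M.map σ) hω
    simp only [map_sigma_mul, map_sigma_smul, hG] at this
    rw [← map_sigma_mul] at this
    rw [this]
    congr 1
    ext a b
    simp [Matrix.one_apply]
  have h2 : G.transpose * (B.transpose * B.map σ) = σ ω • (1 : Matrix (Fin n) (Fin n) F) := by
    have := congrArg Matrix.transpose h1
    rw [Matrix.transpose_mul, herm_P σ hσ2 B, Matrix.transpose_smul, Matrix.transpose_one] at this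
    exact this
  calc ω • G.transpose = G.transpose * (ω • (1 : Matrix (Fin n) (Fin n) F)) := by
        rw [Matrix.mul_smul, Matrix.mul_one]
    _ = G.transpose * (B.transpose * B.map σ) * G := by
        rw [← hω]
        simp only [Matrix.mul_assoc]
    _ = σ ω • G := by rw [h2, Matrix.smul_mul, Matrix.one_mul]

/-- M3b: a congruence `k₀ g₀ k₀ᵀ = μ g₀'` over `F₀` lifts to a unitary `h = d B' j(k₀) B⁻¹` -/
theorem congr_twist [Fintype F] (σ : F ≃+* F) (hord : orderOf σ = 2) (j : F₀ →+* F)
    (hj : ∀ a : F, σ a = a ↔ a ∈ Set.range j) (hn : 0 < n)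
    (g B g' B' : Matrix (Fin n) (Fin n) F) (g₀ g₀' : Matrix (Fin n) (Fin n) F₀)
    (hD : Desc σ j g B g₀) (hD' : Desc σ j g' B' g₀') (hg₀ : g₀.det ≠ 0) (hg₀' : g₀'.det ≠ 0)
    (k₀ : Matrix (Fin n) (Fin n) F₀) (μ : F₀) (hμ : μ ≠ 0) (hk₀ : k₀.det ≠ 0)
    (hk : k₀ * g₀ * k₀.transpose = μ • g₀') :
    ∃ (h : Matrix (Fin n) (Fin n) F) (d : F), d ≠ 0 ∧ h.transpose * h.map σ = 1 ∧
      h * B = d • (B' * k₀.map j) := by
  have hσ2 : ∀ x, σ (σ x) = x := SUGO.sigma_sigma σ hord
  obtain ⟨hB, -, ω, hω0, hω⟩ := hD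
  obtain ⟨hB', -, ω', hω'0, hω'⟩ := hD'
  -- notation
  set G : Matrix (Fin n) (Fin n) F := g₀.map j with hGdef
  set G' : Matrix (Fin n) (Fin n) F := g₀'.map j with hG'def
  set K : Matrix (Fin n) (Fin n) F := k₀.map j with hKdef
  have hfix : ∀ M : Matrix (Fin n) (Fin n) F₀, (M.map j).map σ = M.map j := by
    intro M
    ext a b
    exact (hj _).2 ⟨M a b, rfl⟩
  have hGσ : G.map σ = G := hfix g₀
  have hG'σ : G'.map σ = G' := hfix g₀'
  have hKσ : K.map σ = K := hfix k₀
  have hm0 : j μ ≠ 0 := (map_ne_zero j).2 hμ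
  have hmσ : σ (j μ) = j μ := (hj _).2 ⟨μ, rfl⟩
  have hdetmap : ∀ M : Matrix (Fin n) (Fin n) F₀, M.det ≠ 0 → (M.map j).det ≠ 0 := by
    intro M hM
    have : (M.map j).det = j M.det := by
      rw [RingHom.map_det]; rfl
    rw [this]
    exact (map_ne_zero j).2 hM
  have hGdet : G.det ≠ 0 := hdetmap g₀ hg₀
  have hG'det : G'.det ≠ 0 := hdetmap g₀' hg₀'
  have hKdet : K.det ≠ 0 := hdetmap k₀ hk₀
  have hKGK : K * G * K.transpose = j μ • G' := by
    have := congrArg (fun M : Matrix (Fin n) (Fin n) F₀ => M.map j) hk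
    simp only [Matrix.map_mul, Matrix.transpose_map] at this
    rw [hGdef, hG'def, hKdef, this]
    ext a b
    simp
  -- symmetry types
  have hGT : ω • G.transpose = σ ω • G := sym_of_desc σ hσ2 B G hGσ ω hω
  have hG'T : ω' • G'.transpose = σ ω' • G' := sym_of_desc σ hσ2 B' G' hG'σ ω' hω'
  -- the two types agree
  have hKGTK : K * G.transpose * K.transpose = j μ • G'.transpose := by
    have := congrArg Matrix.transpose hKGK
    rw [Matrix.transpose_mul, Matrix.transpose_mul, Matrix.transpose_transpose,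
      Matrix.transpose_smul, ← Matrix.mul_assoc] at this
    exact this
  have hrel : ω' * σ ω = ω * σ ω' := by
    have e1 : (ω' * σ ω * j μ) • G' = (ω * j μ * σ ω') • G' := by
      calc (ω' * σ ω * j μ) • G' = (ω' * σ ω) • (K * G * K.transpose) := by
            rw [hKGK, smul_smul]
        _ = ω' • (K * (σ ω • G) * K.transpose) := by
            rw [Matrix.mul_smul, Matrix.smul_mul, smul_smul]
        _ = ω' • (K * (ω • G.transpose) * K.transpose) := by rw [hGT]
        _ = (ω' * ω) • (K * G.transpose * K.transpose) := by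
            rw [Matrix.mul_smul, Matrix.smul_mul, smul_smul]
        _ = (ω * j μ) • (ω' • G'.transpose) := by
            rw [hKGTK, smul_smul, smul_smul]
            congr 1
            ring
        _ = (ω * j μ * σ ω') • G' := by rw [hG'T, smul_smul]
    have hG'u : IsUnit G'.det := isUnit_iff_ne_zero.2 hG'det
    have e2 := congrArg (fun M : Matrix (Fin n) (Fin n) F => M * G'⁻¹) e1
    simp only [Matrix.smul_mul, Matrix.mul_nonsing_inv _ hG'u] at e2
    have e3 := congrFun (congrFun e2 ⟨0, hn⟩) ⟨0, hn⟩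
    simp only [Matrix.smul_apply, Matrix.one_apply_eq, smul_eq_mul, mul_one] at e3
    have e4 : (ω' * σ ω) * j μ = (ω * σ ω') * j μ := by
      rw [e3]; ring
    exact mul_right_cancel₀ hm0 e4
  -- the norm equation
  have hσω'0 : σ ω' ≠ 0 := (map_ne_zero σ).2 hω'0
  set l : F := ω / (ω' * j μ) with hl
  have hl0 : l ≠ 0 := div_ne_zero hω0 (mul_ne_zero hω'0 hm0)
  have hlσ : σ l = l := by
    rw [hl, map_div₀, map_mul, hmσ]
    rw [div_eq_div_iff (mul_ne_zero hσω'0 hm0) (mul_ne_zero hω'0 hm0)]
    have : σ ω * ω' = ω * σ ω' := by rw [mul_comm]; exact hrel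
    calc σ ω * (ω' * j μ) = (σ ω * ω') * j μ := by ring
      _ = (ω * σ ω') * j μ := by rw [this]
      _ = ω * (σ ω' * j μ) := by ring
  obtain ⟨d, hd⟩ := H90.norm_surj σ 2 (by norm_num) hord l hl0 hlσ
  rw [Herm.nrm_two] at hd
  have hd0 : d ≠ 0 := by
    rintro rfl
    rw [zero_mul] at hd
    exact hl0 hd.symm
  have hBu : IsUnit B.det := isUnit_iff_ne_zero.2 hB
  refine ⟨d • (B' * K * B⁻¹), d, hd0, ?_, ?_⟩
  · -- unitarity
    set h : Matrix (Fin n) (Fin n) F := d • (B' * K * B⁻¹) with hh
    have hhB : h * B = d • (B' * K) := by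
      rw [hh, Matrix.smul_mul, Matrix.mul_assoc, Matrix.nonsing_inv_mul _ hBu, Matrix.mul_one]
    -- key identity
    have key : l • (K.transpose * (B'.transpose * B'.map σ) * K) = B.transpose * B.map σ := by
      apply cancel_right (C := G * K.transpose)
      · rw [Matrix.det_mul, Matrix.det_transpose]
        exact mul_ne_zero hGdet hKdet
      · have lhs : l • (K.transpose * (B'.transpose * B'.map σ) * K) * (G * K.transpose)
            = ω • K.transpose := by
          calc l • (K.transpose * (B'.transpose * B'.map σ) * K) * (G * K.transpose)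
              = l • (K.transpose * (B'.transpose * B'.map σ) * (K * G * K.transpose)) := by
                rw [Matrix.smul_mul]
                simp only [Matrix.mul_assoc]
            _ = l • (K.transpose * (B'.transpose * B'.map σ) * (j μ • G')) := by rw [hKGK]
            _ = (l * j μ) • (K.transpose * (B'.transpose * B'.map σ * G')) := by
                rw [Matrix.mul_smul, smul_smul, Matrix.mul_assoc]
            _ = (l * j μ * ω') • K.transpose := by
                rw [hω', Matrix.mul_smul, Matrix.mul_one, smul_smul]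
            _ = ω • K.transpose := by
                congr 1
                rw [hl]
                field_simp
        have rhs : B.transpose * B.map σ * (G * K.transpose) = ω • K.transpose := by
          rw [← Matrix.mul_assoc, hω, Matrix.smul_mul, Matrix.one_mul]
        rw [lhs, rhs]
    have e1 : B.transpose * (h.transpose * h.map σ) * B.map σ
        = B.transpose * 1 * B.map σ := by
      calc B.transpose * (h.transpose * h.map σ) * B.map σ
          = (h * B).transpose * (h * B).map σ := by
            rw [Matrix.transpose_mul, map_sigma_mul]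
            simp only [Matrix.mul_assoc]
        _ = (d • (B' * K)).transpose * (d • (B' * K)).map σ := by rw [hhB]
        _ = (d * σ d) • (K.transpose * (B'.transpose * B'.map σ) * K) := by
            rw [map_sigma_smul, map_sigma_mul, hKσ, Matrix.transpose_smul, Matrix.transpose_mul,
              Matrix.smul_mul, Matrix.mul_smul, smul_smul]
            simp only [Matrix.mul_assoc]
        _ = B.transpose * B.map σ := by rw [hd, key]
        _ = B.transpose * 1 * B.map σ := by rw [Matrix.mul_one]
    have hBσdet : (B.map σ).det ≠ 0 := by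
      have : (B.map σ).det = σ B.det := by
        exact (RingHom.map_det (σ : F →+* F) B).symm
      rw [this]
      exact (map_ne_zero σ).2 hB
    have e2 := cancel_right hBσdet e1
    have hBTdet : B.transpose.det ≠ 0 := by rw [Matrix.det_transpose]; exact hB
    exact cancel_left hBTdet e2
  · rw [Matrix.smul_mul, Matrix.mul_assoc, Matrix.nonsing_inv_mul _ hBu, Matrix.mul_one]

end Cfsg.Agent.Lib.Helper42.GT6M3B
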