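import Mathlib
import Cfsg.Agent.Lib.Helper45.MinIdxA

/-!
# S2140, piece TR: from the orbit family of `uE` to transvection groups with arbitrary centre
-/

set_option autoImplicit false

namespace Cfsg.Agent.Lib.Helper42.MinIdx

open Matrix Cfsg.Agent.Lib.Helper50 Cfsg.Agent.Lib.Helper45.MinIdx

theorem tr_key {F : Type*} [Field F] (k : ℕ) (hk : 1 ≤ k)
    (H : Subgroup (Matrix.SpecialLinearGroup (Fin (k + 1)) F)) (t : ℕ)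
    (W : Fin t → AddSubgroup (Fin k → F))
    (hW : ∀ g : Matrix.SpecialLinearGroup (Fin (k + 1)) F, ∃ i, ∀ x,
      (g⁻¹ * uE x * g ∈ H ↔ x ∈ W i))
    (a : Fin (k + 1) → F) (ha : a ≠ 0) :
    ∃ (g : Matrix.SpecialLinearGroup (Fin (k + 1)) F) (i : Fin t),
      (g : Matrix (Fin (k + 1)) (Fin (k + 1)) F) *ᵥ e0 = a ∧
      ∀ φ : Fin (k + 1) → F, φ ⬝ᵥ a = 0 → ∃ x : Fin k → F,
        φ ᵥ* (g : Matrix (Fin (k + 1)) (Fin (k + 1)) F) = cz x ∧ (tL a φ 1 ∈ H ↔ x ∈ W i) := by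
  have h01 : (0 : Fin (k + 1)) ≠ Fin.last k := by
    intro h
    have h1 := congrArg Fin.val h
    simp at h1
    omega
  obtain ⟨g, hg⟩ := Cfsg.Agent.Lib.Helper87.exists_sl_single h01 ha
  obtain ⟨i, hi⟩ := hW g⁻¹
  simp only [inv_inv] at hi
  refine ⟨g, i, hg, fun φ hφ => ?_⟩
  have h1 : (φ ᵥ* (g : Matrix (Fin (k + 1)) (Fin (k + 1)) F)) ⬝ᵥ (e0 : Fin (k + 1) → F) = 0 := by
    rw [← dotProduct_mulVec]
    show φ ⬝ᵥ ((g : Matrix (Fin (k + 1)) (Fin (k + 1)) F) *ᵥ Pi.single 0 1) = 0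
    rw [hg, hφ]
  obtain ⟨x, hx⟩ := exists_cz _ h1
  refine ⟨x, hx, ?_⟩
  rw [← hi x, conj_uE]
  have h2 : (g : Matrix (Fin (k + 1)) (Fin (k + 1)) F) *ᵥ (e0 : Fin (k + 1) → F) = a := hg
  have h3 : cz x ᵥ* (↑(g⁻¹) : Matrix (Fin (k + 1)) (Fin (k + 1)) F) = φ := by
    rw [← hx, vecMul_vecMul, Cfsg.Agent.Lib.Helper87.sl_mul_inv, vecMul_one]
  rw [h2, h3]

theorem dich_of_family {F : Type*} [Field F] (k : ℕ) (hk : 1 ≤ k)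
    (H : Subgroup (Matrix.SpecialLinearGroup (Fin (k + 1)) F)) (t : ℕ)
    (W : Fin t → AddSubgroup (Fin k → F))
    (hW : ∀ g : Matrix.SpecialLinearGroup (Fin (k + 1)) F, ∃ i, ∀ x,
      (g⁻¹ * uE x * g ∈ H ↔ x ∈ W i))
    (h : ∀ i, W i = ⊥ ∨ W i = ⊤) :
    ∀ a : Fin (k + 1) → F, a ≠ 0 → (∀ φ : Fin (k + 1) → F, φ ⬝ᵥ a = 0 → tL a φ 1 ∈ H) ∨
      (∀ φ : Fin (k + 1) → F, φ ⬝ᵥ a = 0 → tL a φ 1 ∈ H → φ = 0) := by
  intro a ha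
  obtain ⟨g, i, hg, hkey⟩ := tr_key k hk H t W hW a ha
  rcases h i with hbot | htop
  · right
    intro φ hφ hmem
    obtain ⟨x, hx, hiff⟩ := hkey φ hφ
    have h1 : x ∈ W i := hiff.mp hmem
    rw [hbot, AddSubgroup.mem_bot] at h1
    rw [h1, cz_zero] at hx
    have h2 : (φ ᵥ* (g : Matrix (Fin (k + 1)) (Fin (k + 1)) F)) ᵥ*
        (↑(g⁻¹) : Matrix (Fin (k + 1)) (Fin (k + 1)) F) = φ := by
      rw [vecMul_vecMul, Cfsg.Agent.Lib.Helper87.sl_mul_inv, vecMul_one]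
    rw [← h2, hx, zero_vecMul]
  · left
    intro φ hφ
    obtain ⟨x, hx, hiff⟩ := hkey φ hφ
    exact hiff.mpr (by rw [htop]; exact AddSubgroup.mem_top x)

theorem hyp_of_family {F : Type*} [Field F] (k : ℕ) (hk : 1 ≤ k)
    (H : Subgroup (Matrix.SpecialLinearGroup (Fin (k + 1)) F)) (t : ℕ)
    (W : Fin t → AddSubgroup (Fin k → F))
    (hW : ∀ g : Matrix.SpecialLinearGroup (Fin (k + 1)) F, ∃ i, ∀ x,
      (g⁻¹ * uE x * g ∈ H ↔ x ∈ W i))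
    (h : ∀ i, ∃ w : Fin k → F, w ≠ 0 ∧ ∀ x, x ∈ W i ↔ w ⬝ᵥ x = 0) :
    ∀ a : Fin (k + 1) → F, a ≠ 0 → ∃ w : Fin (k + 1) → F, (∀ c : F, w ≠ c • a) ∧
      ∀ φ : Fin (k + 1) → F, φ ⬝ᵥ a = 0 → (tL a φ 1 ∈ H ↔ φ ⬝ᵥ w = 0) := by
  intro a ha
  obtain ⟨g, i, hg, hkey⟩ := tr_key k hk H t W hW a ha
  obtain ⟨w, hw0, hw⟩ := h i
  refine ⟨(g : Matrix (Fin (k + 1)) (Fin (k + 1)) F) *ᵥ cz w, fun c hc => ?_, fun φ hφ => ?_⟩
  · rw [← hg, ← mulVec_smul] at hc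
    have h1 : cz w = c • (e0 : Fin (k + 1) → F) := by
      have h2 := congrArg (fun v => (↑(g⁻¹) : Matrix (Fin (k + 1)) (Fin (k + 1)) F) *ᵥ v) hc
      simp only [mulVec_mulVec, Cfsg.Agent.Lib.Helper87.sl_inv_mul, one_mulVec] at h2
      exact h2
    have h3 := congrFun h1 0
    have h4 : c = 0 := by
      simpa [cz, e0] using h3.symm
    rw [h4, zero_smul] at h1
    exact hw0 (cz_injective (by rw [h1, cz_zero]))
  · obtain ⟨x, hx, hiff⟩ := hkey φ hφ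
    rw [hiff, hw x, dotProduct_mulVec, hx, cz_dot_cz, dotProduct_comm]

end Cfsg.Agent.Lib.Helper42.MinIdx
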