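import Mathlib
import Cfsg.Agent.Lib.Helper96.SpDefs

/-!
Project O72 (S5972), piece R2PAIR (for helper98): pairing up an orthogonal list whose norms
have even multiplicity in each square class, when `-1` is a square.
-/

set_option autoImplicit false
set_option linter.unusedSectionVars false
set_option linter.unusedVariables false

namespace Cfsg.Agent.Lib.Helper98.O72

open Module Cfsg.Agent.Lib.Helper96.Sp

variable {F : Type*} [Field F] [Fintype F] {V : Type*} [AddCommGroup V] [Module F V]
  [FiniteDimensional F V] {B : LinearMap.BilinForm F V}

open Classical in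
/-- Two non-zero elements of the same square class of a finite field differ by a non-zero
square. -/
theorem r2pair_class {x y : F} (hx : x ≠ 0) (hy : y ≠ 0)
    (h : IsSquare x ↔ IsSquare y) : ∃ s : F, s ≠ 0 ∧ y = s ^ 2 * x := by
  have key : IsSquare (y * x) := by
    by_cases hxs : IsSquare x
    · exact (h.mp hxs).mul hxs
    · have hys : ¬ IsSquare y := fun hh => hxs (h.mpr hh)
      have hx' : quadraticChar F x = -1 := quadraticChar_neg_one_iff_not_isSquare.mpr hxs
      have hy' : quadraticChar F y = -1 := quadraticChar_neg_one_iff_not_isSquare.mpr hys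
      rw [← quadraticChar_one_iff_isSquare (mul_ne_zero hy hx), map_mul, hx', hy']
      norm_num
  obtain ⟨t, ht⟩ := key
  have ht0 : t ≠ 0 := by
    rintro rfl
    rw [mul_zero] at ht
    exact mul_ne_zero hy hx ht
  refine ⟨t / x, div_ne_zero ht0 hx, ?_⟩
  field_simp
  rw [ht]
  ring

open Classical in
theorem r2pair_aux (hS : B.IsSymm) (hsq : IsSquare (-1 : F)) :
    ∀ (n : ℕ) (vs : List V), vs.length = n → vs.Pairwise (fun u v => B u v = 0) →
      (∀ v ∈ vs, B v v ≠ 0) →
      Even (vs.countP (fun v => decide (IsSquare (B v v)))) →
      Even (vs.countP (fun v => decide (¬ IsSquare (B v v)))) →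
      ∃ U : Submodule F V, U ≤ Submodule.span F {v | v ∈ vs} ∧ Orth B U U ∧
        2 * finrank F U = vs.length := by
  intro n
  induction n using Nat.strong_induction_on with
  | _ n ih =>
    intro vs hlen horth hne hc1 hc2
    rcases vs with _ | ⟨v, tl⟩
    · refine ⟨⊥, bot_le, ?_, ?_⟩
      · intro a ha b hb
        rw [(Submodule.mem_bot F).mp ha]
        simp
      · simp
    · have hv0 : B v v ≠ 0 := hne v List.mem_cons_self
      obtain ⟨u, hu, hcls⟩ : ∃ u ∈ tl, (IsSquare (B v v) ↔ IsSquare (B u u)) := by
        by_cases hv : IsSquare (B v v)
        · have hpos : 0 < tl.countP (fun v => decide (IsSquare (B v v))) := by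
            rw [List.countP_cons_of_pos (by simpa using hv)] at hc1
            by_contra h0
            have h0' : tl.countP (fun v => decide (IsSquare (B v v))) = 0 := by omega
            rw [h0'] at hc1
            exact absurd hc1 (by decide)
          obtain ⟨u, hu, hus⟩ := List.countP_pos_iff.mp hpos
          have hus' : IsSquare (B u u) := by simpa using hus
          exact ⟨u, hu, iff_of_true hv hus'⟩
        · have hpos : 0 < tl.countP (fun v => decide (¬ IsSquare (B v v))) := by
            rw [List.countP_cons_of_pos (by simpa using hv)] at hc2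
            by_contra h0
            have h0' : tl.countP (fun v => decide (¬ IsSquare (B v v))) = 0 := by omega
            rw [h0'] at hc2
            exact absurd hc2 (by decide)
          obtain ⟨u, hu, hus⟩ := List.countP_pos_iff.mp hpos
          have hus' : ¬ IsSquare (B u u) := by simpa using hus
          exact ⟨u, hu, iff_of_false hv hus'⟩
      have hu0 : B u u ≠ 0 := hne u (List.mem_cons_of_mem _ hu)
      have hperm : (v :: tl).Perm (v :: u :: tl.erase u) := (List.perm_cons_erase hu).cons v
      have horth' : (v :: u :: tl.erase u).Pairwise (fun u v => B u v = 0) :=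
        (hperm.pairwise_iff (fun {a b} hab => (hS.eq b a).trans hab)).mp horth
      rw [List.pairwise_cons, List.pairwise_cons] at horth'
      obtain ⟨hvall, huall, hrest⟩ := horth'
      have hvu : B v u = 0 := hvall u List.mem_cons_self
      have huv : B u v = 0 := (hS.eq u v).trans hvu
      have hvr : ∀ x ∈ tl.erase u, B v x = 0 := fun x hx => hvall x (List.mem_cons_of_mem _ hx)
      have hc1' := hperm.countP_eq (fun v => decide (IsSquare (B v v)))
      have hc2' := hperm.countP_eq (fun v => decide (¬ IsSquare (B v v)))
      rw [hc1'] at hc1
      rw [hc2'] at hc2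
      have hr1 : Even ((tl.erase u).countP (fun v => decide (IsSquare (B v v)))) := by
        by_cases hv : IsSquare (B v v)
        · have hu' := hcls.mp hv
          rw [List.countP_cons_of_pos (by simpa using hv),
            List.countP_cons_of_pos (by simpa using hu')] at hc1
          rcases hc1 with ⟨k, hk⟩
          exact ⟨k - 1, by omega⟩
        · have hu' : ¬ IsSquare (B u u) := fun hh => hv (hcls.mpr hh)
          rw [List.countP_cons_of_neg (by simpa using hv),
            List.countP_cons_of_neg (by simpa using hu')] at hc1
          exact hc1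
      have hr2 : Even ((tl.erase u).countP (fun v => decide (¬ IsSquare (B v v)))) := by
        by_cases hv : IsSquare (B v v)
        · have hu' := hcls.mp hv
          rw [List.countP_cons_of_neg (by simpa using hv),
            List.countP_cons_of_neg (by simpa using hu')] at hc2
          exact hc2
        · have hu' : ¬ IsSquare (B u u) := fun hh => hv (hcls.mpr hh)
          rw [List.countP_cons_of_pos (by simpa using hv),
            List.countP_cons_of_pos (by simpa using hu')] at hc2
          rcases hc2 with ⟨k, hk⟩
          exact ⟨k - 1, by omega⟩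
      have htlpos : 0 < tl.length := List.length_pos_of_mem hu
      have hlenE : (tl.erase u).length = tl.length - 1 := List.length_erase_of_mem hu
      have hlen' : (tl.erase u).length < n := by
        rw [← hlen, List.length_cons, hlenE]
        omega
      obtain ⟨U', hU'le, hU'o, hU'd⟩ := ih _ hlen' (tl.erase u) rfl hrest
        (fun x hx => hne x (List.mem_cons_of_mem _ (List.mem_of_mem_erase hx))) hr1 hr2
      obtain ⟨s, hs0, hs⟩ := r2pair_class hv0 hu0 hcls
      obtain ⟨i, hi⟩ := hsq
      obtain ⟨w, hw⟩ : ∃ w : V, w = s • v + i • u := ⟨_, rfl⟩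
      have hww : B w w = 0 := by
        rw [hw]
        simp only [map_add, map_smul, LinearMap.add_apply, LinearMap.smul_apply, smul_eq_mul,
          hvu, huv, mul_zero, add_zero, zero_add]
        rw [hs]
        linear_combination (-(s ^ 2 * B v v)) * hi
      have hvw : B v w = s * B v v := by
        rw [hw]
        simp only [map_add, map_smul, smul_eq_mul, hvu, mul_zero, add_zero]
      have hwspan : Submodule.span F {x | x ∈ tl.erase u} ≤ LinearMap.ker (B w) := by
        rw [Submodule.span_le]
        intro x hx
        rw [SetLike.mem_coe, LinearMap.mem_ker, hw]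
        simp only [map_add, map_smul, LinearMap.add_apply, LinearMap.smul_apply, smul_eq_mul]
        rw [hvr x hx, huall x hx, mul_zero, mul_zero, add_zero]
      have hvspan : Submodule.span F {x | x ∈ tl.erase u} ≤ LinearMap.ker (B v) := by
        rw [Submodule.span_le]
        intro x hx
        rw [SetLike.mem_coe, LinearMap.mem_ker]
        exact hvr x hx
      have hwU' : ∀ x ∈ U', B w x = 0 := fun x hx => LinearMap.mem_ker.mp (hwspan (hU'le hx))
      have hU'w : ∀ x ∈ U', B x w = 0 := fun x hx => (hS.eq x w).trans (hwU' x hx)
      have hwnot : w ∉ U' := by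
        intro hmem
        have h0 : B v w = 0 := LinearMap.mem_ker.mp (hvspan (hU'le hmem))
        rw [hvw] at h0
        exact mul_ne_zero hs0 hv0 h0
      have hw0 : w ≠ 0 := by
        rintro rfl
        exact hwnot U'.zero_mem
      refine ⟨U' ⊔ Submodule.span F {w}, ?_, ?_, ?_⟩
      · refine sup_le (hU'le.trans (Submodule.span_mono ?_)) ?_
        · intro x hx
          exact List.mem_cons_of_mem _ (List.mem_of_mem_erase hx)
        · rw [Submodule.span_singleton_le_iff_mem, hw]
          exact Submodule.add_mem _
            (Submodule.smul_mem _ _ (Submodule.subset_span List.mem_cons_self))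
            (Submodule.smul_mem _ _ (Submodule.subset_span (List.mem_cons_of_mem _ hu)))
      · intro a ha b hb
        obtain ⟨a', ha', a'', ha'', rfl⟩ := Submodule.mem_sup.mp ha
        obtain ⟨b', hb', b'', hb'', rfl⟩ := Submodule.mem_sup.mp hb
        obtain ⟨c, rfl⟩ := Submodule.mem_span_singleton.mp ha''
        obtain ⟨d, rfl⟩ := Submodule.mem_span_singleton.mp hb''
        simp only [map_add, map_smul, LinearMap.add_apply, LinearMap.smul_apply, smul_eq_mul,
          hU'o a' ha' b' hb', hU'w a' ha', hwU' b' hb', hww, mul_zero, add_zero]
      · have hdisj : Disjoint U' (Submodule.span F {w}) :=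
          (Submodule.disjoint_span_singleton' hw0).mpr hwnot
        have h1 := Submodule.finrank_sup_add_finrank_inf_eq U' (Submodule.span F {w})
        rw [disjoint_iff.mp hdisj, finrank_bot, add_zero, finrank_span_singleton hw0] at h1
        rw [h1, List.length_cons]
        omega

open Classical in
/-- PIECE R2PAIR: pairing up an orthogonal list whose norms have even multiplicity in each
square class, when `-1` is a square. -/
theorem exists_ti_of_pairs (hS : B.IsSymm) (hchar2 : (2 : F) ≠ 0) (hsq : IsSquare (-1 : F))
    (vs : List V) (horth : vs.Pairwise (fun u v => B u v = 0)) (hne : ∀ v ∈ vs, B v v ≠ 0)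
    (hc1 : Even (vs.countP (fun v => decide (IsSquare (B v v)))))
    (hc2 : Even (vs.countP (fun v => decide (¬ IsSquare (B v v))))) :
    ∃ U : Submodule F V, U ≤ Submodule.span F {v | v ∈ vs} ∧ Orth B U U ∧
      2 * finrank F U = vs.length :=
  r2pair_aux hS hsq vs.length vs rfl horth hne hc1 hc2

end Cfsg.Agent.Lib.Helper98.O72
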