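import Mathlib
import Cfsg.Prelude.Def_GeometricClasses
import Cfsg.Prelude.Def_LieClassical
import Cfsg.Agent.Lib.Helper52.GeoOmega
import Cfsg.Agent.Lib.Helper52.SiegelGeom

/-! Project O9 (helper44), piece NO2G: `Ω` of a non-degenerate quadratic form in dimension at
least 5 (odd characteristic) does not stabilise a non-degenerate decomposition into blocks of
dimension `m` with `m + 3 ≤ dim`.  Proof (after helper79's NO2): let `d` be a non-singular
vector of the first block and `s ≠ 0` singular and orthogonal to the first block; an Eichler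
element (in `Ω`) maps `d` to `d + s`, which lies in no block. -/

set_option autoImplicit false

namespace Cfsg.Agent.Lib.Helper44.O9

open Matrix Cfsg.Geo QuadraticMap
open Cfsg.Agent.Lib.Helper52

variable {n : ℕ} {F : Type*} [Field F] [Fintype F]

section Transport

variable {κ : Type} [Fintype κ] [DecidableEq κ]

theorem NO2G (Q : (κ → F) → F) (hQ : IsNondegenerateQuadraticForm Q)
    (hodd : Odd (Fintype.card F)) (hk : 5 ≤ Fintype.card κ) {t m : ℕ}
    (hm : m + 3 ≤ Fintype.card κ) (D : Fin t → Submodule F (κ → F))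
    (hD : IsNondegenerateMDecomposition (QuadraticMap.polar Q) m D) :
    ¬ omegaGL Q ≤ decompositionStabilizer D := by
  classical
  obtain ⟨Q', rfl, hnd⟩ := exists_quadraticForm_of_nondeg Q hQ
  intro hle
  have h2 : (2 : F) ≠ 0 := by
    intro h
    have hch : ringChar F ∣ 2 := (ringChar.spec F 2).mp (by exact_mod_cast h)
    have hdc : ringChar F ∣ Fintype.card F := by
      have := (ringChar.spec F (Fintype.card F)).mp (by simp)
      exact this
    have hpr : (ringChar F).Prime := CharP.char_is_prime F (ringChar F)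
    have h2' : ringChar F = 2 := (Nat.prime_dvd_prime_iff_eq hpr Nat.prime_two).mp hch
    rw [h2'] at hdc
    exact (Nat.not_even_iff_odd.mpr hodd) (even_iff_two_dvd.mpr hdc)
  have ht : 2 ≤ t := hD.decomp.two_le
  obtain ⟨i0, hi0⟩ : ∃ i0 : Fin t, i0 = ⟨0, by omega⟩ := ⟨_, rfl⟩
  have hfr := hD.decomp.finrank_eq i0
  have hmpos := hD.decomp.pos
  obtain ⟨w0, hw0D, hw00⟩ : ∃ d ∈ D i0, d ≠ 0 := by
    have hne : D i0 ≠ ⊥ := by
      intro h
      rw [h, finrank_bot] at hfr
      omega
    exact (Submodule.ne_bot_iff _).mp hne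
  obtain ⟨d, hdD, hQd⟩ : ∃ d ∈ D i0, Q' d ≠ 0 := by
    by_contra hcon
    push Not at hcon
    obtain ⟨⟨x, hx, hx2⟩, -⟩ := hD.nondegenerate i0 w0 hw0D hw00
    apply hx2
    unfold QuadraticMap.polar
    rw [hcon _ ((D i0).add_mem hx hw0D), hcon x hx, hcon w0 hw0D]
    simp
  obtain ⟨b⟩ : Nonempty (Module.Basis (Fin (Module.finrank F (D i0))) F (D i0)) :=
    ⟨Module.finBasis F (D i0)⟩
  obtain ⟨s, hs0, hQs, horth⟩ := exists_singular_orth Q' hnd
    (Finset.univ.image (fun j => ((b j : D i0) : κ → F)))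
    (by
      have h3 := Finset.card_image_le
        (s := (Finset.univ : Finset (Fin (Module.finrank F (D i0)))))
        (f := fun j => ((b j : D i0) : κ → F))
      rw [Finset.card_univ, Fintype.card_fin] at h3
      omega)
  have hsorth : ∀ x ∈ D i0, polar ⇑Q' x s = 0 := by
    intro x hx
    have hL : ∀ y, ((QuadraticMap.polarBilin Q').flip s) y = polar ⇑Q' y s := fun y => rfl
    rw [← hL]
    have hx' : x = ∑ j, b.repr ⟨x, hx⟩ j • ((b j : D i0) : κ → F) := by
      have h4 : ((∑ j, b.repr ⟨x, hx⟩ j • b j : D i0) : κ → F) = x :=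
        congrArg Subtype.val (b.sum_repr ⟨x, hx⟩)
      refine h4.symm.trans ?_
      rw [Submodule.coe_sum]
      exact Finset.sum_congr rfl (fun j _ => Submodule.coe_smul _ _)
    rw [hx', map_sum]
    apply Finset.sum_eq_zero
    intro j _
    rw [map_smul, hL, horth _ (Finset.mem_image_of_mem _ (Finset.mem_univ j)), smul_zero]
  have hds : polar ⇑Q' d s = 0 := hsorth d hdD
  have hQa' : Q' d = Q' (d + s) := by
    have h3 := Q_add_smul Q' d s 1
    rw [one_smul] at h3
    rw [h3, hQs, hds]
    ring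
  have hne : d + s ∉ Submodule.span F ({d} : Set (κ → F)) := by
    intro hmem
    obtain ⟨c, hc⟩ := Submodule.mem_span_singleton.mp hmem
    have hs : s = (c - 1) • d := by
      rw [sub_smul, one_smul, hc]
      abel
    rw [hs, QuadraticMap.map_smul, smul_eq_mul] at hQs
    have hc1 : c - 1 = 0 := by
      rcases mul_eq_zero.mp hQs with h | h
      · exact mul_self_eq_zero.mp h
      · exact absurd h hQd
    apply hs0
    rw [hs, hc1, zero_smul]
  obtain ⟨p, w, hp, hpw, hmap⟩ := exists_eich_map Q' hnd hk d (d + s) hQd hQa' hne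
  have hmemΩ := coe_mem_omegaGL Q' (eich_mem_commutator Q' hnd hk p w hp hpw)
  obtain ⟨σ, hσ⟩ := hle hmemΩ
  have hmem : d + s ∈ D (σ i0) := by
    rw [← hσ i0]
    refine ⟨d, hdD, ?_⟩
    rw [Matrix.toLin'_apply, coe_eich]
    exact hmap
  by_cases hj : σ i0 = i0
  · rw [hj] at hmem
    have hsD : s ∈ D i0 := by
      have h5 := (D i0).sub_mem hmem hdD
      simpa using h5
    obtain ⟨⟨x, hx, hx2⟩, -⟩ := hD.nondegenerate i0 s hsD hs0
    exact hx2 (hsorth x hx)
  · have h5 := hD.orthogonal i0 (σ i0) (Ne.symm hj) d hdD (d + s) hmem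
    rw [polar_add_right, Cfsg.Agent.Lib.Helper51.polar_self, hds, add_zero] at h5
    exact hQd ((mul_eq_zero.mp h5).resolve_left h2)

end Transport

end Cfsg.Agent.Lib.Helper44.O9
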