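import Mathlib

/-!
Project PN4 (helper52, for S2715), piece ABS: an automorphism of `X` induces an automorphism of
a central quotient `G` of `X`.
-/

set_option autoImplicit false

namespace Cfsg.Agent.Lib.Helper52.PN4

theorem pn4abs_key {X G : Type*} [Group X] [Group G] (f : X →* G)
    (hk : f.ker = Subgroup.center X) (c : X ≃* X) {x y : X} (h : f x = f y) :
    f (c x) = f (c y) := by
  have h1 : x⁻¹ * y ∈ f.ker := by
    rw [MonoidHom.mem_ker, map_mul, map_inv, h, inv_mul_cancel]
  rw [hk] at h1
  have h2 : c (x⁻¹ * y) ∈ Subgroup.center X := by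
    rw [Subgroup.mem_center_iff] at h1 ⊢
    intro g
    have h3 := congrArg c (h1 (c.symm g))
    simpa using h3
  rw [← hk, MonoidHom.mem_ker] at h2
  simp only [map_mul, map_inv] at h2
  exact inv_mul_eq_one.mp h2

-- PIECE ABS
theorem exists_induced_aut {X G : Type*} [Group X] [Group G] (f : X →* G)
    (hf : Function.Surjective f) (hk : f.ker = Subgroup.center X) (c : X ≃* X) :
    ∃ A : MulAut G, ∀ x, A (f x) = f (c x) := by
  classical
  choose s hs using hf
  have hA : ∀ (c : X ≃* X) (x : X), f (c (s (f x))) = f (c x) :=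
    fun c x => pn4abs_key f hk c (hs (f x))
  refine ⟨MulEquiv.mk' ⟨fun g => f (c (s g)), fun g => f (c.symm (s g)), ?_, ?_⟩ ?_, ?_⟩
  · intro g
    show f (c.symm (s (f (c (s g))))) = g
    rw [hA c.symm]
    simp [hs]
  · intro g
    show f (c (s (f (c.symm (s g))))) = g
    rw [hA c]
    simp [hs]
  · intro g h
    show f (c (s (g * h))) = f (c (s g)) * f (c (s h))
    rw [← map_mul, ← map_mul]
    apply pn4abs_key f hk c
    rw [hs, map_mul, hs, hs]
  · intro x
    exact hA c x

end Cfsg.Agent.Lib.Helper52.PN4
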