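import Cfsg.Agent.Lib.Helper22.PTDefs
import Cfsg.Agent.Lib.Helper6.PSLCard

/-!
Project PT (helper22, for S4705), piece NOPSL: `PSL₂(p)` does not have order `p (p-1) (p-2)`
for `p > 5`.
-/

set_option autoImplicit false
set_option linter.unusedSectionVars false

namespace Cfsg.Agent.Lib.Helper42.PT

open Cfsg Cfsg.Agent.Lib.Helper22.BFD Cfsg.Agent.Lib.Helper22.PT
open scoped ComplexConjugate

universe u

variable {G : Type u} [Group G] [Fintype G]

/-- PIECE NOPSL -/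
theorem nopsl (p : ℕ) (hp : 5 < p) (F : Type) [Field F] [Fintype F] (hF : Fintype.card F = p)
    (e : G ≃* Matrix.ProjectiveSpecialLinearGroup (Fin 2) F)
    (hG : Nat.card G = p * (p - 1) * (p - 2)) : False := by
  have hN : Nat.card G = Nat.card (Matrix.ProjectiveSpecialLinearGroup (Fin 2) F) :=
    Nat.card_congr e.toEquiv
  have hc := Cfsg.Agent.Lib.Helper6.card_psl hF 2 (by norm_num)
  rw [← hN, Fin.prod_univ_two, hG] at hc
  obtain ⟨j, rfl⟩ : ∃ j, p = j + 6 := ⟨p - 6, by omega⟩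
  have e0 : ((0 : Fin 2) : ℕ) = 0 := rfl
  have e1 : ((1 : Fin 2) : ℕ) = 1 := rfl
  have h1 : (j + 6) ^ 2 - (j + 6) ^ 0 = (j + 5) * (j + 7) := by
    have h : (j + 6) ^ 2 = (j + 5) * (j + 7) + 1 := by ring
    rw [pow_zero]
    omega
  have h2 : (j + 6) ^ 2 - (j + 6) ^ 1 = (j + 5) * (j + 6) := by
    have h : (j + 6) ^ 2 = (j + 5) * (j + 6) + (j + 6) := by ring
    rw [pow_one]
    omega
  have h3 : j + 6 - 1 = j + 5 := by omega
  have h4 : j + 6 - 2 = j + 4 := by omega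
  rw [e0, e1, h1, h2, h3, h4] at hc
  obtain ⟨g, hg⟩ : ∃ g, g = Nat.gcd 2 (j + 5) := ⟨_, rfl⟩
  rw [← hg] at hc
  have hg2 : g ≤ 2 := by
    rw [hg]
    exact Nat.gcd_le_left _ (by norm_num)
  have h5 : g * (j + 4) = j + 7 := by
    have h6 : ((j + 5) * (j + 5) * (j + 6)) * (g * (j + 4)) =
        ((j + 5) * (j + 5) * (j + 6)) * (j + 7) := by
      calc ((j + 5) * (j + 5) * (j + 6)) * (g * (j + 4))
          = g * ((j + 5) * ((j + 6) * (j + 5) * (j + 4))) := by ring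
        _ = (j + 5) * (j + 7) * ((j + 5) * (j + 6)) := hc
        _ = ((j + 5) * (j + 5) * (j + 6)) * (j + 7) := by ring
    exact Nat.eq_of_mul_eq_mul_left (by positivity) h6
  interval_cases g <;> omega

end Cfsg.Agent.Lib.Helper42.PT
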