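import Cfsg.Agent.Lib.Helper98.H74Defs
import Cfsg.Agent.Lib.Helper61.H74GSTRUCT
import Cfsg.Agent.Lib.Helper11.H74TYR
import Cfsg.Agent.Lib.Helper67.H74EXC
import Cfsg.Agent.Lib.Helper24.H74SUM

/-!
Project PE (helper96, for S5988), piece MODFIX (`_of` form): `ModelH` implies that every isometry
of odd prime order `r ≠ p` fixes a typed nondegenerate subspace.  Glue of the H74 pieces
`g_struct`, `rnd_typ`, `subtyp_sub` (imported) and `rnd_exists`, `subtyp_sup` (hypotheses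
`EXR`, `SUM`, stated exactly as in helper98's skeleton).
-/

set_option autoImplicit false
set_option linter.unusedSectionVars false
set_option linter.unusedVariables false

namespace Cfsg.Agent.Lib.Helper42.Pe

universe u

open Cfsg.Agent.Lib.Helper47 Cfsg.Agent.Lib.Helper98.T73 Cfsg.Agent.Lib.Helper98.H74 Module

variable {F : Type u} [Field F] [Fintype F] {V : Type u} [AddCommGroup V] [Module F V]
  [FiniteDimensional F V] {Q : V → F} {B : V → V → F}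

theorem modfix_sgn_or (i j : ℕ) : sgn i j = 1 ∨ sgn i j = -1 := by
  unfold sgn
  split_ifs
  · exact neg_one_pow_eq_or ℤ j
  · exact Or.inl rfl

theorem modfix_sgn_sq (i j : ℕ) : sgn i j * sgn i j = 1 := by
  rcases modfix_sgn_or i j with h | h <;> rw [h] <;> norm_num

theorem modfix_sgn_zero (i : ℕ) : sgn i 0 = 1 := by
  unfold sgn
  split_ifs <;> simp

theorem modfix_fixed (g : Module.End F V) (W : Submodule F V)
    (hW : W ≤ LinearMap.ker (g - 1)) : W.map g ≤ W := by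
  rintro _ ⟨w, hw, rfl⟩
  have h0 : (g - 1) w = 0 := LinearMap.mem_ker.mp (hW hw)
  rw [LinearMap.sub_apply, Module.End.one_apply, sub_eq_zero] at h0
  rw [h0]
  exact hw

/-- PIECE MODFIX, with the two not yet landed H74 pieces `rnd_exists` (EXR) and `subtyp_sup`
(SUM) as hypotheses. -/
theorem model_fix_of (hf : QFacts F) (hQ : IsQuad Q B) (hnd : Nondeg B) (d : ℕ) (hd : 2 ≤ d)
    (hdim : finrank F V = 2 * d) (ε : ℤ) (hε : ε = 1 ∨ ε = -1) (htyp : IsTyp Q (d - 1) ε)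
    (p : ℕ) [Fact p.Prime] [CharP F p] (r : ℕ) (hr : r.Prime) (hr2 : r ≠ 2) (hrp : r ≠ p)
    (k : ℕ) (τ : ℤ) (hτ : τ = 1 ∨ τ = -1) (hk : k + 2 ≤ d)
    (hM : ModelH ε τ (orderOf ((Fintype.card F : ℕ) : ZMod r)) d (2 * k + 2))
    (EXR : ∀ {V : Type u} [AddCommGroup V] [Module F V] [FiniteDimensional F V] {Q : V → F}
      {B : V → V → F} (hQ : IsQuad Q B) (hnd : Nondeg B) (p : ℕ) [Fact p.Prime] [CharP F p]
      (r : ℕ) (hr : r.Prime) (hr2 : r ≠ 2) (hrp : r ≠ p) (g : Module.End F V) (hgQ : QI Q g)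
      (hg : g ^ r = 1) (j : ℕ)
      (hj : orderOf ((Fintype.card F : ℕ) : ZMod r) * j ≤ finrank F (LinearMap.range (g - 1)))
      (hjo : Odd (orderOf ((Fintype.card F : ℕ) : ZMod r)) → Even j),
      ∃ W₁ : Submodule F V, W₁ ≤ LinearMap.range (g - 1) ∧ W₁.map g ≤ W₁ ∧
        Nondeg (resForm B W₁) ∧
        finrank F W₁ = orderOf ((Fintype.card F : ℕ) : ZMod r) * j)
    (SUM : ∀ {V : Type u} [AddCommGroup V] [Module F V] [FiniteDimensional F V] {Q : V → F}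
      {B : V → V → F} (hf : QFacts F) (hQ : IsQuad Q B) (X Y : Submodule F V)
      (hXY : ∀ x ∈ X, ∀ y ∈ Y, B x y = 0) (k₁ k₂ : ℕ) (ε₁ ε₂ : ℤ)
      (hX : SubTyp Q B X k₁ ε₁) (hY : SubTyp Q B Y k₂ ε₂),
      SubTyp Q B (X ⊔ Y) (k₁ + k₂ + 1) (ε₁ * ε₂))
    (g : Module.End F V) (hgQ : QI Q g) (hg : g ^ r = 1) (hg1 : g ≠ 1) :
    ∃ W : Submodule F V, SubTyp Q B W k τ ∧ W.map g ≤ W := by
  obtain ⟨i, hi⟩ : ∃ i : ℕ, i = orderOf ((Fintype.card F : ℕ) : ZMod r) := ⟨_, rfl⟩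
  obtain ⟨A, hV, hR, hC, hRnd, hCR, hCtyp⟩ :=
    g_struct hf hQ hnd d (by omega) hdim ε hε htyp p r hr hr2 hrp g hgQ hg hg1
  have hEXR := EXR hQ hnd p r hr hr2 hrp g hgQ hg
  have hTYR := rnd_typ hf hQ hnd p r hr hr2 hrp g hgQ hg
  rw [← hi] at hM hV hR hC hCtyp hEXR hTYR
  have hi1 : 1 ≤ i := by
    by_contra hcon
    have hi0 : i = 0 := by omega
    rw [hi0, Nat.zero_mul] at hR
    have hbot : LinearMap.range (g - 1) = ⊥ := Submodule.finrank_eq_zero.mp hR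
    have h0 : g - 1 = 0 := LinearMap.range_eq_bot.mp hbot
    exact hg1 (sub_eq_zero.mp h0)
  have hV' := hV
  obtain ⟨hA1, hA2, hA3, hA4⟩ := hV'
  obtain ⟨j, w, h1, h2, h3, h4, h5, h6⟩ := hM A hV
  have hevA : Even (i * A) := by
    rcases Nat.even_or_odd i with h | h
    · exact h.mul_right A
    · exact (hA3 h).mul_left i
  have hevj : Even (i * j) := by
    rcases Nat.even_or_odd i with h | h
    · exact h.mul_right j
    · exact (h2 h).mul_left i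
  have hjA : i * j ≤ i * A := Nat.mul_le_mul_left i h1
  obtain ⟨a, ha⟩ := hevA
  obtain ⟨b, hb⟩ := hevj
  -- invariant nondegenerate typed subspaces of the range
  have hW1 : ∀ k₁ : ℕ, i * j = 2 * k₁ + 2 → ∃ W₁ : Submodule F V,
      W₁ ≤ LinearMap.range (g - 1) ∧ W₁.map g ≤ W₁ ∧ SubTyp Q B W₁ k₁ (sgn i j) := by
    intro k₁ hk₁
    obtain ⟨W₁, hW₁R, hW₁g, hW₁nd, hW₁dim⟩ := hEXR j (by rw [hR]; exact hjA) h2
    obtain ⟨j', hj'1, hj'2, hj'3⟩ := hTYR W₁ hW₁R hW₁g hW₁nd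
    have hjj : j' = j := by
      have hij : i * j' = i * j := by rw [← hj'1, hW₁dim]
      exact Nat.eq_of_mul_eq_mul_left (by omega) hij
    rw [hjj] at hj'3
    exact ⟨W₁, hW₁R, hW₁g, hj'3 k₁ hk₁⟩
  -- typed subspaces of the fixed space
  have hWC : ∀ (k₂ : ℕ) (τ' : ℤ), (τ' = 1 ∨ τ' = -1) → 2 * k₂ + 2 ≤ 2 * d - i * A →
      (2 * k₂ + 2 = 2 * d - i * A → τ' = ε * sgn i A) →
      ∃ W : Submodule F V, W ≤ LinearMap.ker (g - 1) ∧ SubTyp Q B W k₂ τ' := by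
    intro k₂ τ' hτ' hle heq
    obtain ⟨e, he⟩ : ∃ e : ℕ, 2 * d - i * A = 2 * e + 2 :=
      ⟨(2 * d - i * A) / 2 - 1, by omega⟩
    have hCt := hCtyp e he
    have hk₂ : k₂ < e ∨ (k₂ = e ∧ τ' = ε * sgn i A) := by
      by_cases hlt : k₂ < e
      · exact Or.inl hlt
      · have hke : k₂ = e := by omega
        exact Or.inr ⟨hke, heq (by omega)⟩
    exact subtyp_sub hf hQ _ e _ hCt k₂ τ' hτ' hk₂
  rcases Nat.eq_zero_or_pos w with hw0 | hwpos
  · -- `w = 0`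
    rw [hw0, add_zero] at h3
    obtain ⟨W₁, hW₁R, hW₁g, hW₁t⟩ := hW1 k h3.symm
    rw [h5 hw0] at hW₁t
    exact ⟨W₁, hW₁t, hW₁g⟩
  · rcases Nat.eq_zero_or_pos (i * j) with hij0 | hijpos
    · -- `j = 0`
      have hj0 : j = 0 := by
        rcases Nat.mul_eq_zero.mp hij0 with h | h
        · omega
        · exact h
      have hτeq : 2 * k + 2 = 2 * d - i * A → τ = ε * sgn i A := by
        intro heq
        have h7 := h6 hwpos (by omega)
        rw [hj0, modfix_sgn_zero, mul_one] at h7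
        exact h7
      obtain ⟨W, hWC', hWt⟩ := hWC k τ hτ (by omega) hτeq
      exact ⟨W, hWt, modfix_fixed g W hWC'⟩
    · -- both parts nonzero
      obtain ⟨k₁, hk₁⟩ : ∃ k₁ : ℕ, i * j = 2 * k₁ + 2 := ⟨b - 1, by omega⟩
      obtain ⟨k₂, hk₂⟩ : ∃ k₂ : ℕ, w = 2 * k₂ + 2 := ⟨w / 2 - 1, by omega⟩
      obtain ⟨W₁, hW₁R, hW₁g, hW₁t⟩ := hW1 k₁ hk₁
      have hτ' : τ * sgn i j = 1 ∨ τ * sgn i j = -1 := by
        rcases hτ with h | h <;> rcases modfix_sgn_or i j with h' | h' <;> rw [h, h'] <;>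
          norm_num
      have hτeq : 2 * k₂ + 2 = 2 * d - i * A → τ * sgn i j = ε * sgn i A := by
        intro heq
        exact h6 hwpos (by omega)
      obtain ⟨WC, hWCC, hWCt⟩ := hWC k₂ (τ * sgn i j) hτ' (by omega) hτeq
      have hsum := SUM hf hQ WC W₁ (fun x hx y hy => hCR x (hWCC hx) y (hW₁R hy)) k₂ k₁ _ _
        hWCt hW₁t
      have e1 : k₂ + k₁ + 1 = k := by omega
      have e2 : τ * sgn i j * sgn i j = τ := by rw [mul_assoc, modfix_sgn_sq, mul_one]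
      rw [e1, e2] at hsum
      refine ⟨WC ⊔ W₁, hsum, ?_⟩
      rw [Submodule.map_sup]
      exact sup_le_sup (modfix_fixed g WC hWCC) hW₁g

/-- PIECE MODFIX, with only `rnd_exists` (EXR) as a hypothesis (`subtyp_sup` is imported from
`Helper24.H74SUM`). -/
theorem model_fix_of_exr (hf : QFacts F) (hQ : IsQuad Q B) (hnd : Nondeg B) (d : ℕ) (hd : 2 ≤ d)
    (hdim : finrank F V = 2 * d) (ε : ℤ) (hε : ε = 1 ∨ ε = -1) (htyp : IsTyp Q (d - 1) ε)
    (p : ℕ) [Fact p.Prime] [CharP F p] (r : ℕ) (hr : r.Prime) (hr2 : r ≠ 2) (hrp : r ≠ p)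
    (k : ℕ) (τ : ℤ) (hτ : τ = 1 ∨ τ = -1) (hk : k + 2 ≤ d)
    (hM : ModelH ε τ (orderOf ((Fintype.card F : ℕ) : ZMod r)) d (2 * k + 2))
    (EXR : ∀ {V : Type u} [AddCommGroup V] [Module F V] [FiniteDimensional F V] {Q : V → F}
      {B : V → V → F} (hQ : IsQuad Q B) (hnd : Nondeg B) (p : ℕ) [Fact p.Prime] [CharP F p]
      (r : ℕ) (hr : r.Prime) (hr2 : r ≠ 2) (hrp : r ≠ p) (g : Module.End F V) (hgQ : QI Q g)
      (hg : g ^ r = 1) (j : ℕ)
      (hj : orderOf ((Fintype.card F : ℕ) : ZMod r) * j ≤ finrank F (LinearMap.range (g - 1)))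
      (hjo : Odd (orderOf ((Fintype.card F : ℕ) : ZMod r)) → Even j),
      ∃ W₁ : Submodule F V, W₁ ≤ LinearMap.range (g - 1) ∧ W₁.map g ≤ W₁ ∧
        Nondeg (resForm B W₁) ∧
        finrank F W₁ = orderOf ((Fintype.card F : ℕ) : ZMod r) * j)
    (g : Module.End F V) (hgQ : QI Q g) (hg : g ^ r = 1) (hg1 : g ≠ 1) :
    ∃ W : Submodule F V, SubTyp Q B W k τ ∧ W.map g ≤ W :=
  model_fix_of hf hQ hnd d hd hdim ε hε htyp p r hr hr2 hrp k τ hτ hk hM EXR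
    (@subtyp_sup F _ _) g hgQ hg hg1

end Cfsg.Agent.Lib.Helper42.Pe
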