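import Mathlib
import Cfsg.Prelude.Def_RootSubgroups
import Cfsg.Prelude.Def_QuasithinSetup
import Cfsg.Agent.Lib.Helper12.RootInv
import Cfsg.Agent.Lib.Helper20.RI1

/-! S5048 project: the assembly, with the pieces RS-COMM, RS-CORE, RS-ZLE, RS-ZNE, RS-ZSOLV as
hypotheses. -/

set_option autoImplicit false

namespace Cfsg.Agent.Lib.Helper42.RS

open Cfsg Cfsg.Agent.Lib.Helper12.RootInv Cfsg.Agent.Lib.Helper20.RI

variable {G : Type*} [Group G]

theorem main_of [Finite G] {D : Set G} (hD : IsRootInvolutionSet D)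
    (hc : IsConnectedSet (OddAdj D) D) (hDD : (D ∩ commutingProducts D).Nonempty)
    (hCOMM : ∀ (N : Subgroup G) [N.Normal], (∀ f ∈ D, ∃ b ∈ D, b * f = f * b ∧ b * f ∈ D) →
      (∀ d ∈ D, d ∉ N) → ∀ {f₁ f₂ : G}, f₁ ∈ D → f₂ ∈ D → f₁ * f₂ ∈ N → f₁ * f₂ = f₂ * f₁)
    (hCORE : ∀ (N : Subgroup G) [N.Normal],
      (∀ f₁ ∈ D, ∀ f₂ ∈ D, f₁ * f₂ ∈ N → f₁ * f₂ = f₂ * f₁) →
      ∀ {d n : G}, d ∈ D → n ∈ N → d * n * d⁻¹ * n⁻¹ ∈ pCore 2 G)
    (hZLE : ∀ (N : Subgroup G), (∀ d ∈ D, ∀ n ∈ N, d * n * d⁻¹ * n⁻¹ ∈ pCore 2 G) →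
      N ≤ twoZCore G)
    (hZNE : ∀ {c a : G}, OddAdj D c a → c ∉ twoZCore G)
    (hZS : Group.IsSolvable ↥(twoZCore G)) :
    solvableRadical G = twoZCore G ∧ IsSimpleGroup (G ⧸ twoZCore G) := by
  have hconj := conj_class hD hc
  obtain ⟨x, hxD, a, haD, b, hbD, hab, hab1, hxab⟩ := hDD
  have ha2 := ri_sq hD haD
  have hb2 := ri_sq hD hbD
  have hx2 := ri_sq hD hxD
  -- partners
  have hax : a * x = b := by rw [hxab, ← mul_assoc, ha2, one_mul]
  have hxa : x * a = b := by rw [hxab, hab, mul_assoc, ha2, mul_one]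
  have hpart : ∀ f ∈ D, ∃ p ∈ D, p * f = f * p ∧ p * f ∈ D := by
    intro f hf
    obtain ⟨g, hg⟩ := hconj x hxD f hf
    refine ⟨g * a * g⁻¹, hD.conj_mem a haD g, ?_, ?_⟩
    · rw [hg]
      have e1 : g * a * g⁻¹ * (g * x * g⁻¹) = g * (a * x) * g⁻¹ := by group
      have e2 : g * x * g⁻¹ * (g * a * g⁻¹) = g * (x * a) * g⁻¹ := by group
      rw [e1, e2, hax, hxa]
    · rw [hg]
      have e1 : g * a * g⁻¹ * (g * x * g⁻¹) = g * (a * x) * g⁻¹ := by group
      rw [e1, hax]
      exact hD.conj_mem b hbD g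
  -- proper normal subgroups lie in `twoZCore`
  have hkey : ∀ N : Subgroup G, N.Normal → N ≠ ⊤ → N ≤ twoZCore G := by
    intro N hNn hNtop
    have hDN : ∀ d ∈ D, d ∉ N := by
      intro d₀ hd₀ hd₀N
      apply hNtop
      rw [eq_top_iff, ← hD.generates, Subgroup.closure_le]
      intro d hd
      obtain ⟨g, hg⟩ := hconj d₀ hd₀ d hd
      rw [hg]
      exact hNn.conj_mem d₀ hd₀N g
    exact hZLE N (fun d hd n hn =>
      hCORE N (fun f₁ h₁ f₂ h₂ hN => hCOMM N hpart hDN h₁ h₂ hN) hd hn)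
  -- an odd edge at `x`
  have hax_ne : x ≠ a := by
    intro e
    have h1 : a * b = a := by rw [← hxab]; exact e
    have h2 : b = 1 := by
      have := congrArg (fun t => a⁻¹ * t) h1
      simpa using this
    exact ri_ne_one hD hbD h2
  obtain ⟨c, hxc⟩ : ∃ c, OddAdj D x c := by
    rcases (hc x hxD a haD).cases_head with h | ⟨c, h, -⟩
    · exact absurd h hax_ne
    · exact ⟨c, h⟩
  have hxZ : x ∉ twoZCore G := hZNE hxc
  have hZtop : twoZCore G ≠ ⊤ := by
    intro h
    apply hxZ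
    rw [h]
    exact Subgroup.mem_top x
  -- the quotient is simple
  have hsimple : IsSimpleGroup (G ⧸ twoZCore G) := by
    have : Nontrivial (G ⧸ twoZCore G) := QuotientGroup.nontrivial_iff.mpr hZtop
    refine IsSimpleGroup.mk ?_
    intro M' hM'
    by_cases hM : M'.comap (QuotientGroup.mk' (twoZCore G)) = ⊤
    · right
      rw [eq_top_iff]
      intro q _
      obtain ⟨g, rfl⟩ := QuotientGroup.mk'_surjective (twoZCore G) q
      have hg : g ∈ M'.comap (QuotientGroup.mk' (twoZCore G)) := by rw [hM]; exact Subgroup.mem_top g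
      exact hg
    · left
      have hle := hkey _ (hM'.comap _) hM
      rw [eq_bot_iff]
      intro q hq
      obtain ⟨g, rfl⟩ := QuotientGroup.mk'_surjective (twoZCore G) q
      have hg : g ∈ twoZCore G := hle hq
      rw [Subgroup.mem_bot]
      exact (QuotientGroup.eq_one_iff g).mpr hg
  -- `G` is not solvable
  have hnsol : ¬ Group.IsSolvable G := by
    intro hsol
    have := hsimple
    have : Group.IsSolvable (G ⧸ twoZCore G) :=
      Group.isSolvable_of_surjective (QuotientGroup.mk'_surjective (twoZCore G))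
    have hcomm : ∀ s t : G ⧸ twoZCore G, s * t = t * s :=
      IsSimpleGroup.comm_iff_isSolvable.mpr inferInstance
    set π := QuotientGroup.mk' (twoZCore G) with hπ
    have hπsq : ∀ d ∈ D, π d * π d = 1 := by
      intro d hd
      rw [← map_mul, ri_sq hD hd, map_one]
    have hedge : ∀ u v : G, OddAdj D u v → π v = π u := by
      rintro u v ⟨hu, hv, -, k, hk⟩
      have h1 : (u * v) ^ (2 * k + 1) = 1 := by rw [← hk]; exact pow_orderOf_eq_one _
      have h2 : (π u * π v) ^ (2 * k + 1) = 1 := by rw [← map_mul, ← map_pow, h1, map_one]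
      have h3 : (π u * π v) * (π u * π v) = 1 := by
        calc π u * π v * (π u * π v) = π u * (π v * π u) * π v := by simp only [mul_assoc]
          _ = π u * (π u * π v) * π v := by rw [hcomm (π v) (π u)]
          _ = (π u * π u) * (π v * π v) := by simp only [mul_assoc]
          _ = 1 := by rw [hπsq u hu, hπsq v hv, mul_one]
      have h4 : π u * π v = 1 := by
        rw [pow_succ, pow_mul, pow_two, h3, one_pow, one_mul] at h2
        exact h2
      have h5 : π v = (π u)⁻¹ := eq_inv_of_mul_eq_one_right h4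
      have h6 : (π u)⁻¹ = π u := inv_eq_of_mul_eq_one_left (hπsq u hu)
      rw [h5, h6]
    have hall : ∀ d : G, Relation.ReflTransGen (OddAdj D) x d → π d = π x := by
      intro d h
      induction h with
      | refl => rfl
      | tail _ hbc ih => rw [hedge _ _ hbc, ih]
    have hπa : π a = π x := hall a (hc x hxD a haD)
    have hπb : π b = π x := hall b (hc x hxD b hbD)
    have hπx : π x = 1 := by
      have h1 : π x = π a * π b := by rw [← map_mul, ← hxab]
      rw [hπa, hπb, hπsq x hxD] at h1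
      exact h1
    exact hxZ ((QuotientGroup.eq_one_iff x).mp hπx)
  refine ⟨?_, hsimple⟩
  apply le_antisymm
  · apply sSup_le
    rintro N ⟨hNn, hNs⟩
    by_cases hN : N = ⊤
    · exfalso
      apply hnsol
      subst hN
      exact Group.isSolvable_of_surjective (f := (⊤ : Subgroup G).subtype)
        (fun g => ⟨⟨g, Subgroup.mem_top g⟩, rfl⟩)
    · exact hkey N hNn hN
  · exact le_sSup ⟨inferInstance, hZS⟩

end Cfsg.Agent.Lib.Helper42.RS
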