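import Mathlib
import Cfsg.Prelude.Def_RootSubgroups
import Cfsg.Agent.Lib.Helper12.RootInv
import Cfsg.Agent.Lib.Helper20.RI1
import Cfsg.Agent.Lib.Helper92.RILEMN
import Cfsg.Agent.Lib.Helper42.RTDefs

/-! S5047 project: the core existence statement (E).  For root involutions `u, β, x` with
`β u = u β`, `u β ∈ D`, `o(u x)` odd, `x ≠ u`, `o(β x) = 4` there is `r ∈ D` with `(u r)^2 = β`. -/

set_option autoImplicit false

namespace Cfsg.Agent.Lib.Helper42.RT

open Cfsg Cfsg.Agent.Lib.Helper12.RootInv Cfsg.Agent.Lib.Helper20.RI Cfsg.Agent.Lib.Helper92.RI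

variable {G : Type*} [Group G]

/-- the statement of piece FROB, as a hypothesis -/
def FrobStmt (G : Type*) [Group G] : Prop :=
  ∀ (ρ : G) (N : Subgroup G), (∀ g ∈ N, ρ * g * ρ⁻¹ ∈ N) → (∀ g ∈ N, ρ⁻¹ * g * ρ ∈ N) →
    (∀ g ∈ N, ∀ h ∈ N, g * h = h * g) → (∀ g ∈ N, g * g = 1) → ∀ m : ℕ, Odd m → ρ ^ m = 1 →
    ∃ K : ℕ, 1 ≤ K ∧ ∀ g ∈ N, ρ * ((theta ρ)^[K] g * g) = ((theta ρ)^[K] g * g) * ρ

theorem exists_sq_eq_of (hF : FrobStmt G) {D : Set G} (hD : IsRootInvolutionSet D) {u β x : G}
    (hu : u ∈ D) (hβ : β ∈ D) (hx : x ∈ D) (hβu : β * u = u * β) (huβ : u * β ∈ D)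
    (hodd : Odd (orderOf (u * x))) (hxu : x ≠ u) (h4 : orderOf (β * x) = 4) :
    ∃ r ∈ D, (u * r) ^ 2 = β := by
  have hu2 := ri_sq hD hu
  have hx2 := ri_sq hD hx
  have hβ2 := ri_sq hD hβ
  set ρ : G := u * x with hρ
  have hρm : ρ ^ orderOf ρ = 1 := pow_orderOf_eq_one ρ
  -- the subgroup generated by the conjugates of `β`
  set N : Subgroup G := Subgroup.closure (Set.range (bfam ρ β)) with hN
  have hgenN : ∀ i, bfam ρ β i ∈ N := fun i => Subgroup.subset_closure ⟨i, rfl⟩
  have hN1 : ∀ g ∈ N, ρ * g * ρ⁻¹ ∈ N := by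
    intro g hg
    induction hg using Subgroup.closure_induction with
    | mem y hy =>
      obtain ⟨i, rfl⟩ := hy
      rw [bfam_pred]
      exact hgenN _
    | one => simp
    | mul a b _ _ ha hb =>
      have e : ρ * (a * b) * ρ⁻¹ = (ρ * a * ρ⁻¹) * (ρ * b * ρ⁻¹) := by group
      rw [e]
      exact N.mul_mem ha hb
    | inv a _ ha =>
      have e : ρ * a⁻¹ * ρ⁻¹ = (ρ * a * ρ⁻¹)⁻¹ := by group
      rw [e]
      exact N.inv_mem ha
  have hN2 : ∀ g ∈ N, ρ⁻¹ * g * ρ ∈ N := by
    intro g hg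
    induction hg using Subgroup.closure_induction with
    | mem y hy =>
      obtain ⟨i, rfl⟩ := hy
      rw [bfam_succ]
      exact hgenN _
    | one => simp
    | mul a b _ _ ha hb =>
      have e : ρ⁻¹ * (a * b) * ρ = (ρ⁻¹ * a * ρ) * (ρ⁻¹ * b * ρ) := by group
      rw [e]
      exact N.mul_mem ha hb
    | inv a _ ha =>
      have e : ρ⁻¹ * a⁻¹ * ρ = (ρ⁻¹ * a * ρ)⁻¹ := by group
      rw [e]
      exact N.inv_mem ha
  have hLN := lemma_N hD hu hβ hx hβu huβ hodd hxu h4
  have hgen : ∀ i, ∀ h ∈ N, bfam ρ β i * h = h * bfam ρ β i := by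
    intro i h hh
    induction hh using Subgroup.closure_induction with
    | mem y hy =>
      obtain ⟨j, rfl⟩ := hy
      exact (hLN i j).eq
    | one => simp
    | mul a b _ _ ha hb => rw [← mul_assoc, ha, mul_assoc, hb, mul_assoc]
    | inv a _ ha => exact (Commute.inv_right (show Commute _ a from ha)).eq
  have hcommN : ∀ g ∈ N, ∀ h ∈ N, g * h = h * g := by
    intro g hg h hh
    induction hg using Subgroup.closure_induction with
    | mem y hy =>
      obtain ⟨i, rfl⟩ := hy
      exact hgen i h hh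
    | one => simp
    | mul a b _ _ ha hb => rw [mul_assoc, hb, ← mul_assoc, ha, mul_assoc]
    | inv a _ ha => exact (Commute.inv_left (show Commute a h from ha)).eq
  have hsqN : ∀ g ∈ N, g * g = 1 := by
    intro g hg
    induction hg using Subgroup.closure_induction with
    | mem y hy =>
      obtain ⟨i, rfl⟩ := hy
      exact bfam_sq hβ2 i
    | one => simp
    | mul a b ha hb iha ihb =>
      have hab : a * b = b * a := hcommN a ha b hb
      calc a * b * (a * b) = a * (b * a) * b := by simp only [mul_assoc]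
        _ = a * (a * b) * b := by rw [hab]
        _ = (a * a) * (b * b) := by simp only [mul_assoc]
        _ = 1 := by rw [iha, ihb, mul_one]
    | inv a _ iha =>
      have e : a⁻¹ * a⁻¹ = (a * a)⁻¹ := by group
      rw [e, iha, inv_one]
  have hβN : β ∈ N := by
    have := hgenN 0
    rwa [bfam_zero] at this
  have hθN : ∀ g ∈ N, theta ρ g ∈ N := fun g hg => N.mul_mem (hN1 g hg) (hN2 g hg)
  -- the iteration
  have hBB : ∀ k : ℕ, BB D u x ((theta ρ)^[k] β) := by
    intro k
    induction k with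
    | zero => exact ⟨hβ, hβu, huβ, h4⟩
    | succ k ih =>
      rw [Function.iterate_succ_apply']
      exact (step hD hu hx hodd hxu ih).2.2
  have hitN : ∀ k : ℕ, (theta ρ)^[k] β ∈ N := by
    intro k
    induction k with
    | zero => exact hβN
    | succ k ih =>
      rw [Function.iterate_succ_apply']
      exact hθN _ ih
  obtain ⟨K, hK1, hK⟩ := hF ρ N hN1 hN2 hcommN hsqN (orderOf ρ) hodd hρm
  -- `y = 1`
  have hg1N := hitN K
  have hg1 := hBB K
  have hyρ := hK β hβN
  set g₁ : G := (theta ρ)^[K] β with hg₁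
  have hyN : g₁ * β ∈ N := N.mul_mem hg1N hβN
  have hy2 : (g₁ * β) * (g₁ * β) = 1 := hsqN _ hyN
  have hg1β : g₁ * β = β * g₁ := hcommN _ hg1N _ hβN
  have hyu : u * (g₁ * β) = (g₁ * β) * u := by
    rw [← mul_assoc, ← hg1.comm, mul_assoc, ← hβu, mul_assoc]
  have hxρ : x = u * ρ := by rw [hρ, ← mul_assoc, hu2, one_mul]
  have hyx : x * (g₁ * β) = (g₁ * β) * x := by
    rw [hxρ, mul_assoc, hyρ, ← mul_assoc, hyu, mul_assoc]
  have hyβ : β * (g₁ * β) = (g₁ * β) * β := hcommN _ hβN _ hyN
  have hy1 : g₁ * β = 1 := by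
    by_contra hne
    have hw : β * u * (g₁ * β) = (g₁ * β) * (β * u) := by
      rw [mul_assoc, hyu, ← mul_assoc, hyβ, mul_assoc]
    have hwD : β * u * (g₁ * β) ∈ D := by
      have e : β * u * (g₁ * β) = u * g₁ := by
        calc β * u * (g₁ * β) = u * β * (β * g₁) := by rw [hβu, hg1β]
          _ = u * (β * β) * g₁ := by simp only [mul_assoc]
          _ = u * g₁ := by rw [hβ2, mul_one]
      rw [e]
      exact hg1.prod
    have hoddc : Odd (orderOf (β * u * x)) :=
      (key_lemma hD hβ hu hx hβu (by rw [hβu]; exact huβ) hodd (fun e => hxu e.symm)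
        (four_not_odd h4)).2.2.2
    have h5 := l2 hD hy2 hne hw hwD hx hyx hoddc
    have h6 : u * x = x * u := by
      rw [← h5]
      calc u * (β * u) = u * β * u := by rw [mul_assoc]
        _ = β * u * u := by rw [hβu]
    exact hxu (eq_of_comm_odd hD hu hx h6 hodd).symm
  have hg1eq : g₁ = β := by
    have h1 : g₁ = β⁻¹ := eq_inv_of_mul_eq_one_left hy1
    rw [h1, ri_inv hD hβ]
  -- the element `r`
  obtain ⟨K', rfl⟩ : ∃ K', K = K' + 1 := ⟨K - 1, by omega⟩
  have hπ := hBB K'
  set π : G := (theta ρ)^[K'] β with hπdef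
  have hθπ : theta ρ π = β := by
    rw [← hg1eq, hg₁, Function.iterate_succ_apply']
  obtain ⟨hc1, hc2, -⟩ := step hD hu hx hodd hxu hπ
  have hπ2 := ri_sq hD hπ.mem
  have hπu := hπ.comm
  have hρinv : (u * x)⁻¹ = x * u := by rw [mul_inv_rev, ri_inv hD hu, ri_inv hD hx]
  have hP1 : (u * x)⁻¹ * π * (u * x) = x * π * x := by
    rw [hρinv]
    calc x * u * π * (u * x) = x * (u * π) * u * x := by simp only [mul_assoc]
      _ = x * (π * u) * u * x := by rw [hπu]
      _ = x * π * (u * u) * x := by simp only [mul_assoc]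
      _ = x * π * x := by rw [hu2, mul_one]
  have hP2 : (u * x) * π * (u * x)⁻¹ = u * (x * π * x) * u := by
    rw [hρinv]
    simp only [mul_assoc]
  rw [hP1] at hc1 hc2
  rw [hP2] at hc2
  have hθ' : theta ρ π = (u * (x * π * x) * u) * (x * π * x) := by
    rw [theta_def, hρ, hP1, hP2]
  refine ⟨(π * x) ^ 2, four_mem hD hπ.mem hx hπ.four, ?_⟩
  rw [← hθπ, hθ']
  have hr : (π * x) ^ 2 = π * (x * π * x) := by
    rw [pow_two]; simp only [mul_assoc]
  have huπu : u * π * u = π := by
    rw [← hπu, mul_assoc, hu2, mul_one]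
  -- `π` commutes with `u (x π x) u`
  have hc3 : π * (u * (x * π * x) * u) = (u * (x * π * x) * u) * π := by
    have h1 : π * (x * π * x) = (x * π * x) * π := hc1.eq
    calc π * (u * (x * π * x) * u) = (u * π * u) * (u * (x * π * x) * u) := by rw [huπu]
      _ = u * (π * (u * u) * (x * π * x)) * u := by simp only [mul_assoc]
      _ = u * (π * (x * π * x)) * u := by rw [hu2, mul_one]
      _ = u * ((x * π * x) * π) * u := by rw [h1]
      _ = u * ((x * π * x) * (u * u) * π) * u := by rw [hu2, mul_one]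
      _ = (u * (x * π * x) * u) * (u * π * u) := by simp only [mul_assoc]
      _ = (u * (x * π * x) * u) * π := by rw [huπu]
  rw [hr, pow_two]
  calc u * (π * (x * π * x)) * (u * (π * (x * π * x)))
      = (u * π * u) * (u * (x * π * x) * u) * (π * (x * π * x)) := by
        have : u * (π * (x * π * x)) * (u * (π * (x * π * x)))
            = u * π * (u * u) * (x * π * x) * u * (π * (x * π * x)) := by
          rw [hu2, mul_one]; simp only [mul_assoc]
        rw [this]; simp only [mul_assoc]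
    _ = π * (u * (x * π * x) * u) * (π * (x * π * x)) := by rw [huπu]
    _ = (u * (x * π * x) * u) * π * (π * (x * π * x)) := by rw [hc3]
    _ = (u * (x * π * x) * u) * (π * π) * (x * π * x) := by simp only [mul_assoc]
    _ = (u * (x * π * x) * u) * (x * π * x) := by rw [hπ2, mul_one]

end Cfsg.Agent.Lib.Helper42.RT
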