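import Mathlib
import Cfsg.Prelude.Def_RootSubgroups
import Cfsg.Agent.Lib.Helper12.RootInv
import Cfsg.Agent.Lib.Helper20.RI1
import Cfsg.Agent.Lib.Helper92.RILEMN
import Cfsg.Agent.Lib.Helper42.RTDefs
import Cfsg.Agent.Lib.Helper42.RTCore

/-! S5047 project: the assembly, with the pieces EXX and ORD3 (and FROB) as hypotheses. -/

set_option autoImplicit false

namespace Cfsg.Agent.Lib.Helper42.RT

open Cfsg Cfsg.Agent.Lib.Helper12.RootInv Cfsg.Agent.Lib.Helper20.RI Cfsg.Agent.Lib.Helper92.RI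

variable {G : Type*} [Group G]

theorem main_of (hF : FrobStmt G) {D : Set G} (hD : IsRootInvolutionSet D)
    (hE : ∀ {a b : G}, a ∈ D → b ∈ D → a * b = b * a → a * b ∈ D →
      commutingMembers D a ≠ commutingMembers D b →
      ∃ x ∈ D, x ≠ a ∧ Odd (orderOf (a * x)) ∧ orderOf (b * x) = 4)
    (hO : ∀ {a b n x : G}, a ∈ D → b ∈ D → n ∈ D → x ∈ D → a * b = b * a → a * b ∈ D →
      (a * n) ^ 2 = b → (b * x) ^ 2 = n → orderOf (a * x) = 3)
    {a b : G} (ha : a ∈ D) (hb : b ∈ productPartners D a)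
    (hbE : b ∉ sameCommutingClass D a) : ∃ x ∈ fourPartners D b, orderOf (a * x) = 3 := by
  obtain ⟨⟨hbD, hba, hbne⟩, hbaD⟩ := hb
  have hab : a * b = b * a := hba.symm
  have habD : a * b ∈ D := by rw [hab]; exact hbaD
  have hne : commutingMembers D a ≠ commutingMembers D b := fun h => hbE ⟨hbD, h⟩
  obtain ⟨x₁, hx₁D, hx₁a, hx₁odd, hx₁4⟩ := hE ha hbD hab habD hne
  obtain ⟨n, hnD, hn⟩ := exists_sq_eq_of hF hD ha hbD hx₁D hba habD hx₁odd hx₁a hx₁4
  have ha2 := ri_sq hD ha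
  have hb2 := ri_sq hD hbD
  have hn2 := ri_sq hD hnD
  have hp4 : (a * n) ^ 4 = 1 := by
    have e : (a * n) ^ 4 = ((a * n) ^ 2) ^ 2 := by rw [← pow_mul]
    rw [e, hn, pow_two, hb2]
  have hnb : n * b = b * n := by
    have h := sq_comm_right ha2 hn2 hp4
    rwa [hn] at h
  have hbnD : b * n ∈ D := by
    have e : b * n = a * n * a⁻¹ := by rw [← hn, inv_sq_right hn2, ri_inv hD ha]
    rw [e]
    exact hD.conj_mem n hnD a
  have hne2 : commutingMembers D b ≠ commutingMembers D n := by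
    intro h
    have h1 : a ∈ commutingMembers D b := ⟨ha, hab⟩
    rw [h] at h1
    have h2 : (a * n) ^ 2 = 1 := by rw [pow_two]; exact sq_of_comm hD ha hnD h1.2
    rw [hn] at h2
    exact ri_ne_one hD hbD h2
  obtain ⟨x₂, hx₂D, hx₂b, hx₂odd, hx₂4⟩ := hE hbD hnD hnb.symm hbnD hne2
  obtain ⟨x, hxD, hx⟩ := exists_sq_eq_of hF hD hbD hnD hx₂D hnb hbnD hx₂odd hx₂b hx₂4
  refine ⟨x, ⟨hxD, ?_⟩, hO ha hbD hnD hxD hab habD hn hx⟩
  have h1 : ¬ (b * x) ^ 2 ^ 1 = 1 := by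
    rw [pow_one, hx]
    exact ri_ne_one hD hnD
  have h2 : (b * x) ^ 2 ^ (1 + 1) = 1 := by
    have e : (b * x) ^ 2 ^ (1 + 1) = ((b * x) ^ 2) ^ 2 := by
      rw [← pow_mul]
      norm_num
    rw [e, hx, pow_two, hn2]
  have : Fact (Nat.Prime 2) := ⟨Nat.prime_two⟩
  have h3 := orderOf_eq_prime_pow h1 h2
  rw [h3]
  norm_num

end Cfsg.Agent.Lib.Helper42.RT
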