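import Mathlib
import Cfsg.Agent.Lib.Helper72.S3Defs

set_option autoImplicit false

namespace Cfsg.Agent.Lib.Helper42.S3F

open Cfsg.Agent.Lib.Helper72.S3F

universe u

/-- conjugation-invariance of a finite subgroup under `g` gives invariance under `g⁻¹` -/
theorem inv_conj_mem {Γ : Type u} [Group Γ] (R : Subgroup Γ) [Finite R] (g : Γ)
    (h : ∀ x ∈ R, g * x * g⁻¹ ∈ R) : ∀ x ∈ R, g⁻¹ * x * g ∈ R := by
  intro x hx
  let c : R → R := fun y => ⟨g * y.1 * g⁻¹, h y.1 y.2⟩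
  have hinj : Function.Injective c := by
    intro a b hab
    have h1 : g * a.1 * g⁻¹ = g * b.1 * g⁻¹ := congrArg Subtype.val hab
    apply Subtype.ext
    have h2 := congrArg (fun z => g⁻¹ * z * g) h1
    simpa [mul_assoc] using h2
  obtain ⟨y, hy⟩ := (Finite.injective_iff_surjective.mp hinj) ⟨x, hx⟩
  have h3 : g * y.1 * g⁻¹ = x := congrArg Subtype.val hy
  have h4 : g⁻¹ * x * g = y.1 := by rw [← h3]; group
  rw [h4]
  exact y.2

/-- fixed points of a subgroup normalised by `g⁻¹` are `g`-invariant -/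
theorem fix_invariant {V : Type u} [CommGroup V] (B : Subgroup (MulAut V)) (g : MulAut V)
    (h : ∀ x ∈ B, g⁻¹ * x * g ∈ B) : ∀ w ∈ fix B, g w ∈ fix B := by
  intro w hw b hb
  have h1 : (g⁻¹ * b * g) w = w := hw _ (h b hb)
  have h2 : g⁻¹ (b (g w)) = w := h1
  have h3 := congrArg g h2
  rwa [MulAut.apply_inv_self] at h3

/-- an elementary abelian `p`-group with a nontrivial element has order `p ^ n`, `n ≠ 0` -/
theorem card_of_mod {V : Type u} [CommGroup V] [Finite V] {p : ℕ} {f t : MulAut V}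
    (hmod : Mod p f t) : ∃ n : ℕ, n ≠ 0 ∧ Nat.card V = p ^ n := by
  have hp : p.Prime := hmod.pp
  have : Fact p.Prime := ⟨hp⟩
  have hVp : IsPGroup p V := fun v => ⟨1, by rw [pow_one]; exact hmod.exp v⟩
  obtain ⟨n, hn⟩ := IsPGroup.iff_card.mp hVp
  refine ⟨n, ?_, hn⟩
  rintro rfl
  obtain ⟨v, hv⟩ := hmod.nt
  have hlt : 1 < Nat.card V := Finite.one_lt_card_iff_nontrivial.mpr ⟨⟨v, 1, hv⟩⟩
  rw [hn, pow_zero] at hlt
  exact lt_irrefl 1 hlt

theorem op : OpStmt.{u} := by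
  intro V _ _ p H Z₁ f t hmod hirr hcomm hH hf ht
  have hp : p.Prime := hmod.pp
  have : Fact p.Prime := ⟨hp⟩
  obtain ⟨n, hn0, hn⟩ := card_of_mod hmod
  rw [hn]
  apply Nat.Coprime.pow_right
  by_contra hnc
  have hdvd : p ∣ Nat.card ↥Z₁ := (Nat.Prime.dvd_iff_not_coprime hp).mpr (fun h => hnc h.symm)
  let Ω : Subgroup (MulAut V) :=
    { carrier := {z | z ∈ Z₁ ∧ z ^ p = 1}
      mul_mem' := by
        rintro a b ⟨ha, hap⟩ ⟨hb, hbp⟩
        refine ⟨Z₁.mul_mem ha hb, ?_⟩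
        have hc : Commute a b := hcomm a ha b hb
        rw [hc.mul_pow, hap, hbp, one_mul]
      one_mem' := ⟨Z₁.one_mem, one_pow p⟩
      inv_mem' := by
        rintro a ⟨ha, hap⟩
        exact ⟨Z₁.inv_mem ha, by rw [inv_pow, hap, inv_one]⟩ }
  obtain ⟨z₀, hz₀⟩ := exists_prime_orderOf_dvd_card' p hdvd
  have hz₀Ω : (z₀ : MulAut V) ∈ Ω := by
    refine ⟨z₀.2, ?_⟩
    have h1 : z₀ ^ p = 1 := by rw [← hz₀]; exact pow_orderOf_eq_one z₀
    have h2 := congrArg Subtype.val h1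
    simpa using h2
  have hz₀ne : (z₀ : MulAut V) ≠ 1 := by
    intro h
    have h1 : z₀ = 1 := Subtype.ext h
    rw [h1, orderOf_one] at hz₀
    exact hp.one_lt.ne hz₀
  have hconj : ∀ g : MulAut V, (∀ x ∈ Z₁, g * x * g⁻¹ ∈ Z₁) → ∀ x ∈ Ω, g * x * g⁻¹ ∈ Ω := by
    intro g hg x hx
    refine ⟨hg x hx.1, ?_⟩
    rw [conj_pow, hx.2, mul_one, mul_inv_cancel]
  have hconj' : ∀ g : MulAut V, (∀ x ∈ Z₁, g * x * g⁻¹ ∈ Z₁) → ∀ x ∈ Ω, g⁻¹ * x * g ∈ Ω :=
    fun g hg => inv_conj_mem Ω g (hconj g hg)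
  have hΩp : IsPGroup p ↥Ω := by
    intro z
    refine ⟨1, ?_⟩
    apply Subtype.ext
    rw [pow_one]
    have h1 : ((z ^ p : ↥Ω) : MulAut V) = (z : MulAut V) ^ p := rfl
    rw [h1, z.2.2]
    rfl
  have hpV : p ∣ Nat.card V := by
    rw [hn]
    exact dvd_pow_self p hn0
  have h1fix : (1 : V) ∈ MulAction.fixedPoints ↥Ω V := by
    intro z
    show (z : MulAut V) 1 = 1
    exact map_one _
  obtain ⟨b, hb, hb1⟩ := hΩp.exists_fixed_point_of_prime_dvd_card_of_fixed_point V hpV h1fix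
  have hbfix : b ∈ fix Ω := by
    intro z hz
    exact hb ⟨z, hz⟩
  -- `fix Ω` is invariant
  have hinv := hirr (fix Ω)
    (fun x hx => fix_invariant Ω x (hconj' x (fun y hy => hH x hx y hy)))
    (fix_invariant Ω f (hconj' f hf)) (fix_invariant Ω t (hconj' t ht))
  rcases hinv with h | h
  · have : b ∈ (⊥ : Subgroup V) := h ▸ hbfix
    exact hb1 (Subgroup.mem_bot.mp this).symm
  · apply hz₀ne
    apply MulEquiv.ext
    intro v
    have hv : v ∈ fix Ω := h ▸ Subgroup.mem_top v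
    exact hv _ hz₀Ω

end Cfsg.Agent.Lib.Helper42.S3F
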