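import Mathlib
import Cfsg.Agent.Lib.Helper72.S3Defs
import Cfsg.Agent.Lib.Helper42.S3Op

set_option autoImplicit false

namespace Cfsg.Agent.Lib.Helper42.S3F

open Cfsg.Agent.Lib.Helper72.S3F

universe u

theorem cl2 (ho : OpStmt.{u}) : Cl2Stmt.{u} := by
  intro V _ _ p H f t hact hmod hirr hcl
  have hp : p.Prime := hmod.pp
  have : Fact p.Prime := ⟨hp⟩
  obtain ⟨n, hn0, hn⟩ := card_of_mod hmod
  let Zc : Subgroup (MulAut V) := H ⊓ Subgroup.centralizer (H : Set (MulAut V))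
  have hZc_comm : Comm Zc := fun x hx y hy => Subgroup.mem_centralizer_iff.mp hy.2 x hx.1
  have hfinv : ∀ x ∈ H, f⁻¹ * x * f ∈ H := inv_conj_mem H f hact.fH
  have htinv : ∀ x ∈ H, t⁻¹ * x * t ∈ H := inv_conj_mem H t hact.tH
  have hnorm : ∀ g : MulAut V, (∀ x ∈ H, g * x * g⁻¹ ∈ H) → (∀ x ∈ H, g⁻¹ * x * g ∈ H) →
      ∀ z ∈ Zc, g * z * g⁻¹ ∈ Zc := by
    intro g hg hg' z hz
    refine ⟨hg z hz.1, ?_⟩
    show g * z * g⁻¹ ∈ Subgroup.centralizer (H : Set (MulAut V))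
    rw [Subgroup.mem_centralizer_iff]
    intro h hh
    have h1 := Subgroup.mem_centralizer_iff.mp hz.2 (g⁻¹ * h * g) (hg' h hh)
    calc h * (g * z * g⁻¹) = g * ((g⁻¹ * h * g) * z) * g⁻¹ := by group
      _ = g * (z * (g⁻¹ * h * g)) * g⁻¹ := by rw [h1]
      _ = g * z * g⁻¹ * h := by group
  have hcop := ho V p H Zc f t hmod hirr hZc_comm
    (fun h hh x hx => hnorm h (fun y hy => H.mul_mem (H.mul_mem hh hy) (H.inv_mem hh))
      (fun y hy => H.mul_mem (H.mul_mem (H.inv_mem hh) hy) hh) x hx)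
    (hnorm f hact.fH hfinv) (hnorm t hact.tH htinv)
  rw [hn] at hcop ⊢
  have hcopp : (Nat.card ↥Zc).Coprime p :=
    (Nat.coprime_pow_right_iff (Nat.pos_of_ne_zero hn0) _ _).mp hcop
  apply Nat.Coprime.pow_right
  by_contra hnc
  have hdvd : p ∣ Nat.card ↥H := (Nat.Prime.dvd_iff_not_coprime hp).mpr (fun h => hnc h.symm)
  obtain ⟨x₀, hx₀⟩ := exists_prime_orderOf_dvd_card' p hdvd
  obtain ⟨x, hxH⟩ := x₀
  have hxo : orderOf x = p := by rw [← hx₀]; exact (Subgroup.orderOf_mk x hxH).symm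
  have hxp : x ^ p = 1 := by rw [← hxo]; exact pow_orderOf_eq_one x
  have hxc : ∀ y ∈ H, x * y = y * x := by
    intro y hy
    have hcH : x * y * x⁻¹ * y⁻¹ ∈ H :=
      H.mul_mem (H.mul_mem (H.mul_mem hxH hy) (H.inv_mem hxH)) (H.inv_mem hy)
    have hcZ : x * y * x⁻¹ * y⁻¹ ∈ Zc :=
      ⟨hcH, Subgroup.mem_centralizer_iff.mpr (fun h hh => (hcl x hxH y hy h hh).symm)⟩
    have hpow : ∀ k : ℕ, x ^ k * y * (x ^ k)⁻¹ = (x * y * x⁻¹ * y⁻¹) ^ k * y := by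
      intro k
      induction k with
      | zero => simp
      | succ k ih =>
        have h0 : Commute (x * y * x⁻¹ * y⁻¹) x := hcl x hxH y hy x hxH
        have hcx : (x * y * x⁻¹ * y⁻¹) ^ k * x = x * (x * y * x⁻¹ * y⁻¹) ^ k :=
          (h0.pow_left k).eq
        calc x ^ (k + 1) * y * (x ^ (k + 1))⁻¹ = x * (x ^ k * y * (x ^ k)⁻¹) * x⁻¹ := by
              rw [pow_succ']; group
          _ = x * ((x * y * x⁻¹ * y⁻¹) ^ k * y) * x⁻¹ := by rw [ih]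
          _ = (x * (x * y * x⁻¹ * y⁻¹) ^ k) * y * x⁻¹ := by simp only [mul_assoc]
          _ = ((x * y * x⁻¹ * y⁻¹) ^ k * x) * y * x⁻¹ := by rw [hcx]
          _ = (x * y * x⁻¹ * y⁻¹) ^ k * (x * y * x⁻¹ * y⁻¹) * y := by
              simp only [mul_assoc, inv_mul_cancel, mul_one]
          _ = (x * y * x⁻¹ * y⁻¹) ^ (k + 1) * y := by rw [← pow_succ]
    have hcp : (x * y * x⁻¹ * y⁻¹) ^ p = 1 := by
      have h1 := hpow p
      rw [hxp, inv_one, one_mul, mul_one] at h1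
      exact mul_right_cancel (h1.symm.trans (one_mul y).symm)
    have h2 : orderOf (x * y * x⁻¹ * y⁻¹) ∣ p := orderOf_dvd_of_pow_eq_one hcp
    have h3 : orderOf (x * y * x⁻¹ * y⁻¹) ∣ Nat.card ↥Zc := by
      have h := orderOf_dvd_natCard (⟨_, hcZ⟩ : ↥Zc)
      rwa [Subgroup.orderOf_mk] at h
    have h4 : orderOf (x * y * x⁻¹ * y⁻¹) = 1 :=
      (Nat.Coprime.coprime_dvd_left h3 hcopp).eq_one_of_dvd h2
    have h5 : x * y * x⁻¹ * y⁻¹ = 1 := orderOf_eq_one_iff.mp h4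
    have h6 : x * y * x⁻¹ = y := mul_inv_eq_one.mp h5
    exact mul_inv_eq_iff_eq_mul.mp h6
  have hxZ : x ∈ Zc :=
    ⟨hxH, Subgroup.mem_centralizer_iff.mpr (fun y hy => (hxc y hy).symm)⟩
  have h6 : p ∣ Nat.card ↥Zc := by
    rw [← hxo]
    have h := orderOf_dvd_natCard (⟨x, hxZ⟩ : ↥Zc)
    rwa [Subgroup.orderOf_mk] at h
  exact (Nat.Prime.dvd_iff_not_coprime hp).mp h6 hcopp.symm

end Cfsg.Agent.Lib.Helper42.S3F
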