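import Mathlib
import Cfsg.Prelude.Def_ClassicalGeometry

set_option autoImplicit false

namespace Cfsg.Agent.Lib.Helper98.SM

open Matrix

/-- a `2 × 2` block acting on the coordinates `inl 0, inr 0`, identity on `inl 1, inr 1` -/
def sme_emb {F : Type*} [Field F] (B : Matrix (Fin 2) (Fin 2) F) :
    Matrix (Fin 2 ⊕ Fin 2) (Fin 2 ⊕ Fin 2) F :=
  Matrix.fromBlocks (Matrix.diagonal ![B 0 0, 1]) (Matrix.diagonal ![B 0 1, 0])
    (Matrix.diagonal ![B 1 0, 0]) (Matrix.diagonal ![B 1 1, 1])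

theorem sme_diag_ext {F : Type*} [Field F] {a b c d : F} (h1 : a = c) (h2 : b = d) :
    (Matrix.diagonal ![a, b] : Matrix (Fin 2) (Fin 2) F) = Matrix.diagonal ![c, d] := by
  rw [h1, h2]

theorem sme_emb_mul {F : Type*} [Field F] (B B' : Matrix (Fin 2) (Fin 2) F) :
    sme_emb (B * B') = sme_emb B * sme_emb B' := by
  unfold sme_emb
  rw [Matrix.fromBlocks_multiply]
  simp only [Matrix.diagonal_mul_diagonal, Matrix.diagonal_add]
  congr 1
  · apply congrArg; funext i; fin_cases i <;> simp [Matrix.mul_apply, Fin.sum_univ_two]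
  · apply congrArg; funext i; fin_cases i <;> simp [Matrix.mul_apply, Fin.sum_univ_two]
  · apply congrArg; funext i; fin_cases i <;> simp [Matrix.mul_apply, Fin.sum_univ_two]
  · apply congrArg; funext i; fin_cases i <;> simp [Matrix.mul_apply, Fin.sum_univ_two]

theorem sme_emb_one {F : Type*} [Field F] :
    sme_emb (1 : Matrix (Fin 2) (Fin 2) F) = 1 := by
  unfold sme_emb
  rw [← Matrix.fromBlocks_one]
  congr 1
  · rw [← Matrix.diagonal_one]; apply congrArg; funext i; fin_cases i <;> simp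
  · rw [← Matrix.diagonal_zero]; apply congrArg; funext i; fin_cases i <;> simp
  · rw [← Matrix.diagonal_zero]; apply congrArg; funext i; fin_cases i <;> simp
  · rw [← Matrix.diagonal_one]; apply congrArg; funext i; fin_cases i <;> simp

theorem sme_emb_pow {F : Type*} [Field F] (B : Matrix (Fin 2) (Fin 2) F) (n : ℕ) :
    sme_emb (B ^ n) = sme_emb B ^ n := by
  induction n with
  | zero => rw [pow_zero, pow_zero, sme_emb_one]
  | succ n ih => rw [pow_succ, pow_succ, sme_emb_mul, ih]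

theorem sme_emb_trace {F : Type*} [Field F] (B : Matrix (Fin 2) (Fin 2) F) :
    (sme_emb B).trace = B 0 0 + B 1 1 + 2 := by
  unfold sme_emb
  simp [Matrix.trace, Fintype.sum_sum_type, Fin.sum_univ_two]
  ring

theorem sme_emb_apply {F : Type*} [Field F] (B : Matrix (Fin 2) (Fin 2) F) :
    sme_emb B (Sum.inl 0) (Sum.inr 0) = B 0 1 := by
  unfold sme_emb
  simp

/-- the unit of `GL` with matrix `sme_emb B`, for `B` with explicit inverse `B'` -/
def sme_unit {F : Type*} [Field F] (B B' : Matrix (Fin 2) (Fin 2) F) (h1 : B * B' = 1)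
    (h2 : B' * B = 1) : GL (Fin 2 ⊕ Fin 2) F :=
  ⟨sme_emb B, sme_emb B', by rw [← sme_emb_mul, h1, sme_emb_one],
    by rw [← sme_emb_mul, h2, sme_emb_one]⟩

theorem sme_mem {F : Type*} [Field F] (B B' : Matrix (Fin 2) (Fin 2) F) (h1 : B * B' = 1)
    (h2 : B' * B = 1) (hdet : B 0 0 * B 1 1 - B 0 1 * B 1 0 = 1) :
    sme_unit B B' h1 h2 ∈ Cfsg.spGL 2 F := by
  intro u v
  show Cfsg.sympForm 2 F (sme_emb B *ᵥ u) (sme_emb B *ᵥ v) = Cfsg.sympForm 2 F u v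
  unfold Cfsg.sympForm sme_emb Matrix.J
  simp [Matrix.mulVec, dotProduct, Fintype.sum_sum_type, Fin.sum_univ_two,
    Matrix.fromBlocks_apply₁₁, Matrix.fromBlocks_apply₁₂, Matrix.fromBlocks_apply₂₁,
    Matrix.fromBlocks_apply₂₂, Matrix.diagonal_apply]
  linear_combination (u (Sum.inr 0) * v (Sum.inl 0) - u (Sum.inl 0) * v (Sum.inr 0)) * hdet

theorem sme_of_eq {F : Type*} [Field F] {a b c d a' b' c' d' : F} (ha : a = a') (hb : b = b')
    (hc : c = c') (hd : d = d') : (!![a, b; c, d] : Matrix (Fin 2) (Fin 2) F) = !![a', b'; c', d'] := by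
  rw [ha, hb, hc, hd]

theorem exists_sp_three {F : Type*} [Field F] :
    ∃ x : GL (Fin 2 ⊕ Fin 2) F, x ∈ Cfsg.spGL 2 F ∧ x ^ 3 = 1 ∧
      (x : Matrix (Fin 2 ⊕ Fin 2) (Fin 2 ⊕ Fin 2) F).trace = 1 ∧
      ((x⁻¹ : GL (Fin 2 ⊕ Fin 2) F) : Matrix (Fin 2 ⊕ Fin 2) (Fin 2 ⊕ Fin 2) F).trace = 1 ∧
      ∀ z : F, (x : Matrix (Fin 2 ⊕ Fin 2) (Fin 2 ⊕ Fin 2) F)
        ≠ z • (1 : Matrix (Fin 2 ⊕ Fin 2) (Fin 2 ⊕ Fin 2) F) := by
  have h1 : (!![-1, -1; 1, 0] : Matrix (Fin 2) (Fin 2) F) * !![0, 1; -1, -1] = 1 := by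
    rw [Matrix.mul_fin_two, Matrix.one_fin_two]
    exact sme_of_eq (by ring) (by ring) (by ring) (by ring)
  have h2 : (!![0, 1; -1, -1] : Matrix (Fin 2) (Fin 2) F) * !![-1, -1; 1, 0] = 1 := by
    rw [Matrix.mul_fin_two, Matrix.one_fin_two]
    exact sme_of_eq (by ring) (by ring) (by ring) (by ring)
  have h3 : (!![-1, -1; 1, 0] : Matrix (Fin 2) (Fin 2) F) ^ 3 = 1 := by
    rw [pow_succ, pow_two, Matrix.mul_fin_two, Matrix.mul_fin_two, Matrix.one_fin_two]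
    exact sme_of_eq (by ring) (by ring) (by ring) (by ring)
  refine ⟨sme_unit _ _ h1 h2, sme_mem _ _ h1 h2 (by simp), ?_, ?_, ?_, ?_⟩
  · apply Units.ext
    rw [Units.val_pow_eq_pow_val]
    show sme_emb _ ^ 3 = 1
    rw [← sme_emb_pow, h3, sme_emb_one]
  · show (sme_emb _).trace = 1
    rw [sme_emb_trace]
    simp
    norm_num
  · show (sme_emb _).trace = 1
    rw [sme_emb_trace]
    simp
    norm_num
  · intro z hz
    have h4 := congrFun (congrFun hz (Sum.inl 0)) (Sum.inr 0)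
    have h5 : sme_emb (!![-1, -1; 1, 0] : Matrix (Fin 2) (Fin 2) F) (Sum.inl 0) (Sum.inr 0)
        = -1 := by rw [sme_emb_apply]; simp
    have h6 : (sme_unit _ _ h1 h2 : Matrix (Fin 2 ⊕ Fin 2) (Fin 2 ⊕ Fin 2) F)
        = sme_emb (!![-1, -1; 1, 0] : Matrix (Fin 2) (Fin 2) F) := rfl
    rw [h6, h5] at h4
    simp at h4

theorem exists_sp_five {F : Type*} [Field F] (τ : F) (hτ : τ * τ + τ - 1 = 0) :
    ∃ x : GL (Fin 2 ⊕ Fin 2) F, x ∈ Cfsg.spGL 2 F ∧ x ^ 5 = 1 ∧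
      (x : Matrix (Fin 2 ⊕ Fin 2) (Fin 2 ⊕ Fin 2) F).trace = τ + 2 ∧
      ((x⁻¹ : GL (Fin 2 ⊕ Fin 2) F) : Matrix (Fin 2 ⊕ Fin 2) (Fin 2 ⊕ Fin 2) F).trace = τ + 2 ∧
      ∀ z : F, (x : Matrix (Fin 2 ⊕ Fin 2) (Fin 2 ⊕ Fin 2) F)
        ≠ z • (1 : Matrix (Fin 2 ⊕ Fin 2) (Fin 2 ⊕ Fin 2) F) := by
  have h1 : (!![0, -1; 1, τ] : Matrix (Fin 2) (Fin 2) F) * !![τ, 1; -1, 0] = 1 := by
    rw [Matrix.mul_fin_two, Matrix.one_fin_two]
    exact sme_of_eq (by ring) (by ring) (by ring) (by ring)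
  have h2 : (!![τ, 1; -1, 0] : Matrix (Fin 2) (Fin 2) F) * !![0, -1; 1, τ] = 1 := by
    rw [Matrix.mul_fin_two, Matrix.one_fin_two]
    exact sme_of_eq (by ring) (by ring) (by ring) (by ring)
  have h3 : (!![0, -1; 1, τ] : Matrix (Fin 2) (Fin 2) F) ^ 5 = 1 := by
    rw [pow_succ, pow_succ, pow_succ, pow_two, Matrix.mul_fin_two, Matrix.mul_fin_two,
      Matrix.mul_fin_two, Matrix.mul_fin_two, Matrix.one_fin_two]
    exact sme_of_eq (by linear_combination (1 - τ) * hτ)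
      (by linear_combination (-(τ * τ - τ - 1)) * hτ)
      (by linear_combination (τ * τ - τ - 1) * hτ)
      (by linear_combination (τ * τ * τ - τ * τ - 2 * τ + 1) * hτ)
  refine ⟨sme_unit _ _ h1 h2, sme_mem _ _ h1 h2 (by simp), ?_, ?_, ?_, ?_⟩
  · apply Units.ext
    rw [Units.val_pow_eq_pow_val]
    show sme_emb _ ^ 5 = 1
    rw [← sme_emb_pow, h3, sme_emb_one]
  · show (sme_emb _).trace = τ + 2
    rw [sme_emb_trace]
    simp
  · show (sme_emb _).trace = τ + 2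
    rw [sme_emb_trace]
    simp
  · intro z hz
    have h4 := congrFun (congrFun hz (Sum.inl 0)) (Sum.inr 0)
    have h5 : sme_emb (!![0, -1; 1, τ] : Matrix (Fin 2) (Fin 2) F) (Sum.inl 0) (Sum.inr 0)
        = -1 := by rw [sme_emb_apply]; simp
    have h6 : (sme_unit _ _ h1 h2 : Matrix (Fin 2 ⊕ Fin 2) (Fin 2 ⊕ Fin 2) F)
        = sme_emb (!![0, -1; 1, τ] : Matrix (Fin 2) (Fin 2) F) := rfl
    rw [h6, h5] at h4
    simp at h4

end Cfsg.Agent.Lib.Helper98.SM
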