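import Cfsg.Agent.Lib.Helper42.Sec4
import Cfsg.Prelude.Def_PLocal

set_option autoImplicit false

namespace Cfsg.Agent.Lib.Helper42

universe u

/-! ### Factorizations `X = C(Ω₁Z(T)) N(W(T))` through the sections of a group -/

/-- `Ω₁(Z(T))` -/
abbrev OZ (p : ℕ) {X : Type*} [Group X] (T : Subgroup X) : Subgroup X :=
  Cfsg.omegaOne p (T ⊓ Subgroup.centralizer (T : Set X))

theorem omegaOne_le_self (p : ℕ) {X : Type*} [Group X] (H : Subgroup X) :
    Cfsg.omegaOne p H ≤ H := by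
  unfold Cfsg.omegaOne
  rw [Subgroup.closure_le]
  intro x hx
  exact hx.1

theorem map_inf_centralizer_of_injOn {X Y : Type*} [Group X] [Group Y] (φ : X →* Y)
    (T : Subgroup X) (hφ : Set.InjOn φ (T : Set X)) :
    (T ⊓ Subgroup.centralizer (T : Set X)).map φ =
      T.map φ ⊓ Subgroup.centralizer ((T.map φ : Subgroup Y) : Set Y) := by
  ext y
  constructor
  · rintro ⟨x, ⟨hxT, hxC⟩, rfl⟩
    refine ⟨⟨x, hxT, rfl⟩, ?_⟩
    show φ x ∈ Subgroup.centralizer _
    rw [Subgroup.mem_centralizer_iff]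
    rintro _ ⟨t, ht, rfl⟩
    have := Subgroup.mem_centralizer_iff.mp hxC t ht
    rw [← map_mul, ← map_mul, this]
  · rintro ⟨⟨x, hxT, rfl⟩, hC⟩
    refine ⟨x, ⟨hxT, ?_⟩, rfl⟩
    show x ∈ Subgroup.centralizer _
    rw [Subgroup.mem_centralizer_iff]
    intro t ht
    have := Subgroup.mem_centralizer_iff.mp hC (φ t) ⟨t, ht, rfl⟩
    rw [← map_mul, ← map_mul] at this
    exact hφ (T.mul_mem ht hxT) (T.mul_mem hxT ht) this

theorem omegaOne_map_of_injOn {X Y : Type*} [Group X] [Group Y] (p : ℕ) (φ : X →* Y)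
    (H : Subgroup X) (hφ : Set.InjOn φ (H : Set X)) :
    Cfsg.omegaOne p (H.map φ) = (Cfsg.omegaOne p H).map φ := by
  unfold Cfsg.omegaOne
  rw [MonoidHom.map_closure]
  congr 1
  ext y
  constructor
  · rintro ⟨⟨x, hx, rfl⟩, hy⟩
    refine ⟨x, ⟨hx, ?_⟩, rfl⟩
    apply hφ (H.pow_mem hx p) H.one_mem
    rw [map_pow, hy, map_one]
  · rintro ⟨x, ⟨hx, hxp⟩, rfl⟩
    exact ⟨⟨x, hx, rfl⟩, by rw [← map_pow, hxp, map_one]⟩

theorem OZ_map {X Y : Type*} [Group X] [Group Y] (p : ℕ) (φ : X →* Y) (T : Subgroup X)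
    (hφ : Set.InjOn φ (T : Set X)) : OZ p (T.map φ) = (OZ p T).map φ := by
  show Cfsg.omegaOne p (T.map φ ⊓ Subgroup.centralizer ((T.map φ : Subgroup Y) : Set Y)) =
    (Cfsg.omegaOne p (T ⊓ Subgroup.centralizer (T : Set X))).map φ
  rw [← map_inf_centralizer_of_injOn φ T hφ]
  exact omegaOne_map_of_injOn p φ _ (hφ.mono (fun x (hx : x ∈ T ⊓ Subgroup.centralizer (T : Set X)) => hx.1))

/-- `x` is the product of an element centralizing `Ω₁Z(T)` and one normalizing `W(T)` -/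
def FacCN (p : ℕ) (W : ∀ (Q : Type u) [Group Q], Subgroup Q) {X : Type u} [Group X]
    (T : Subgroup X) (x : X) : Prop :=
  ∃ a ∈ Subgroup.centralizer ((OZ p T : Subgroup X) : Set X),
    ∃ b ∈ Subgroup.normalizer ((Cfsg.inducedFunctor (G := X) W T : Subgroup X) : Set X),
      x = a * b

theorem FacCN.map {p : ℕ} {W : ∀ (Q : Type u) [Group Q], Subgroup Q}
    (hW : Cfsg.IsCharPFunctor.{u} p W) {X Y : Type u} [Group X] [Group Y] (φ : X →* Y)
    {T : Subgroup X} [Finite T] (hT : IsPGroup p T) (hφ : Set.InjOn φ (T : Set X)) {x : X}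
    (h : FacCN p W T x) : FacCN p W (T.map φ) (φ x) := by
  obtain ⟨a, ha, b, hb, rfl⟩ := h
  refine ⟨φ a, ?_, φ b, ?_, map_mul φ a b⟩
  · rw [OZ_map p φ T hφ, Subgroup.mem_centralizer_iff]
    rintro _ ⟨z, hz, rfl⟩
    have := Subgroup.mem_centralizer_iff.mp ha z hz
    rw [← map_mul, ← map_mul, this]
  · rw [inducedFunctor_map hW φ T hT hφ]
    exact Subgroup.le_normalizer_map φ ⟨b, hb, rfl⟩

/-- the factorization for all Sylow subgroups -/
def HyT (p : ℕ) (W : ∀ (Q : Type u) [Group Q], Subgroup Q) (X : Type u) [Group X] : Prop :=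
  ∀ T : Subgroup X, IsSylIn p T ⊤ → ∀ x : X, FacCN p W T x

/-- the factorization for the Sylow subgroups `T` with `Ω₁Z(T) ≤ O_p(X)` -/
def PrT (p : ℕ) (W : ∀ (Q : Type u) [Group Q], Subgroup Q) (X : Type u) [Group X] : Prop :=
  ∀ T : Subgroup X, IsSylIn p T ⊤ → OZ p T ≤ Cfsg.pCore p X → ∀ x : X, FacCN p W T x

theorem IsSylIn.exists_sylow {X : Type*} [Group X] [Finite X] {p : ℕ} [Fact p.Prime]
    {T : Subgroup X} (hT : IsSylIn p T ⊤) : ∃ S : Sylow p X, (S : Subgroup X) = T :=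
  ⟨IsPGroup.toSylow hT.2.1 (by rw [← Subgroup.relIndex_top_right]; exact hT.2.2), rfl⟩

theorem HyT.of_equiv {p : ℕ} {W : ∀ (Q : Type u) [Group Q], Subgroup Q}
    (hW : Cfsg.IsCharPFunctor.{u} p W) {X Y : Type u} [Group X] [Group Y] [Finite X]
    (e : X ≃* Y) (h : HyT p W X) : HyT p W Y := by
  intro T hT y
  have hT' : IsSylIn p (T.map e.symm.toMonoidHom) ⊤ :=
    isSylIn_map_of_surjective _ e.symm.surjective hT
  have h1 := h _ hT' (e.symm y)
  have h2 := h1.map hW e.toMonoidHom hT'.2.1 (e.injective.injOn)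
  rw [Subgroup.map_map] at h2
  have e1 : e.toMonoidHom.comp e.symm.toMonoidHom = MonoidHom.id Y := by
    ext z; simp
  rw [e1, Subgroup.map_id] at h2
  simpa using h2

section step

variable {p : ℕ} [Fact p.Prime] {W : ∀ (Q : Type u) [Group Q], Subgroup Q}

theorem prT_quot (hW : Cfsg.IsCharPFunctor.{u} p W) {X : Type u} [Group X] [Finite X]
    (O : Subgroup X) [hOn : O.Normal] (hO : (Nat.card O).Coprime p) (T : Subgroup X)
    (hT : IsSylIn p T ⊤) (hZ : OZ p T ≤ Cfsg.pCore p X) (h : PrT p W (X ⧸ O)) (x : X) :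
    FacCN p W T x := by
  have hp : p.Prime := Fact.out
  set π := QuotientGroup.mk' O with hπdef
  have hπ : Function.Surjective π := QuotientGroup.mk'_surjective O
  have hker : π.ker = O := QuotientGroup.ker_mk' O
  have hTp : IsPGroup p T := hT.2.1
  have hinj : Set.InjOn π (T : Set X) := injOn_mk_of_coprime hTp hO
  have hT' : IsSylIn p (T.map π) ⊤ := isSylIn_map_of_surjective π hπ hT
  have hPn := pCore_normal p X
  have hPp := isPGroup_pCore p X
  have hZ' : OZ p (T.map π) ≤ Cfsg.pCore p (X ⧸ O) := by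
    rw [OZ_map p π T hinj]
    exact (Subgroup.map_mono hZ).trans (le_pCore (hPn.map π hπ) (hPp.map π))
  obtain ⟨a', ha', b', hb', hx⟩ := h _ hT' hZ' (π x)
  obtain ⟨a, rfl⟩ := hπ a'
  obtain ⟨b, rfl⟩ := hπ b'
  set V := Cfsg.inducedFunctor (G := X) W T with hVdef
  have hconj := isConjugacyFunctor_induced hW X
  have hVT : V ≤ T := conjFunctor_le hconj hTp
  have hVp : IsPGroup p V := hTp.to_le hVT
  have hPO : Cfsg.pCore p X ⊓ O = ⊥ := inf_eq_bot_of_pgroup_coprime hPp hO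
  -- an element acting trivially on `Ω₁Z(T)` modulo `O` centralizes it
  have hcent : ∀ c : X, (∀ z ∈ OZ p T, z * c * z⁻¹ * c⁻¹ ∈ O) →
      c ∈ Subgroup.centralizer ((OZ p T : Subgroup X) : Set X) := by
    intro c hc
    rw [Subgroup.mem_centralizer_iff]
    intro z hz
    have h2 : z * c * z⁻¹ * c⁻¹ ∈ Cfsg.pCore p X ⊓ O := by
      refine ⟨?_, hc z hz⟩
      have hzP := hZ hz
      have e : z * c * z⁻¹ * c⁻¹ = z * (c * z⁻¹ * c⁻¹) := by group
      rw [e]
      exact Subgroup.mul_mem _ hzP (hPn.conj_mem _ (Subgroup.inv_mem _ hzP) c)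
    rw [hPO, Subgroup.mem_bot] at h2
    have e : z * c = (z * c * z⁻¹ * c⁻¹) * (c * z) := by group
    rw [e, h2, one_mul]
  have hOC : O ≤ Subgroup.centralizer ((OZ p T : Subgroup X) : Set X) := by
    intro o ho
    apply hcent
    intro z hz
    have e : z * o * z⁻¹ * o⁻¹ = (z * o * z⁻¹) * o⁻¹ := by group
    rw [e]
    exact O.mul_mem (hOn.conj_mem o ho z) (O.inv_mem ho)
  have haC : a ∈ Subgroup.centralizer ((OZ p T : Subgroup X) : Set X) := by
    apply hcent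
    intro z hz
    have h0 : π z ∈ OZ p (T.map π) := by
      rw [OZ_map p π T hinj]; exact ⟨z, hz, rfl⟩
    have h1 := Subgroup.mem_centralizer_iff.mp ha' (π z) h0
    rw [← hker, MonoidHom.mem_ker]
    simp only [map_mul, map_inv]
    rw [h1]
    group
  have hb₀ : b ∈ Subgroup.normalizer ((V ⊔ O : Subgroup X) : Set X) := by
    have h1 : π b ∈ Subgroup.normalizer ((Cfsg.inducedFunctor (G := X ⧸ O) W
        (T.map π) : Subgroup (X ⧸ O)) : Set (X ⧸ O)) := hb'
    rw [inducedFunctor_map hW π T hTp hinj] at h1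
    have h2 : b ∈ (Subgroup.normalizer ((V.map π : Subgroup (X ⧸ O)) : Set (X ⧸ O))).comap π := h1
    rwa [Subgroup.comap_normalizer_eq_of_surjective _ hπ, Subgroup.comap_map_eq, hker] at h2
  have hVO : V ⊓ O = ⊥ := inf_eq_bot_of_pgroup_coprime hVp hO
  have hSylV : IsSylIn p V (V ⊔ O) := by
    refine ⟨le_sup_left, hVp, ?_⟩
    rw [relIndex_sup_of_inf_eq_bot hVO]
    exact (Nat.Prime.coprime_iff_not_dvd hp).mp hO.symm
  obtain ⟨n, hn, hns⟩ := frattini_isSylIn hSylV hb₀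
  obtain ⟨v, hv, o, ho, rfl⟩ := mem_sup_normal_right hn
  have hb₁ : o * b ∈ Subgroup.normalizer (V : Set X) := by
    have e : o * b = v⁻¹ * (v * o * b) := by group
    rw [e]
    exact Subgroup.mul_mem _ (Subgroup.inv_mem _ (Subgroup.le_normalizer hv)) hns
  have hx₃ : x * (a * b)⁻¹ ∈ O := by
    rw [← hker, MonoidHom.mem_ker, map_mul, map_inv, hx, map_mul]
    group
  refine ⟨x * (a * b)⁻¹ * a * o⁻¹, ?_, o * b, hb₁, by group⟩
  exact Subgroup.mul_mem _ (Subgroup.mul_mem _ (hOC hx₃) haC) (hOC (O.inv_mem ho))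

/-- the factorization in a subgroup `M` containing the Sylow subgroup, transported to `X` -/
theorem facCN_of_subgroup (hW : Cfsg.IsCharPFunctor.{u} p W) {X : Type u} [Group X] [Finite X]
    (S : Sylow p X) {M V : Subgroup X} (hSM : (S : Subgroup X) ≤ M) (hVp : IsPGroup p V)
    (hVn : (V.subgroupOf M).Normal) (hZV : OZ p (S : Subgroup X) ≤ V) (hM : PrT p W ↥M) :
    ∀ m ∈ M, FacCN p W (S : Subgroup X) m := by
  intro m hm
  have hSylM : IsSylIn p (S : Subgroup X) M := (sylow_isSylIn S).of_le hSM le_top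
  have hmapT : ((S : Subgroup X).subgroupOf M).map M.subtype = S :=
    Subgroup.map_subgroupOf_eq_of_le hSM
  have hT' : IsSylIn p ((S : Subgroup X).subgroupOf M) ⊤ :=
    ⟨le_top, hSylM.2.1.comap_subtype, by rw [Subgroup.relIndex_top_right]; exact hSylM.2.2⟩
  have hinj : Set.InjOn M.subtype (((S : Subgroup X).subgroupOf M : Subgroup ↥M) : Set ↥M) :=
    M.subtype_injective.injOn
  have hZ' : OZ p ((S : Subgroup X).subgroupOf M) ≤ Cfsg.pCore p ↥M := by
    have h1 : (OZ p ((S : Subgroup X).subgroupOf M)).map M.subtype ≤ V := by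
      rw [← OZ_map p M.subtype _ hinj, hmapT]; exact hZV
    have h2 : OZ p ((S : Subgroup X).subgroupOf M) ≤ V.subgroupOf M :=
      Subgroup.map_le_iff_le_comap.mp h1
    exact h2.trans (le_pCore hVn hVp.comap_subtype)
  have h3 := (hM _ hT' hZ' ⟨m, hm⟩).map hW M.subtype hT'.2.1 hinj
  rw [hmapT] at h3
  exact h3

theorem prT_b2 (hW : Cfsg.IsCharPFunctor.{u} p W) {X : Type u} [Group X] [Finite X]
    (T : Subgroup X) (hT : IsSylIn p T ⊤) (hZ : OZ p T ≤ Cfsg.pCore p X) (hc : ¬ Constr p X)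
    (hnO : ∀ O : Subgroup X, O.Normal → (Nat.card O).Coprime p → O = ⊥)
    (hK : ∀ K : Subgroup X, K ≠ ⊤ → PrT p W ↥K) (x : X) : FacCN p W T x := by
  obtain ⟨S, rfl⟩ := hT.exists_sylow
  have hPn : (Cfsg.pCore p X).Normal := pCore_normal p X
  have hP : IsPGroup p (Cfsg.pCore p X) := isPGroup_pCore p X
  have hmax : ∀ Q : Subgroup X, Q.Normal → IsPGroup p Q → Q ≤ Cfsg.pCore p X :=
    fun Q hn hQ => le_pCore hn hQ
  have hnc : ¬ Subgroup.centralizer ((Cfsg.pCore p X : Subgroup X) : Set X) ≤ Cfsg.pCore p X :=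
    fun h => hc ⟨_, hPn, hP, h⟩
  have hlt := structure_cases S hP hnc hnO
  obtain ⟨hMne, hSM, hfacM⟩ := b2_facts S hmax hlt
  obtain ⟨m, hm, c, hc', hx⟩ := hfacM x⁻¹
  obtain ⟨a, ha, b, hb, hab⟩ := facCN_of_subgroup hW S hSM hP inferInstance hZ (hK _ hMne) m⁻¹
    (Subgroup.inv_mem _ hm)
  refine ⟨c⁻¹ * a, ?_, b, hb, ?_⟩
  · exact Subgroup.mul_mem _ (Subgroup.centralizer_le hZ (Subgroup.inv_mem _ hc')) ha
  · have e : x = c⁻¹ * m⁻¹ := by rw [← mul_inv_rev, ← hx, inv_inv]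
    rw [e, hab, mul_assoc]

theorem prT_step (hW : Cfsg.IsCharPFunctor.{u} p W) (X : Type u) [Group X] [Finite X]
    (hB1 : Constr p X → HyT p W X) (hK : ∀ K : Subgroup X, K ≠ ⊤ → PrT p W ↥K)
    (hQ : ∀ (N : Subgroup X) [N.Normal], N ≠ ⊥ → PrT p W (X ⧸ N)) : PrT p W X := by
  intro T hT hZ x
  by_cases hc : Constr p X
  · exact hB1 hc T hT x
  by_cases hO' : ∃ O : Subgroup X, O.Normal ∧ (Nat.card O).Coprime p ∧ O ≠ ⊥
  · obtain ⟨O, hOn, hOc, hOne⟩ := hO'
    exact prT_quot hW O hOc T hT hZ (hQ O hOne) x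
  push Not at hO'
  exact prT_b2 hW T hT hZ hc hO' hK x

/-- the factorization `X = C(Ω₁Z(T)) N(W(T))` in every section `X` with `Ω₁Z(T) ≤ O_p(X)`, from the
constrained sections -/
theorem prT_of_sections (hW : Cfsg.IsCharPFunctor.{u} p W) {G : Type u} [Group G] [Finite G]
    (hloc : ∀ (K R : Subgroup G) [(R.subgroupOf K).Normal],
      Subgroup.centralizer ((Cfsg.pCore p (↥K ⧸ R.subgroupOf K) :
        Subgroup (↥K ⧸ R.subgroupOf K)) : Set (↥K ⧸ R.subgroupOf K)) ≤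
        Cfsg.pCore p (↥K ⧸ R.subgroupOf K) → HyT p W (↥K ⧸ R.subgroupOf K)) :
    ∀ (Z : Type u) [Group Z] [Finite Z], IsSec Z G → PrT p W Z := by
  apply section_induction p (PrT p W) (HyT p W) (prT_step hW)
  intro Z _ _ hZ hc
  obtain ⟨K, R, hR, ⟨e⟩⟩ := hZ.exists_concrete
  exact HyT.of_equiv hW e (hloc K R (Constr.centralizer_pCore_le (hc.of_equiv e.symm)))

end step

end Cfsg.Agent.Lib.Helper42
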