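import Cfsg.Agent.Lib.Helper42.Sec27
import Cfsg.Prelude.Def_Transfer
import Cfsg.Prelude.Def_TwoFusion

set_option autoImplicit false

namespace Cfsg.Agent.Lib.Helper42

universe u

section conjsets

variable {G : Type*} [Group G]

/-- the `H`-conjugates of the elements of `Z` -/
def Cs (H Z : Subgroup G) : Set G := {x | ∃ n ∈ H, ∃ z ∈ Z, x = n * z * n⁻¹}

theorem Cs_subset_of_fac {H K Z : Subgroup G}
    (h : ∀ n ∈ H, ∃ a ∈ Subgroup.centralizer (Z : Set G), ∃ b ∈ K, n = a * b) :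
    Cs H Z ⊆ Cs K Z := by
  rintro _ ⟨n, hn, z, hz, rfl⟩
  obtain ⟨a, ha, b, hb, hab⟩ := h n⁻¹ (H.inv_mem hn)
  refine ⟨b⁻¹, K.inv_mem hb, z, hz, ?_⟩
  have h1 : n = b⁻¹ * a⁻¹ := by rw [← mul_inv_rev, ← hab, inv_inv]
  have h2 := Subgroup.mem_centralizer_iff.mp ha z hz
  have h3 : a⁻¹ * z * a = z := by
    rw [mul_assoc, h2, ← mul_assoc, inv_mul_cancel, one_mul]
  calc n * z * n⁻¹ = b⁻¹ * (a⁻¹ * z * a) * b⁻¹⁻¹ := by rw [h1]; group
    _ = b⁻¹ * z * b⁻¹⁻¹ := by rw [h3]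

theorem le_normalizer_of_conj_mem {A H : Subgroup G}
    (h : ∀ n ∈ H, ∀ a ∈ A, n * a * n⁻¹ ∈ A) : H ≤ Subgroup.normalizer (A : Set G) := by
  intro n hn
  rw [Subgroup.mem_normalizer_iff]
  intro a
  constructor
  · exact h n hn a
  · intro ha
    have := h n⁻¹ (H.inv_mem hn) _ ha
    have e : n⁻¹ * (n * a * n⁻¹) * n⁻¹⁻¹ = a := by group
    rwa [e] at this

theorem le_normalizer_closure_Cs (H Z : Subgroup G) :
    H ≤ Subgroup.normalizer ((Subgroup.closure (Cs H Z) : Subgroup G) : Set G) := by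
  apply le_normalizer_of_conj_mem
  intro n hn a ha
  induction ha using Subgroup.closure_induction with
  | mem x hx =>
    obtain ⟨m, hm, z, hz, rfl⟩ := hx
    exact Subgroup.subset_closure ⟨n * m, H.mul_mem hn hm, z, hz, by group⟩
  | one => simp
  | mul x y _ _ hx hy =>
    have e : n * (x * y) * n⁻¹ = (n * x * n⁻¹) * (n * y * n⁻¹) := by group
    rw [e]; exact Subgroup.mul_mem _ hx hy
  | inv x _ hx =>
    have e : n * x⁻¹ * n⁻¹ = (n * x * n⁻¹)⁻¹ := by group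
    rw [e]; exact Subgroup.inv_mem _ hx

theorem map_normalClosure_subgroupOf {N Z : Subgroup G} (hZN : Z ≤ N) :
    (Subgroup.normalClosure ((Z.subgroupOf N : Subgroup ↥N) : Set ↥N)).map N.subtype =
      Subgroup.closure (Cs N Z) := by
  unfold Subgroup.normalClosure
  rw [MonoidHom.map_closure]
  congr 1
  ext y
  constructor
  · rintro ⟨x, hx, rfl⟩
    obtain ⟨b, hb, hbx⟩ := Group.mem_conjugatesOfSet_iff.mp hx
    obtain ⟨c, hc⟩ := isConj_iff.mp hbx
    refine ⟨c, c.2, b, Subgroup.mem_subgroupOf.mp hb, ?_⟩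
    rw [← hc]
    simp
  · rintro ⟨n, hn, z, hz, rfl⟩
    refine ⟨⟨n, hn⟩ * ⟨z, hZN hz⟩ * ⟨n, hn⟩⁻¹, ?_, by simp⟩
    apply Group.mem_conjugatesOfSet_iff.mpr
    exact ⟨⟨z, hZN hz⟩, Subgroup.mem_subgroupOf.mpr hz, isConj_iff.mpr ⟨⟨n, hn⟩, rfl⟩⟩

theorem elemAb_closure {s : Set G} {p : ℕ} (hcomm : ∀ x ∈ s, ∀ y ∈ s, x * y = y * x)
    (hp : ∀ x ∈ s, x ^ p = 1) : Cfsg.IsElementaryAbelian p (Subgroup.closure s) := by
  have h1 : Subgroup.closure s ≤ Subgroup.centralizer s := by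
    rw [Subgroup.closure_le]
    intro x hx
    show x ∈ Subgroup.centralizer s
    rw [Subgroup.mem_centralizer_iff]
    intro y hy
    exact hcomm y hy x hx
  have h2 : Subgroup.closure s ≤
      Subgroup.centralizer ((Subgroup.closure s : Subgroup G) : Set G) := by
    rw [Subgroup.closure_le]
    intro x hx
    show x ∈ Subgroup.centralizer _
    rw [Subgroup.mem_centralizer_iff]
    intro y hy
    exact (Subgroup.mem_centralizer_iff.mp (h1 hy) x hx).symm
  have hc : ∀ a ∈ Subgroup.closure s, ∀ b ∈ Subgroup.closure s, a * b = b * a := by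
    intro a ha b hb
    exact (Subgroup.mem_centralizer_iff.mp (h2 hb) a ha)
  refine ⟨⟨⟨fun a b => Subtype.ext (hc a.1 a.2 b.1 b.2)⟩⟩, ?_⟩
  intro a ha
  induction ha using Subgroup.closure_induction with
  | mem x hx => exact hp x hx
  | one => exact one_pow p
  | mul x y hx hy ihx ihy =>
    have hxy : Commute x y := hc x hx y hy
    rw [hxy.mul_pow, ihx, ihy, one_mul]
  | inv x _ ihx => rw [inv_pow, ihx, inv_one]

/-- every element of `Ω₁(Z(S))` has order dividing `p` and is central in `S` -/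
theorem OZ_facts (p : ℕ) (S : Subgroup G) :
    OZ p S ≤ S ⊓ Subgroup.centralizer (S : Set G) ∧ ∀ z ∈ OZ p S, z ^ p = 1 := by
  refine ⟨omegaOne_le_self p _, ?_⟩
  have h := elemAb_closure (G := G) (p := p)
    (s := {x : G | x ∈ S ⊓ Subgroup.centralizer (S : Set G) ∧ x ^ p = 1}) (by
      intro x hx y hy
      exact Subgroup.mem_centralizer_iff.mp hy.1.2 x hx.1.1) (fun x hx => hx.2)
  exact h.2

end conjsets

end Cfsg.Agent.Lib.Helper42
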