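import Cfsg.Agent.Lib.Helper42.Sec28
import Cfsg.Prelude.Def_CaseTheorems

set_option autoImplicit false

namespace Cfsg.Agent.Lib.Helper42

section fourgroup

variable {G : Type*} [Group G]

theorem pow_half_mul_self {m : G} (hm : Odd (orderOf m)) :
    m ^ ((orderOf m + 1) / 2) * m ^ ((orderOf m + 1) / 2) = m := by
  obtain ⟨r, hr⟩ := hm
  have e : (orderOf m + 1) / 2 = r + 1 := by omega
  rw [e, ← pow_add]
  have e2 : r + 1 + (r + 1) = orderOf m + 1 := by omega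
  rw [e2, pow_succ, pow_orderOf_eq_one, one_mul]

theorem eq_one_of_mul_self_odd {c : G} (hc : Odd (orderOf c)) (h : c * c = 1) : c = 1 := by
  have h2 : c ^ 2 = 1 := by rw [pow_two, h]
  have h3 : orderOf c ∣ 2 := orderOf_dvd_of_pow_eq_one h2
  have h4 : orderOf c = 1 := by
    rcases (Nat.dvd_prime Nat.prime_two).mp h3 with h5 | h5
    · exact h5
    · rw [h5] at hc; exact absurd hc (by decide)
  exact orderOf_eq_one_iff.mp h4

/-- in a group, an element of odd order is not inverted by an element of odd order -/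
theorem eq_one_of_conj_eq_inv_odd {g x : G} (hg : Odd (orderOf g)) (hx : Odd (orderOf x))
    (h : g * x * g⁻¹ = x⁻¹) : x = 1 := by
  have h1 : (g * g) * x = x * (g * g) := by
    have h2 : g * x⁻¹ * g⁻¹ = x := by
      have : g * x⁻¹ * g⁻¹ = (g * x * g⁻¹)⁻¹ := by group
      rw [this, h, inv_inv]
    calc (g * g) * x = g * (g * x * g⁻¹) * g := by group
      _ = g * x⁻¹ * g := by rw [h]
      _ = (g * x⁻¹ * g⁻¹) * (g * g) := by group
      _ = x * (g * g) := by rw [h2]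
  have h3 : Commute (g * g) x := h1
  have h4 : Commute ((g * g) ^ ((orderOf g + 1) / 2)) x := h3.pow_left _
  have h5 : (g * g) ^ ((orderOf g + 1) / 2) = g := by
    rw [(Commute.refl g).mul_pow]
    exact pow_half_mul_self hg
  rw [h5] at h4
  have h6 : x = x⁻¹ := by
    rw [← h, h4.eq]; group
  apply eq_one_of_mul_self_odd hx
  calc x * x = x * x⁻¹ := by rw [← h6]
    _ = 1 := mul_inv_cancel x

theorem odd_orderOf_of_mem {K : Subgroup G} (hK : Odd (Nat.card K)) {k : G} (hk : k ∈ K) :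
    Odd (orderOf k) :=
  Odd.of_dvd_nat hK (Subgroup.orderOf_dvd_natCard K hk)

/-- decomposition of an element of a group of odd order with respect to an involution acting on
it: a fixed element times an inverted element -/
theorem inv_decomp {K : Subgroup G} (hK : Odd (Nat.card K)) {t : G} (ht : t * t = 1)
    (htK : t ∈ Subgroup.normalizer (K : Set G)) {k : G} (hk : k ∈ K) :
    ∃ c ∈ K, ∃ j ∈ K, k = c * j ∧ t * c = c * t ∧ t * j * t⁻¹ = j⁻¹ := by
  have hti : t⁻¹ = t := inv_eq_of_mul_eq_one_right ht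
  have htk : t * k * t⁻¹ ∈ K := (Subgroup.mem_normalizer_iff.mp htK k).mp hk
  set m := k⁻¹ * (t * k * t⁻¹) with hm
  have hmK : m ∈ K := K.mul_mem (K.inv_mem hk) htk
  have hmo : Odd (orderOf m) := odd_orderOf_of_mem hK hmK
  have hmt : t * m * t⁻¹ = m⁻¹ := by
    calc t * m * t⁻¹ = (t * k * t⁻¹)⁻¹ * ((t * t) * k * (t * t)⁻¹) := by rw [hm]; group
      _ = (t * k * t⁻¹)⁻¹ * k := by rw [ht]; group
      _ = m⁻¹ := by rw [hm]; group
  set n := m ^ ((orderOf m + 1) / 2) with hn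
  have hnn : n * n = m := pow_half_mul_self hmo
  have hnK : n ∈ K := K.pow_mem hmK _
  have hnt : t * n * t⁻¹ = n⁻¹ := by
    rw [hn, ← conj_pow, hmt, inv_pow]
  refine ⟨k * n, K.mul_mem hk hnK, n⁻¹, K.inv_mem hnK, by group, ?_, ?_⟩
  · have h1 : t * (k * n) * t⁻¹ = k * n := by
      calc t * (k * n) * t⁻¹ = (t * k * t⁻¹) * (t * n * t⁻¹) := by group
        _ = (k * m) * n⁻¹ := by rw [hnt, hm]; group
        _ = (k * (n * n)) * n⁻¹ := by rw [hnn]
        _ = k * n := by group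
    calc t * (k * n) = (t * (k * n) * t⁻¹) * t := by group
      _ = k * n * t := by rw [h1]
  · calc t * n⁻¹ * t⁻¹ = (t * n * t⁻¹)⁻¹ := by group
      _ = n⁻¹⁻¹ := by rw [hnt]

/-- an element inverted by `a` is trivial, when the fixed points of `b` and `ab` are fixed by `a` -/
theorem inverted_eq_one {K : Subgroup G} (hK : Odd (Nat.card K)) {a b : G} (hb : b * b = 1)
    (hab : a * b = b * a) (hbK : b ∈ Subgroup.normalizer (K : Set G))
    (hCb : ∀ k ∈ K, b * k = k * b → a * k = k * a)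
    (hCab : ∀ k ∈ K, (a * b) * k = k * (a * b) → a * k = k * a)
    {x : G} (hx : x ∈ K) (hax : a * x * a⁻¹ = x⁻¹) : x = 1 := by
  obtain ⟨c, hc, j, hj, hxcj, hbc, hbj⟩ := inv_decomp hK hb hbK hx
  have hac : a * c = c * a := hCb c hc hbc
  have h1 : a * j * a⁻¹ = c⁻¹ * j⁻¹ * c⁻¹ := by
    have h0 : a * (c * j) * a⁻¹ = (c * j)⁻¹ := by rw [← hxcj]; exact hax
    have e : a * (c * j) * a⁻¹ = c * (a * j * a⁻¹) := by
      calc a * (c * j) * a⁻¹ = (a * c) * j * a⁻¹ := by group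
        _ = (c * a) * j * a⁻¹ := by rw [hac]
        _ = c * (a * j * a⁻¹) := by group
    rw [e, mul_inv_rev] at h0
    calc a * j * a⁻¹ = c⁻¹ * (c * (a * j * a⁻¹)) := by group
      _ = c⁻¹ * (j⁻¹ * c⁻¹) := by rw [h0]
      _ = c⁻¹ * j⁻¹ * c⁻¹ := by group
  have h2 : b * (a * j * a⁻¹) * b⁻¹ = c * j * c := by
    calc b * (a * j * a⁻¹) * b⁻¹ = (b * a) * j * (b * a)⁻¹ := by group
      _ = (a * b) * j * (a * b)⁻¹ := by rw [hab]
      _ = a * (b * j * b⁻¹) * a⁻¹ := by group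
      _ = a * j⁻¹ * a⁻¹ := by rw [hbj]
      _ = (a * j * a⁻¹)⁻¹ := by group
      _ = (c⁻¹ * j⁻¹ * c⁻¹)⁻¹ := by rw [h1]
      _ = c * j * c := by group
  have hbc' : b * c⁻¹ = c⁻¹ * b := by
    calc b * c⁻¹ = c⁻¹ * (c * b) * c⁻¹ := by group
      _ = c⁻¹ * (b * c) * c⁻¹ := by rw [hbc]
      _ = c⁻¹ * b := by group
  have h3 : b * (c⁻¹ * j⁻¹ * c⁻¹) * b⁻¹ = c⁻¹ * j * c⁻¹ := by
    calc b * (c⁻¹ * j⁻¹ * c⁻¹) * b⁻¹ = (b * c⁻¹) * j⁻¹ * c⁻¹ * b⁻¹ := by group
      _ = (c⁻¹ * b) * j⁻¹ * c⁻¹ * b⁻¹ := by rw [hbc']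
      _ = c⁻¹ * (b * j * b⁻¹)⁻¹ * (b * c⁻¹) * b⁻¹ := by group
      _ = c⁻¹ * (j⁻¹)⁻¹ * (c⁻¹ * b) * b⁻¹ := by rw [hbj, hbc']
      _ = c⁻¹ * j * c⁻¹ := by group
  have h4 : c * j * c = c⁻¹ * j * c⁻¹ := by rw [← h2, h1, h3]
  have h5 : (c * c) * j * (c * c) = j := by
    calc (c * c) * j * (c * c) = c * (c * j * c) * c := by group
      _ = c * (c⁻¹ * j * c⁻¹) * c := by rw [h4]
      _ = j := by group
  have h6 : j * (c * c) * j⁻¹ = (c * c)⁻¹ := by
    calc j * (c * c) * j⁻¹ = (c * c)⁻¹ * ((c * c) * j * (c * c)) * j⁻¹ := by group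
      _ = (c * c)⁻¹ * j * j⁻¹ := by rw [h5]
      _ = (c * c)⁻¹ := by group
  have hcc : c * c = 1 := eq_one_of_conj_eq_inv_odd (odd_orderOf_of_mem hK hj)
    (odd_orderOf_of_mem hK (K.mul_mem hc hc)) h6
  have hc1 : c = 1 := eq_one_of_mul_self_odd (odd_orderOf_of_mem hK hc) hcc
  have hxj : x = j := by rw [hxcj, hc1, one_mul]
  have hbx : b * x * b⁻¹ = x⁻¹ := by rw [hxj]; exact hbj
  have h7 : (a * b) * x = x * (a * b) := by
    have h8 : (a * b) * x * (a * b)⁻¹ = x := by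
      calc (a * b) * x * (a * b)⁻¹ = a * (b * x * b⁻¹) * a⁻¹ := by group
        _ = a * x⁻¹ * a⁻¹ := by rw [hbx]
        _ = (a * x * a⁻¹)⁻¹ := by group
        _ = x := by rw [hax, inv_inv]
    calc (a * b) * x = ((a * b) * x * (a * b)⁻¹) * (a * b) := by group
      _ = x * (a * b) := by rw [h8]
  have h9 : a * x = x * a := hCab x hx h7
  have h10 : x⁻¹ = x := by
    rw [← hax, h9]; group
  apply eq_one_of_mul_self_odd (odd_orderOf_of_mem hK hx)
  calc x * x = x * x⁻¹ := by rw [h10]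
    _ = 1 := mul_inv_cancel x

/-- `a` centralizes `K` when the fixed points of `b` and of `ab` on `K` are fixed by `a` -/
theorem centralizes_of_fixed {K : Subgroup G} (hK : Odd (Nat.card K)) {a b : G} (ha : a * a = 1)
    (hb : b * b = 1) (hab : a * b = b * a) (haK : a ∈ Subgroup.normalizer (K : Set G))
    (hbK : b ∈ Subgroup.normalizer (K : Set G))
    (hCb : ∀ k ∈ K, b * k = k * b → a * k = k * a)
    (hCab : ∀ k ∈ K, (a * b) * k = k * (a * b) → a * k = k * a) :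
    ∀ k ∈ K, a * k = k * a := by
  intro k hk
  obtain ⟨c, hc, j, hj, hkcj, hac, haj⟩ := inv_decomp hK ha haK hk
  have hj1 : j = 1 := inverted_eq_one hK hb hab hbK hCb hCab hj haj
  rw [hkcj, hj1, mul_one]
  exact hac

end fourgroup

end Cfsg.Agent.Lib.Helper42
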