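import Cfsg.Agent.Lib.Helper42.Sec29
import Cfsg.Agent.Lib.Helper66.PAct

set_option autoImplicit false

namespace Cfsg.Agent.Lib.Helper42

section chartwo

theorem zpowers_cases {H : Type*} [Group H] {t : H} (ht2 : t * t = 1) {y : H}
    (hy : y ∈ Subgroup.zpowers t) : y = 1 ∨ y = t := by
  obtain ⟨k, rfl⟩ := Subgroup.mem_zpowers_iff.mp hy
  have h2 : t ^ (2 : ℤ) = 1 := by rw [zpow_two, ht2]
  rcases Int.emod_two_eq_zero_or_one k with h | h
  · left
    have : k = 2 * (k / 2) := by omega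
    rw [this, zpow_mul, h2, one_zpow]
  · right
    have : k = 2 * (k / 2) + 1 := by omega
    rw [this, zpow_add, zpow_mul, h2, one_zpow, one_mul, zpow_one]

/-- a four-group containing the central involution `t` and normalized by `O₂(H)` lies in `O₂(H)`,
when `C_H(O₂(H)) ≤ O₂(H)` -/
theorem four_le_pCore {H : Type*} [Group H] [Finite H]
    (hchar : Subgroup.centralizer ((Cfsg.pCore 2 H : Subgroup H) : Set H) ≤ Cfsg.pCore 2 H)
    {t : H} (htc : ∀ h : H, h * t = t * h) (ht2 : t * t = 1)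
    (U : Subgroup H)
    (hU4 : ∀ x ∈ U, ∀ w ∈ U, x ≠ 1 → x ≠ t → w = 1 ∨ w = t ∨ w = x ∨ w = t * x)
    (hQU : Cfsg.pCore 2 H ≤ Subgroup.normalizer (U : Set H)) : U ≤ Cfsg.pCore 2 H := by
  by_contra hnot
  obtain ⟨x, hxU, hxQ⟩ := SetLike.not_le_iff_exists.mp hnot
  have hQn : (Cfsg.pCore 2 H).Normal := pCore_normal 2 H
  have hQ2 : IsPGroup 2 (Cfsg.pCore 2 H) := isPGroup_pCore 2 H
  have hTcent : ∀ d ∈ Subgroup.zpowers t, ∀ h : H, h * d = d * h := by
    intro d hd h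
    rcases zpowers_cases ht2 hd with rfl | rfl
    · simp
    · exact htc h
  have hTsq : ∀ d ∈ Subgroup.zpowers t, d * d = 1 := by
    intro d hd
    rcases zpowers_cases ht2 hd with rfl | rfl
    · simp
    · exact ht2
  haveI hTn : (Subgroup.zpowers t).Normal := ⟨fun d hd g => by
    have : g * d * g⁻¹ = d := by rw [hTcent d hd g]; group
    rw [this]; exact hd⟩
  have hT2 : IsPGroup 2 (Subgroup.zpowers t) := by
    rintro ⟨d, hd⟩
    refine ⟨1, ?_⟩
    apply Subtype.ext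
    show d ^ (2 ^ 1) = 1
    rw [pow_one, pow_two]; exact hTsq d hd
  have htQ : t ∈ Cfsg.pCore 2 H := le_pCore hTn hT2 (Subgroup.mem_zpowers t)
  set C := trivMod (Subgroup.zpowers t) (Cfsg.pCore 2 H) with hCdef
  have hCn : C.Normal := by
    rw [← Subgroup.normalizer_eq_top_iff, eq_top_iff]
    refine le_trans ?_ normalizer_le_normalizer_trivMod
    rw [Subgroup.normalizer_eq_top_iff.mpr hQn]
  have hC2 : IsPGroup 2 C := by
    rintro ⟨y, hy⟩
    have hyy : y ^ 2 ∈ Subgroup.centralizer ((Cfsg.pCore 2 H : Subgroup H) : Set H) := by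
      rw [Subgroup.mem_centralizer_iff]
      intro q hq
      have hd := hy q hq
      have h2 := pow_conj_eq_pow_mul (z := y) (a := q) rfl (hTcent _ hd y) 2
      rw [pow_two (y * q * y⁻¹ * q⁻¹), hTsq _ hd, one_mul] at h2
      calc q * y ^ 2 = (y ^ 2 * q * (y ^ 2)⁻¹) * y ^ 2 := by rw [h2]
        _ = y ^ 2 * q := by group
    obtain ⟨k, hk⟩ := hQ2 ⟨y ^ 2, hchar hyy⟩
    refine ⟨k + 1, ?_⟩
    apply Subtype.ext
    have hk' : (y ^ 2) ^ (2 ^ k) = 1 := by
      have := congrArg Subtype.val hk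
      simpa using this
    show y ^ (2 ^ (k + 1)) = 1
    rw [pow_succ', pow_mul]; exact hk'
  have hCQ : C ≤ Cfsg.pCore 2 H := le_pCore hCn hC2
  apply hxQ
  apply hCQ
  intro q hq
  have hx1 : x ≠ 1 := fun h => hxQ (h ▸ Subgroup.one_mem _)
  have hxt : x ≠ t := fun h => hxQ (h ▸ htQ)
  have hwU : x * q * x⁻¹ * q⁻¹ ∈ U := by
    have h1 : q * x⁻¹ * q⁻¹ ∈ U :=
      (Subgroup.mem_normalizer_iff.mp (hQU hq) x⁻¹).mp (U.inv_mem hxU)
    have e : x * q * x⁻¹ * q⁻¹ = x * (q * x⁻¹ * q⁻¹) := by group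
    rw [e]; exact U.mul_mem hxU h1
  have hwQ : x * q * x⁻¹ * q⁻¹ ∈ Cfsg.pCore 2 H :=
    Subgroup.mul_mem _ (hQn.conj_mem q hq x) (Subgroup.inv_mem _ hq)
  rcases hU4 x hxU _ hwU hx1 hxt with h | h | h | h
  · rw [h]; exact Subgroup.one_mem _
  · rw [h]; exact Subgroup.mem_zpowers t
  · exact absurd (h ▸ hwQ) hxQ
  · exfalso; apply hxQ
    have e : x = t⁻¹ * (x * q * x⁻¹ * q⁻¹) := by rw [h]; group
    rw [e]; exact Subgroup.mul_mem _ (Subgroup.inv_mem _ htQ) hwQ

theorem mem_normalizer_zpowers_iff {G : Type*} [Group G] {t : G} (ht2 : t * t = 1) (ht1 : t ≠ 1)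
    {h : G} :
    h ∈ Subgroup.normalizer ((Subgroup.zpowers t : Subgroup G) : Set G) ↔ h * t = t * h := by
  constructor
  · intro hh
    have h1 : h * t * h⁻¹ ∈ Subgroup.zpowers t :=
      (Subgroup.mem_normalizer_iff.mp hh t).mp (Subgroup.mem_zpowers t)
    rcases zpowers_cases ht2 h1 with h2 | h2
    · exfalso; apply ht1
      have : t = h⁻¹ * (h * t * h⁻¹) * h := by group
      rw [this, h2]; group
    · calc h * t = (h * t * h⁻¹) * h := by group
        _ = t * h := by rw [h2]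
  · intro hh
    have hh' : h⁻¹ * t = t * h⁻¹ := by
      calc h⁻¹ * t = h⁻¹ * (t * h) * h⁻¹ := by group
        _ = h⁻¹ * (h * t) * h⁻¹ := by rw [hh]
        _ = t * h⁻¹ := by group
    have key : ∀ g : G, g * t = t * g → ∀ n ∈ Subgroup.zpowers t, g * n * g⁻¹ = n := by
      intro g hg n hn
      rcases zpowers_cases ht2 hn with rfl | rfl
      · simp
      · rw [hg]; group
    rw [Subgroup.mem_normalizer_iff]
    intro n
    constructor
    · intro hn; rw [key h hh n hn]; exact hn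
    · intro hn
      have h3 := key h⁻¹ hh' _ hn
      have e : h⁻¹ * (h * n * h⁻¹) * h⁻¹⁻¹ = n := by group
      rw [e] at h3
      rw [h3]; exact hn

/-- for an involution `t` of a four-group `U` normalized by `O₂(C(t))`, in a group in which `C(t)`
has characteristic 2: `U` centralizes the fixed points of `t` on every `U`-invariant subgroup of odd
order -/
theorem four_centralizes_fixed {G : Type*} [Group G] [Finite G] {t : G} (ht2 : t * t = 1)
    (ht1 : t ≠ 1)
    (hchar : Cfsg.IsOfCharacteristicTwo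
      ↥(Subgroup.normalizer ((Subgroup.zpowers t : Subgroup G) : Set G)))
    (U : Subgroup G) (htU : t ∈ U) (hUcomm : ∀ x ∈ U, ∀ y ∈ U, x * y = y * x)
    (hU4 : ∀ x ∈ U, ∀ w ∈ U, x ≠ 1 → x ≠ t → w = 1 ∨ w = t ∨ w = x ∨ w = t * x)
    (hQU : (Cfsg.pCore 2 ↥(Subgroup.normalizer ((Subgroup.zpowers t : Subgroup G) : Set G))).map
      (Subgroup.normalizer ((Subgroup.zpowers t : Subgroup G) : Set G)).subtype ≤
      Subgroup.normalizer (U : Set G))
    {K : Subgroup G} (hK : Odd (Nat.card K)) (hUK : U ≤ Subgroup.normalizer (K : Set G)) :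
    ∀ k ∈ K, t * k = k * t → ∀ s ∈ U, s * k = k * s := by
  set H := Subgroup.normalizer ((Subgroup.zpowers t : Subgroup G) : Set G) with hHdef
  have hHiff : ∀ h : G, h ∈ H ↔ h * t = t * h := fun h => mem_normalizer_zpowers_iff ht2 ht1
  have hUH : U ≤ H := fun x hx => (hHiff x).mpr (hUcomm x hx t htU)
  have hchar' : Subgroup.centralizer ((Cfsg.pCore 2 ↥H : Subgroup ↥H) : Set ↥H) ≤
      Cfsg.pCore 2 ↥H := hchar
  have hle : U.subgroupOf H ≤ Cfsg.pCore 2 ↥H := by
    apply four_le_pCore hchar' (t := ⟨t, (hHiff t).mpr rfl⟩)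
    · intro h; apply Subtype.ext; exact (hHiff h).mp h.2
    · apply Subtype.ext; exact ht2
    · intro x hx w hw hx1 hxt
      have hx' : (x : G) ∈ U := Subgroup.mem_subgroupOf.mp hx
      have hw' : (w : G) ∈ U := Subgroup.mem_subgroupOf.mp hw
      have h1 : (x : G) ≠ 1 := fun h => hx1 (Subtype.ext h)
      have h2 : (x : G) ≠ t := fun h => hxt (Subtype.ext h)
      rcases hU4 x hx' w hw' h1 h2 with h | h | h | h
      · left; exact Subtype.ext h
      · right; left; exact Subtype.ext h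
      · right; right; left; exact Subtype.ext h
      · right; right; right; exact Subtype.ext h
    · intro q hq
      have hq' : (q : G) ∈ Subgroup.normalizer (U : Set G) := hQU ⟨q, hq, rfl⟩
      rw [Subgroup.mem_normalizer_iff]
      intro y
      rw [Subgroup.mem_subgroupOf, Subgroup.mem_subgroupOf]
      exact Subgroup.mem_normalizer_iff.mp hq' y
  intro k hk htk s hs
  have hkH : k ∈ H := (hHiff k).mpr htk.symm
  have hsH : s ∈ H := hUH hs
  have hsQ : (⟨s, hsH⟩ : ↥H) ∈ Cfsg.pCore 2 ↥H := hle (Subgroup.mem_subgroupOf.mpr hs)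
  have hQn : (Cfsg.pCore 2 ↥H).Normal := pCore_normal 2 ↥H
  have hwQ : s * k * s⁻¹ * k⁻¹ ∈ (Cfsg.pCore 2 ↥H).map H.subtype := by
    refine ⟨⟨s, hsH⟩ * (⟨k, hkH⟩ * ⟨s, hsH⟩⁻¹ * ⟨k, hkH⟩⁻¹),
      Subgroup.mul_mem _ hsQ (hQn.conj_mem _ (Subgroup.inv_mem _ hsQ) _), ?_⟩
    simp [mul_assoc]
  have hwK : s * k * s⁻¹ * k⁻¹ ∈ K :=
    K.mul_mem ((Subgroup.mem_normalizer_iff.mp (hUK hs) k).mp hk) (K.inv_mem hk)
  have hbot : (Cfsg.pCore 2 ↥H).map H.subtype ⊓ K = ⊥ :=
    inf_eq_bot_of_pgroup_coprime ((isPGroup_pCore 2 ↥H).map _) hK.coprime_two_right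
  have hw1 : s * k * s⁻¹ * k⁻¹ = 1 := by
    have : s * k * s⁻¹ * k⁻¹ ∈ (Cfsg.pCore 2 ↥H).map H.subtype ⊓ K := ⟨hwQ, hwK⟩
    rwa [hbot, Subgroup.mem_bot] at this
  calc s * k = (s * k * s⁻¹ * k⁻¹) * (k * s) := by group
    _ = k * s := by rw [hw1, one_mul]

/-- a 2-subgroup of `H` lies in a 2-subgroup containing `O₂(H)` -/
theorem exists_pgroup_ge_core {G : Type*} [Group G] [Finite G] (H R₀ : Subgroup G)
    (hR₀H : R₀ ≤ H) (hR₀ : IsPGroup 2 R₀) :
    ∃ R : Subgroup G, R₀ ≤ R ∧ IsPGroup 2 R ∧ (Cfsg.pCore 2 ↥H).map H.subtype ≤ R := by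
  obtain ⟨S', hS'⟩ := (hR₀.comap_subtype (K := H)).exists_le_sylow
  haveI : (Cfsg.pCore 2 ↥H).Normal := pCore_normal 2 ↥H
  refine ⟨(S' : Subgroup ↥H).map H.subtype, ?_, S'.isPGroup'.map _,
    Subgroup.map_mono (normal_pgroup_le_sylow S' (isPGroup_pCore 2 ↥H))⟩
  rw [← Subgroup.map_subgroupOf_eq_of_le hR₀H]
  exact Subgroup.map_mono hS'

theorem cyclic_sq_cases {C : Type*} [Group C] [Finite C] [IsCyclic C] {z w : C} (hz1 : z ≠ 1)
    (hz2 : z * z = 1) (hw2 : w * w = 1) : w = 1 ∨ w = z := by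
  classical
  by_contra hne
  push Not at hne
  haveI := Fintype.ofFinite C
  have h := IsCyclic.card_pow_eq_one_le (α := C) (n := 2) (by norm_num)
  have hsub : ({1, z, w} : Finset C) ⊆ Finset.univ.filter (fun a : C => a ^ 2 = 1) := by
    intro a ha
    simp only [Finset.mem_insert, Finset.mem_singleton] at ha
    rw [Finset.mem_filter]
    refine ⟨Finset.mem_univ _, ?_⟩
    rcases ha with rfl | rfl | rfl
    · simp
    · rw [pow_two, hz2]
    · rw [pow_two, hw2]
  have hcard : ({1, z, w} : Finset C).card = 3 := by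
    rw [Finset.card_insert_of_notMem, Finset.card_insert_of_notMem, Finset.card_singleton]
    · simp only [Finset.mem_singleton]
      exact fun h => hne.2 h.symm
    · simp only [Finset.mem_insert, Finset.mem_singleton, not_or]
      exact ⟨fun h => hz1 h.symm, fun h => hne.1 h.symm⟩
  have h3 := (Finset.card_le_card hsub).trans h
  omega

end chartwo

end Cfsg.Agent.Lib.Helper42
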