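import Cfsg.Agent.Lib.Helper42.Sec30

set_option autoImplicit false

namespace Cfsg.Agent.Lib.Helper42

section core

variable {G : Type*} [Group G] [Finite G]

/-- `O₂(C(t))` normalizes the normal four-subgroup `U` of the Sylow 2-subgroup `P`, for every
involution `t` of `U` (where `U` is central in `P` when `Z(P)` is not cyclic) -/
theorem core_normalizes_four (P : Sylow 2 G) (U : Subgroup G)
    (hUP : U ≤ (P : Subgroup G)) (hUn : (P : Subgroup G) ≤ Subgroup.normalizer (U : Set G))
    (hUcomm : ∀ x ∈ U, ∀ y ∈ U, x * y = y * x) (hU2 : ∀ x ∈ U, x * x = 1)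
    (hU4 : ∀ x ∈ U, ∀ y ∈ U, ∀ w ∈ U, x ≠ 1 → y ≠ 1 → x ≠ y →
      w = 1 ∨ w = x ∨ w = y ∨ w = x * y)
    (hUcard : 2 ∣ Nat.card U)
    (hUZ : ¬ IsCyclic ↥((P : Subgroup G) ⊓ Subgroup.centralizer ((P : Subgroup G) : Set G)) →
      U ≤ Subgroup.centralizer ((P : Subgroup G) : Set G))
    {t : G} (htU : t ∈ U) (ht1 : t ≠ 1) :
    (Cfsg.pCore 2 ↥(Subgroup.normalizer ((Subgroup.zpowers t : Subgroup G) : Set G))).map
      (Subgroup.normalizer ((Subgroup.zpowers t : Subgroup G) : Set G)).subtype ≤
      Subgroup.normalizer (U : Set G) := by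
  have ht2 : t * t = 1 := hU2 t htU
  set H := Subgroup.normalizer ((Subgroup.zpowers t : Subgroup G) : Set G) with hHdef
  have hHiff : ∀ h : G, h ∈ H ↔ h * t = t * h := fun h => mem_normalizer_zpowers_iff ht2 ht1
  have hP2 : IsPGroup 2 (P : Subgroup G) := P.isPGroup'
  by_cases htZ : t ∈ Subgroup.centralizer ((P : Subgroup G) : Set G)
  · have hPH : (P : Subgroup G) ≤ H :=
      fun x hx => (hHiff x).mpr (Subgroup.mem_centralizer_iff.mp htZ x hx)
    obtain ⟨R, hPR, hR2, hQR⟩ := exists_pgroup_ge_core H P hPH hP2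
    have hRP : R = P := P.is_maximal' hR2 hPR
    rw [hRP] at hQR
    exact hQR.trans hUn
  · have hcyc : IsCyclic
        ↥((P : Subgroup G) ⊓ Subgroup.centralizer ((P : Subgroup G) : Set G)) := by
      by_contra h
      exact htZ (hUZ h htU)
    -- a central involution `z` in `U`
    obtain ⟨z, hzU, hzC, hz1⟩ :
        ∃ z ∈ U, z ∈ Subgroup.centralizer ((P : Subgroup G) : Set G) ∧ z ≠ 1 := by
      have hdvd := Cfsg.Agent.Lib.Helper66.dvd_card_inf_centralizer (p := 2)
        (H := (P : Subgroup G)) (Z := U) hP2 hUcard hUn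
      by_contra hall
      push Not at hall
      have hbot : U ⊓ Subgroup.centralizer ((P : Subgroup G) : Set G) = ⊥ := by
        rw [Subgroup.eq_bot_iff_forall]
        intro x hx
        exact hall x hx.1 hx.2
      rw [hbot, Subgroup.card_bot] at hdvd
      exact absurd hdvd (by norm_num)
    have hzt : z ≠ t := fun h => htZ (h ▸ hzC)
    have hz2 : z * z = 1 := hU2 z hzU
    have hZ2 : ∀ w ∈ (P : Subgroup G), w ∈ Subgroup.centralizer ((P : Subgroup G) : Set G) →
        w * w = 1 → w = 1 ∨ w = z := by
      intro w hwP hwC hw2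
      have h := cyclic_sq_cases
        (C := ↥((P : Subgroup G) ⊓ Subgroup.centralizer ((P : Subgroup G) : Set G)))
        (z := ⟨z, hUP hzU, hzC⟩) (w := ⟨w, hwP, hwC⟩) (fun h => hz1 (congrArg Subtype.val h))
        (Subtype.ext hz2) (Subtype.ext hw2)
      rcases h with h | h
      · left; exact congrArg Subtype.val h
      · right; exact congrArg Subtype.val h
    set P₀ := (P : Subgroup G) ⊓ Subgroup.centralizer (U : Set G) with hP₀def
    have hP₀P : P₀ ≤ (P : Subgroup G) := inf_le_left
    -- the conjugates of `t` under `P`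
    have hconj : ∀ x ∈ (P : Subgroup G), x * t * x⁻¹ = t ∨ x * t * x⁻¹ = z * t := by
      intro x hx
      have h1 : x * t * x⁻¹ ∈ U := (Subgroup.mem_normalizer_iff.mp (hUn hx) t).mp htU
      rcases hU4 z hzU t htU _ h1 hz1 ht1 hzt with h | h | h | h
      · exfalso; apply ht1
        have e : t = x⁻¹ * (x * t * x⁻¹) * x := by group
        rw [e, h]; group
      · exfalso; apply hzt
        have hzx := Subgroup.mem_centralizer_iff.mp hzC x hx
        have e : t = x⁻¹ * (x * t * x⁻¹) * x := by group
        rw [e, h, mul_assoc, ← hzx, ← mul_assoc, inv_mul_cancel, one_mul]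
      · exact Or.inl h
      · exact Or.inr h
    have hP₀mem : ∀ x ∈ (P : Subgroup G), x * t * x⁻¹ = t → x ∈ P₀ := by
      intro x hx hxt
      refine ⟨hx, ?_⟩
      show x ∈ Subgroup.centralizer _
      rw [Subgroup.mem_centralizer_iff]
      intro w hw
      have hxz := Subgroup.mem_centralizer_iff.mp hzC x hx
      have hxt' : x * t = t * x := by
        calc x * t = (x * t * x⁻¹) * x := by group
          _ = t * x := by rw [hxt]
      rcases hU4 z hzU t htU w hw hz1 ht1 hzt with h | h | h | h
      · rw [h]; simp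
      · rw [h]; exact hxz.symm
      · rw [h]; exact hxt'.symm
      · rw [h, mul_assoc, ← hxt', ← mul_assoc, ← hxz, mul_assoc]
    have hidx : ∀ x ∈ (P : Subgroup G), ∀ y ∈ (P : Subgroup G), x ∉ P₀ → y ∉ P₀ →
        x⁻¹ * y ∈ P₀ := by
      intro x hx y hy hx0 hy0
      apply hP₀mem _ (Subgroup.mul_mem _ (Subgroup.inv_mem _ hx) hy)
      have hxt : x * t * x⁻¹ = z * t :=
        (hconj x hx).resolve_left (fun h => hx0 (hP₀mem x hx h))
      have hyt : y * t * y⁻¹ = z * t :=
        (hconj y hy).resolve_left (fun h => hy0 (hP₀mem y hy h))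
      calc x⁻¹ * y * t * (x⁻¹ * y)⁻¹ = x⁻¹ * (y * t * y⁻¹) * x := by group
        _ = x⁻¹ * (x * t * x⁻¹) * x := by rw [hyt, hxt]
        _ = t := by group
    obtain ⟨x, hxP, hx0⟩ : ∃ x ∈ (P : Subgroup G), x ∉ P₀ := by
      by_contra hall
      push Not at hall
      apply htZ
      rw [Subgroup.mem_centralizer_iff]
      intro y hy
      exact (Subgroup.mem_centralizer_iff.mp (hall y hy).2 t htU).symm
    have hxt : x * t * x⁻¹ = z * t :=
      (hconj x hxP).resolve_left (fun h => hx0 (hP₀mem x hxP h))
    have hxx : x * x ∈ P₀ := by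
      have hxi : x⁻¹ ∉ P₀ := fun h => hx0 (by simpa using P₀.inv_mem h)
      have := hidx x⁻¹ (Subgroup.inv_mem _ hxP) x hxP hxi hx0
      simpa using this
    have hPN₀ : (P : Subgroup G) ≤ Subgroup.normalizer (P₀ : Set G) := by
      apply le_normalizer_of_conj_mem
      intro y hy e he
      refine ⟨Subgroup.mul_mem _ (Subgroup.mul_mem _ hy he.1) (Subgroup.inv_mem _ hy), ?_⟩
      exact (Subgroup.mem_normalizer_iff.mp
        (normalizer_le_normalizer_centralizer U (hUn hy)) e).mp he.2
    have htP₀ : t ∈ P₀ := ⟨hUP htU, by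
      show t ∈ Subgroup.centralizer _
      rw [Subgroup.mem_centralizer_iff]
      intro w hw
      exact hUcomm w hw t htU⟩
    have htC₀ : t ∈ Subgroup.centralizer (P₀ : Set G) := by
      rw [Subgroup.mem_centralizer_iff]
      intro y hy
      exact (Subgroup.mem_centralizer_iff.mp hy.2 t htU).symm
    -- elements of `Z(P₀)` fixed by `x` are central in `P`
    have hfix : ∀ e ∈ Subgroup.centralizer (P₀ : Set G), x * e = e * x →
        e ∈ Subgroup.centralizer ((P : Subgroup G) : Set G) := by
      intro e heC hxe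
      rw [Subgroup.mem_centralizer_iff]
      intro y hy
      by_cases hy0 : y ∈ P₀
      · exact Subgroup.mem_centralizer_iff.mp heC y hy0
      · have h1 := hidx x hxP y hy hx0 hy0
        have h2 := Subgroup.mem_centralizer_iff.mp heC _ h1
        calc y * e = x * ((x⁻¹ * y) * e) := by group
          _ = x * (e * (x⁻¹ * y)) := by rw [h2]
          _ = (x * e) * (x⁻¹ * y) := by group
          _ = (e * x) * (x⁻¹ * y) := by rw [hxe]
          _ = e * y := by group
    -- `Ω₁(Z(P₀)) ≤ U`
    have hE : ∀ e ∈ P₀, e ∈ Subgroup.centralizer (P₀ : Set G) → e * e = 1 → e ∈ U := by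
      intro e he heC he2
      have hf : x * e * x⁻¹ ∈ P₀ := (Subgroup.mem_normalizer_iff.mp (hPN₀ hxP) e).mp he
      have hfC : x * e * x⁻¹ ∈ Subgroup.centralizer (P₀ : Set G) :=
        (Subgroup.mem_normalizer_iff.mp
          (normalizer_le_normalizer_centralizer P₀ (hPN₀ hxP)) e).mp heC
      have hef : (x * e * x⁻¹) * e = e * (x * e * x⁻¹) :=
        Subgroup.mem_centralizer_iff.mp heC _ hf
      have hff : (x * e * x⁻¹) * (x * e * x⁻¹) = 1 := by
        calc (x * e * x⁻¹) * (x * e * x⁻¹) = x * (e * e) * x⁻¹ := by group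
          _ = 1 := by rw [he2]; group
      have hwP₀ : e * (x * e * x⁻¹) ∈ P₀ := Subgroup.mul_mem _ he hf
      have hwC₀ : e * (x * e * x⁻¹) ∈ Subgroup.centralizer (P₀ : Set G) :=
        Subgroup.mul_mem _ heC hfC
      have hw2 : (e * (x * e * x⁻¹)) * (e * (x * e * x⁻¹)) = 1 := by
        calc (e * (x * e * x⁻¹)) * (e * (x * e * x⁻¹))
            = e * ((x * e * x⁻¹) * e) * (x * e * x⁻¹) := by group
          _ = e * (e * (x * e * x⁻¹)) * (x * e * x⁻¹) := by rw [hef]
          _ = (e * e) * ((x * e * x⁻¹) * (x * e * x⁻¹)) := by group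
          _ = 1 := by rw [he2, hff, one_mul]
      have hxw : x * (e * (x * e * x⁻¹)) = (e * (x * e * x⁻¹)) * x := by
        have h1 : (x * x) * e = e * (x * x) := Subgroup.mem_centralizer_iff.mp heC _ hxx
        have h2 : x * (e * (x * e * x⁻¹)) * x⁻¹ = e * (x * e * x⁻¹) := by
          calc x * (e * (x * e * x⁻¹)) * x⁻¹
              = (x * e * x⁻¹) * ((x * x) * e) * (x * x)⁻¹ := by group
            _ = (x * e * x⁻¹) * (e * (x * x)) * (x * x)⁻¹ := by rw [h1]
            _ = (x * e * x⁻¹) * e := by group
            _ = e * (x * e * x⁻¹) := hef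
        calc x * (e * (x * e * x⁻¹)) = (x * (e * (x * e * x⁻¹)) * x⁻¹) * x := by group
          _ = (e * (x * e * x⁻¹)) * x := by rw [h2]
      have hwC := hfix _ hwC₀ hxw
      have hei : e⁻¹ = e := inv_eq_of_mul_eq_one_right he2
      rcases hZ2 _ (hP₀P hwP₀) hwC hw2 with h | h
      · -- `x` fixes `e`
        have hxe : x * e = e * x := by
          have h3 : x * e * x⁻¹ = e := by
            calc x * e * x⁻¹ = e⁻¹ * (e * (x * e * x⁻¹)) := by group
              _ = e := by rw [h, mul_one, hei]
          calc x * e = (x * e * x⁻¹) * x := by group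
            _ = e * x := by rw [h3]
        rcases hZ2 e he.1 (hfix e heC hxe) he2 with h4 | h4
        · rw [h4]; exact U.one_mem
        · rw [h4]; exact hzU
      · -- `x e x⁻¹ = e z`; then `x` fixes `e t`
        have h3 : x * e * x⁻¹ = e * z := by
          calc x * e * x⁻¹ = e⁻¹ * (e * (x * e * x⁻¹)) := by group
            _ = e * z := by rw [h, hei]
        have hzt' : z * t = t * z := hUcomm z hzU t htU
        have het : e * t = t * e := (Subgroup.mem_centralizer_iff.mp he.2 t htU).symm
        have hxet : x * (e * t) = (e * t) * x := by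
          have h5 : x * (e * t) * x⁻¹ = e * t := by
            calc x * (e * t) * x⁻¹ = (x * e * x⁻¹) * (x * t * x⁻¹) := by group
              _ = (e * z) * (z * t) := by rw [h3, hxt]
              _ = e * (z * z) * t := by group
              _ = e * t := by rw [hz2, mul_one]
          calc x * (e * t) = (x * (e * t) * x⁻¹) * x := by group
            _ = (e * t) * x := by rw [h5]
        have het2 : (e * t) * (e * t) = 1 := by
          calc (e * t) * (e * t) = e * (t * e) * t := by group
            _ = e * (e * t) * t := by rw [het]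
            _ = (e * e) * (t * t) := by group
            _ = 1 := by rw [he2, ht2, one_mul]
        have hetC : e * t ∈ Subgroup.centralizer ((P : Subgroup G) : Set G) :=
          hfix _ (Subgroup.mul_mem _ heC htC₀) hxet
        have hti : t⁻¹ = t := inv_eq_of_mul_eq_one_right ht2
        rcases hZ2 _ (Subgroup.mul_mem _ he.1 (hUP htU)) hetC het2 with h4 | h4
        · have e1 : e = (e * t) * t⁻¹ := by group
          rw [e1, h4, one_mul]; exact U.inv_mem htU
        · have e1 : e = (e * t) * t⁻¹ := by group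
          rw [e1, h4]; exact U.mul_mem hzU (U.inv_mem htU)
    have hUE : ∀ u ∈ U, u ∈ P₀ ∧ u ∈ Subgroup.centralizer (P₀ : Set G) ∧ u * u = 1 := by
      intro u hu
      refine ⟨⟨hUP hu, ?_⟩, ?_, hU2 u hu⟩
      · show u ∈ Subgroup.centralizer _
        rw [Subgroup.mem_centralizer_iff]
        intro w hw
        exact hUcomm w hw u hu
      · rw [Subgroup.mem_centralizer_iff]
        intro y hy
        exact (Subgroup.mem_centralizer_iff.mp hy.2 u hu).symm
    -- a Sylow 2-subgroup `R` of `C(t)` containing `P₀`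
    have hP₀H : P₀ ≤ H := fun y hy => (hHiff y).mpr (Subgroup.mem_centralizer_iff.mp htC₀ y hy)
    obtain ⟨R, hP₀R, hR2, hQR⟩ := exists_pgroup_ge_core H P₀ hP₀H (hP2.to_le hP₀P)
    have hRN : R ≤ Subgroup.normalizer (P₀ : Set G) := by
      by_cases hRP₀ : P₀ = R
      · rw [← hRP₀]; exact Subgroup.le_normalizer
      · have h1 := card_lt_card_inf_normalizer hR2 hP₀R hRP₀
        have h2 : Nat.card (R ⊓ Subgroup.normalizer (P₀ : Set G) : Subgroup G) ∣ Nat.card R :=
          Subgroup.card_dvd_of_le inf_le_left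
        have h3 : Nat.card P₀ ∣ Nat.card (R ⊓ Subgroup.normalizer (P₀ : Set G) : Subgroup G) :=
          Subgroup.card_dvd_of_le (le_inf hP₀R Subgroup.le_normalizer)
        have h4 : Nat.card R ≤ Nat.card (P : Subgroup G) := by
          obtain ⟨g, hg⟩ := exists_conj_le_sylow P hR2
          rw [← card_cj g R]
          exact Subgroup.card_le_of_le hg
        have h5 : Nat.card (P : Subgroup G) ≤ 2 * Nat.card P₀ := by
          have hsub : ((P : Subgroup G) : Set G) ⊆
              (P₀ : Set G) ∪ (fun g => x * g) '' (P₀ : Set G) := by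
            intro y hy
            by_cases hy0 : y ∈ P₀
            · exact Or.inl hy0
            · exact Or.inr ⟨x⁻¹ * y, hidx x hxP y hy hx0 hy0, by group⟩
          have e1 : Nat.card (P : Subgroup G) = ((P : Subgroup G) : Set G).ncard :=
            Nat.card_coe_set_eq _
          have e2 : Nat.card P₀ = (P₀ : Set G).ncard := Nat.card_coe_set_eq _
          rw [e1, e2]
          calc ((P : Subgroup G) : Set G).ncard
              ≤ ((P₀ : Set G) ∪ (fun g => x * g) '' (P₀ : Set G)).ncard :=
                Set.ncard_le_ncard hsub (Set.toFinite _)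
            _ ≤ (P₀ : Set G).ncard + ((fun g => x * g) '' (P₀ : Set G)).ncard :=
                Set.ncard_union_le _ _
            _ ≤ (P₀ : Set G).ncard + (P₀ : Set G).ncard :=
                Nat.add_le_add_left (Set.ncard_image_le (Set.toFinite _)) _
            _ = 2 * (P₀ : Set G).ncard := by ring
        have hpos : 0 < Nat.card P₀ := Nat.card_pos
        have hposR : 0 < Nat.card R := Nat.card_pos
        obtain ⟨a, ha⟩ := h3
        obtain ⟨b, hb⟩ := h2
        have ha2 : 2 ≤ a := by
          by_contra hlt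
          have : a = 0 ∨ a = 1 := by omega
          rcases this with h | h
          · rw [h, mul_zero] at ha; omega
          · rw [h, mul_one] at ha; omega
        have hb1 : b = 1 := by
          by_contra hne
          have hb0 : b ≠ 0 := by
            intro h0; rw [h0, mul_zero] at hb; omega
          have hb2 : 2 ≤ b := by omega
          have : Nat.card R ≥ (Nat.card P₀ * a) * 2 := by
            rw [hb, ← ha]; exact Nat.mul_le_mul_left _ hb2
          nlinarith
        rw [hb1, mul_one] at hb
        have hEq : R ⊓ Subgroup.normalizer (P₀ : Set G) = R :=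
          Subgroup.eq_of_le_of_card_ge inf_le_left hb.le
        rw [← hEq]; exact inf_le_right
    refine hQR.trans (le_normalizer_of_conj_mem ?_)
    intro r hr u hu
    obtain ⟨h1, h2, h3⟩ := hUE u hu
    apply hE
    · exact (Subgroup.mem_normalizer_iff.mp (hRN hr) u).mp h1
    · exact (Subgroup.mem_normalizer_iff.mp
        (normalizer_le_normalizer_centralizer P₀ (hRN hr)) u).mp h2
    · calc (r * u * r⁻¹) * (r * u * r⁻¹) = r * (u * u) * r⁻¹ := by group
        _ = 1 := by rw [h3]; group

end core

end Cfsg.Agent.Lib.Helper42
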