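import Cfsg.Agent.Lib.Helper42.Fusion5
import Cfsg.Agent.Lib.Helper66.Cores

set_option autoImplicit false
open scoped commutatorElement

namespace Cfsg.Agent.Lib.Helper42

variable {G : Type*} [Group G]

/-! ### Relative subnormality -/

/-- `A` is a subnormal subgroup of `B` -/
def Sn (A B : Subgroup G) : Prop := A ≤ B ∧ (A.subgroupOf B).IsSubnormal

theorem Sn.mono {A B F : Subgroup G} (h : Sn A B) (hAF : A ≤ F) (hFB : F ≤ B) : Sn A F := by
  refine ⟨hAF, ?_⟩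
  have h1 := h.2.comap (Subgroup.inclusion hFB)
  have e : (A.subgroupOf B).comap (Subgroup.inclusion hFB) = A.subgroupOf F := by
    ext x
    simp [Subgroup.mem_subgroupOf]
  rwa [e] at h1

theorem Sn.conj {A B : Subgroup G} (h : Sn A B) {g : G} (hg : g ∈ B) : Sn (cj g A) B := by
  refine ⟨(cj_mono h.1).trans (cj_eq_of_mem hg).le, ?_⟩
  have h1 := h.2.map (f := (MulAut.conj (⟨g, hg⟩ : B)).toMonoidHom)
    (MulAut.conj (⟨g, hg⟩ : B)).surjective
  have e : (A.subgroupOf B).map (MulAut.conj (⟨g, hg⟩ : B)).toMonoidHom =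
      (cj g A).subgroupOf B := by
    ext x
    constructor
    · intro hx
      have hx' := (mem_cj (G := B)).mp hx
      rw [Subgroup.mem_subgroupOf] at hx' ⊢
      rw [mem_cj]
      simpa using hx'
    · intro hx
      rw [Subgroup.mem_subgroupOf, mem_cj] at hx
      apply (mem_cj (G := B)).mpr
      rw [Subgroup.mem_subgroupOf]
      simpa using hx
  rwa [e] at h1

theorem Sn.exists_proper {A B : Subgroup G} (h : Sn A B) (hne : ¬ B ≤ A) :
    ∃ D : Subgroup G, A ≤ D ∧ D < B ∧ B ≤ Subgroup.normalizer (D : Set G) := by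
  have hne' : A.subgroupOf B ≠ ⊤ := fun h' => hne (Subgroup.subgroupOf_eq_top.mp h')
  obtain ⟨K, hKn, hAK, hK⟩ := h.2.exists_normal_and_le_and_lt_top_of_ne hne'
  refine ⟨K.map B.subtype, ?_, ?_, ?_⟩
  · intro a ha
    exact ⟨⟨a, h.1 ha⟩, hAK (by rw [Subgroup.mem_subgroupOf]; exact ha), rfl⟩
  · refine lt_of_le_of_ne (Subgroup.map_subtype_le K) ?_
    intro hKB
    apply hK.ne
    rw [eq_top_iff]
    intro x _
    have hx : (x : G) ∈ K.map B.subtype := by rw [hKB]; exact x.2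
    obtain ⟨y, hy, hyx⟩ := hx
    have : y = x := Subtype.ext hyx
    rwa [← this]
  · intro b hb
    rw [← cj_eq_self_iff]
    apply le_antisymm
    · rintro x hx
      rw [mem_cj] at hx
      obtain ⟨y, hy, hyx⟩ := hx
      refine ⟨⟨b, hb⟩ * y * (⟨b, hb⟩ : B)⁻¹, hKn.conj_mem y hy ⟨b, hb⟩, ?_⟩
      simp only [Subgroup.coe_subtype, Subgroup.coe_mul, Subgroup.coe_inv] at hyx ⊢
      rw [hyx]; group
    · rintro x ⟨y, hy, rfl⟩
      rw [mem_cj]
      refine ⟨(⟨b, hb⟩ : B)⁻¹ * y * ⟨b, hb⟩, ?_, ?_⟩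
      · have := hKn.conj_mem y hy (⟨b, hb⟩ : B)⁻¹
        simpa using this
      · simp

/-! ### Faithful irreducible commutator modules -/

/-- `X` normalizes `V`, acts faithfully and irreducibly on `[V, X]`, and has more than two
elements -/
structure Irr (V X : Subgroup G) : Prop where
  n : X ≤ Subgroup.normalizer (V : Set G)
  f : X ⊓ Subgroup.centralizer ((⁅V, X⁆ : Subgroup G) : Set G) = ⊥
  i : ∀ U : Subgroup G, U ≤ ⁅V, X⁆ → X ≤ Subgroup.normalizer (U : Set G) → U = ⊥ ∨ U = ⁅V, X⁆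
  c : 2 < Nat.card X

theorem comm_elt_eq (v x : G) : ⁅v, x⁆ = v * (x * v⁻¹ * x⁻¹) := by
  rw [commutatorElement_def]; group

theorem comm_le_of_normalizer {V X : Subgroup G} (h : X ≤ Subgroup.normalizer (V : Set G)) :
    ⁅V, X⁆ ≤ V := by
  rw [Subgroup.commutator_le]
  intro v hv x hx
  have := (Subgroup.mem_normalizer_iff.mp (h hx) v⁻¹).mp (V.inv_mem hv)
  rw [comm_elt_eq]; exact V.mul_mem hv this

theorem normalizer_comm {V X : Subgroup G} (h : X ≤ Subgroup.normalizer (V : Set G)) :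
    X ≤ Subgroup.normalizer ((⁅V, X⁆ : Subgroup G) : Set G) := by
  intro x hx
  rw [← cj_eq_self_iff, cj_commutator, cj_eq_of_mem_normalizer (h hx), cj_eq_of_mem hx]

theorem comm_cj {V X : Subgroup G} {g : G} (hg : g ∈ Subgroup.normalizer (V : Set G)) :
    ⁅V, cj g X⁆ = cj g ⁅V, X⁆ := by
  rw [cj_commutator, cj_eq_of_mem_normalizer hg]

theorem cj_bot (g : G) : cj g (⊥ : Subgroup G) = ⊥ := Subgroup.map_bot _

theorem Irr.conj {V X : Subgroup G} (h : Irr V X) {g : G}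
    (hg : g ∈ Subgroup.normalizer (V : Set G)) : Irr V (cj g X) := by
  refine ⟨?_, ?_, ?_, ?_⟩
  · have := cj_mono (g := g) h.n
    rwa [← normalizer_cj, cj_eq_of_mem_normalizer hg] at this
  · rw [comm_cj hg, centralizer_cj, ← cj_inf, h.f, cj_bot]
  · intro U hU hUn
    rw [comm_cj hg] at hU ⊢
    have h1 : cj g⁻¹ U ≤ ⁅V, X⁆ := by
      rw [cj_le_iff, inv_inv]; exact hU
    have h2 : X ≤ Subgroup.normalizer ((cj g⁻¹ U : Subgroup G) : Set G) := by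
      rw [normalizer_cj, ← cj_le_iff]; exact hUn
    rcases h.i _ h1 h2 with h3 | h3
    · left
      have := congrArg (cj g) h3
      rwa [cj_cj_inv, cj_bot] at this
    · right
      have := congrArg (cj g) h3
      rwa [cj_cj_inv] at this
  · rw [card_cj]; exact h.c

theorem Irr.ne_bot {V X : Subgroup G} (h : Irr V X) : X ≠ ⊥ := by
  intro hX
  have := h.c
  rw [hX] at this
  simp at this

/-- `X` does not centralize `[V, X]` -/
theorem Irr.not_le_centralizer {V X : Subgroup G} (h : Irr V X) :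
    ¬ X ≤ Subgroup.centralizer ((⁅V, X⁆ : Subgroup G) : Set G) := by
  intro hle
  exact h.ne_bot (by rw [← h.f]; exact (inf_eq_left.mpr hle).symm)

/-- no nontrivial fixed points on `[V, X]` -/
theorem Irr.fixed {V X : Subgroup G} (h : Irr V X) :
    ⁅V, X⁆ ⊓ Subgroup.centralizer (X : Set G) = ⊥ := by
  have hn : X ≤ Subgroup.normalizer
      ((⁅V, X⁆ ⊓ Subgroup.centralizer (X : Set G) : Subgroup G) : Set G) := by
    intro x hx
    rw [← cj_eq_self_iff, cj_inf, cj_eq_of_mem_normalizer (normalizer_comm h.n hx),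
      ← centralizer_cj, cj_eq_of_mem hx]
  rcases h.i _ inf_le_left hn with h1 | h1
  · exact h1
  · exfalso
    apply h.not_le_centralizer
    have h2 : ⁅V, X⁆ ≤ Subgroup.centralizer (X : Set G) := by
      rw [← h1]; exact inf_le_right
    exact Subgroup.le_centralizer_iff.mp h2

theorem Irr.comm_ne_bot {V X : Subgroup G} (h : Irr V X) : (⁅V, X⁆ : Subgroup G) ≠ ⊥ := by
  intro hb
  apply h.not_le_centralizer
  rw [hb]
  intro x _
  rw [Subgroup.mem_centralizer_iff]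
  intro y hy
  have : y = 1 := by simpa using hy
  rw [this]; simp

/-! ### The induction -/

/-- the claim for all pairs generating a group of order less than `n` -/
def IHyp (V : Subgroup G) (n : ℕ) : Prop :=
  ∀ E₁ E₂ : Subgroup G, Nat.card ↥(E₁ ⊔ E₂) < n → Irr V E₁ → Irr V E₂ → Sn E₁ (E₁ ⊔ E₂) →
    Sn E₂ (E₁ ⊔ E₂) → ¬ ⁅V, E₁⁆ ≤ ⁅V, E₂⁆ → ¬ ⁅V, E₂⁆ ≤ ⁅V, E₁⁆ →
    ⁅⁅V, E₁⁆, E₂⁆ = ⊥ ∧ ⁅⁅V, E₂⁆, E₁⁆ = ⊥

/-- conjugates with different modules centralize each other's modules -/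
theorem conj_pair [Finite G] {V : Subgroup G} {n : ℕ} (IH : IHyp V n) {X E : Subgroup G}
    (hE : Nat.card E = n) (hEV : E ≤ Subgroup.normalizer (V : Set G)) (hX : Irr V X)
    (hs : Sn X E) {g : G} (hg : g ∈ E) (hgM : cj g ⁅V, X⁆ ≠ ⁅V, X⁆) :
    ⁅⁅V, X⁆, cj g X⁆ = ⊥ ∧ ⁅cj g ⁅V, X⁆, X⁆ = ⊥ := by
  have hne : ¬ E ≤ X := by
    intro hle
    exact hgM (cj_eq_of_mem_normalizer (normalizer_comm hX.n (hle hg)))
  obtain ⟨D, hXD, hDE, hED⟩ := hs.exists_proper hne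
  have hgD : cj g X ≤ D := by
    have := cj_mono (g := g) hXD
    rwa [cj_eq_of_mem_normalizer (hED hg)] at this
  have hF : X ⊔ cj g X ≤ D := sup_le hXD hgD
  have hcard : Nat.card ↥(X ⊔ cj g X) < n := by
    rw [← hE]
    exact lt_of_le_of_lt (Subgroup.card_le_of_le hF) (card_lt_of_lt hDE)
  have hgV : g ∈ Subgroup.normalizer (V : Set G) := hEV hg
  have hFE : X ⊔ cj g X ≤ E := hF.trans hDE.le
  have hM : ⁅V, cj g X⁆ = cj g ⁅V, X⁆ := comm_cj hgV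
  have key := IH X (cj g X) hcard hX (hX.conj hgV) (hs.mono le_sup_left hFE)
    ((hs.conj hg).mono le_sup_right hFE) ?_ ?_
  · rw [hM] at key; exact key
  · rw [hM]
    intro hle
    exact hgM (Subgroup.eq_of_le_of_card_ge hle (by rw [card_cj])).symm
  · rw [hM]
    intro hle
    exact hgM (Subgroup.eq_of_le_of_card_ge hle (by rw [card_cj]))

theorem comm_inj {M : Subgroup G} {e : G} (hint : M ⊓ cj e M = ⊥) {u u' : G} (hu : u ∈ M)
    (hu' : u' ∈ M) (h : ⁅u, e⁆ = ⁅u', e⁆) : u = u' := by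
  rw [comm_elt_eq, comm_elt_eq] at h
  have h2 : u'⁻¹ * u = e * (u'⁻¹ * u) * e⁻¹ := by
    calc u'⁻¹ * u = u'⁻¹ * (u * (e * u⁻¹ * e⁻¹)) * (e * u * e⁻¹) := by group
      _ = u'⁻¹ * (u' * (e * u'⁻¹ * e⁻¹)) * (e * u * e⁻¹) := by rw [h]
      _ = e * (u'⁻¹ * u) * e⁻¹ := by group
  have h3 : u'⁻¹ * u ∈ M ⊓ cj e M := by
    refine ⟨M.mul_mem (M.inv_mem hu') hu, ?_⟩
    rw [h2]; exact conj_mem_cj (M.mul_mem (M.inv_mem hu') hu)
  rw [hint] at h3
  have h4 : u'⁻¹ * u = 1 := by simpa using h3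
  exact (inv_mul_eq_one.mp h4).symm

theorem half [Finite G] {V : Subgroup G} {n : ℕ} (IH : IHyp V n) {E₁ E₂ : Subgroup G}
    (hE : Nat.card ↥(E₁ ⊔ E₂) = n) (h₁ : Irr V E₁) (h₂ : Irr V E₂) (hs : Sn E₁ (E₁ ⊔ E₂))
    (h12 : ¬ ⁅V, E₁⁆ ≤ ⁅V, E₂⁆) {e : G} (he : e ∈ E₂) (heM : cj e ⁅V, E₁⁆ ≠ ⁅V, E₁⁆) :
    Nat.card ↥(⁅V, E₁⁆ : Subgroup G) ≤ Nat.card ↥(⁅V, E₂⁆ : Subgroup G) ∧
      ¬ E₁ ≤ Subgroup.normalizer ((⁅V, E₂⁆ : Subgroup G) : Set G) := by
  have hEV : E₁ ⊔ E₂ ≤ Subgroup.normalizer (V : Set G) := sup_le h₁.n h₂.n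
  have heE : e ∈ E₁ ⊔ E₂ := Subgroup.mem_sup_right he
  obtain ⟨-, k2⟩ := conj_pair IH hE hEV h₁ hs heE heM
  have hcen : cj e ⁅V, E₁⁆ ≤ Subgroup.centralizer (E₁ : Set G) :=
    Subgroup.commutator_eq_bot_iff_le_centralizer.mp k2
  have hint : ⁅V, E₁⁆ ⊓ cj e ⁅V, E₁⁆ = ⊥ := by
    rw [eq_bot_iff, ← h₁.fixed]
    exact inf_le_inf_left _ hcen
  refine ⟨?_, ?_⟩
  · have hinj : Function.Injective (fun u : ↥(⁅V, E₁⁆ : Subgroup G) =>
        (⟨⁅(u : G), e⁆, Subgroup.commutator_mem_commutator (comm_le_of_normalizer h₁.n u.2) he⟩ :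
          ↥(⁅V, E₂⁆ : Subgroup G))) := by
      intro u u' huu
      exact Subtype.ext (comm_inj hint u.2 u'.2 (congrArg Subtype.val huu))
    exact Nat.card_le_card_of_injective _ hinj
  · intro hB
    have hn : E₁ ≤ Subgroup.normalizer ((⁅V, E₁⁆ ⊓ ⁅V, E₂⁆ : Subgroup G) : Set G) := by
      intro x hx
      rw [← cj_eq_self_iff, cj_inf, cj_eq_of_mem_normalizer (normalizer_comm h₁.n hx),
        cj_eq_of_mem_normalizer (hB hx)]
    have h12' : ⁅V, E₁⁆ ⊓ ⁅V, E₂⁆ = ⊥ := by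
      rcases h₁.i _ inf_le_left hn with h | h
      · exact h
      · exact absurd (by rw [← h]; exact inf_le_right) h12
    apply h₁.comm_ne_bot
    rw [eq_bot_iff, ← h₁.fixed]
    refine le_inf le_rfl ?_
    intro w hw
    rw [Subgroup.mem_centralizer_iff]
    intro x hx
    have hv : ⁅w, e⁆ ∈ ⁅V, E₂⁆ :=
      Subgroup.commutator_mem_commutator (comm_le_of_normalizer h₁.n hw) he
    have ha : e * w⁻¹ * e⁻¹ ∈ cj e ⁅V, E₁⁆ := conj_mem_cj (Subgroup.inv_mem _ hw)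
    have hxa : Commute x (e * w⁻¹ * e⁻¹) := (Subgroup.mem_centralizer_iff.mp (hcen ha)) x hx
    have hvx : ⁅⁅w, e⁆, x⁆ ∈ ⁅V, E₁⁆ ⊓ ⁅V, E₂⁆ := by
      refine ⟨Subgroup.commutator_mem_commutator (comm_le_of_normalizer h₂.n hv) hx, ?_⟩
      rw [comm_elt_eq]
      exact Subgroup.mul_mem _ hv
        ((Subgroup.mem_normalizer_iff.mp (hB hx) _).mp (Subgroup.inv_mem _ hv))
    rw [h12'] at hvx
    have hvx1 : ⁅⁅w, e⁆, x⁆ = 1 := by simpa using hvx
    have hcomm : Commute x ⁅w, e⁆ := (commutatorElement_eq_one_iff_mul_comm.mp hvx1).symm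
    have hw' : w = ⁅w, e⁆ * (e * w⁻¹ * e⁻¹)⁻¹ := by rw [comm_elt_eq]; group
    have hc : Commute x (⁅w, e⁆ * (e * w⁻¹ * e⁻¹)⁻¹) := hcomm.mul_right hxa.inv_right
    rw [← hw'] at hc
    exact hc

theorem final [Finite G] {V : Subgroup G} {n : ℕ} (IH : IHyp V n) {E₁ E₂ : Subgroup G}
    (hE : Nat.card ↥(E₁ ⊔ E₂) = n) (h₁ : Irr V E₁) (h₂ : Irr V E₂) (hs : Sn E₁ (E₁ ⊔ E₂))
    {e : G} (he : e ∈ E₂) (heM : cj e ⁅V, E₁⁆ ≠ ⁅V, E₁⁆)
    (hcard : Nat.card ↥(⁅V, E₁⁆ : Subgroup G) = Nat.card ↥(⁅V, E₂⁆ : Subgroup G)) : False := by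
  have hEV : E₁ ⊔ E₂ ≤ Subgroup.normalizer (V : Set G) := sup_le h₁.n h₂.n
  have heE : e ∈ E₁ ⊔ E₂ := Subgroup.mem_sup_right he
  have L : ∀ g ∈ E₁ ⊔ E₂, cj g ⁅V, E₁⁆ ≠ ⁅V, E₁⁆ →
      ⁅⁅V, E₁⁆, cj g E₁⁆ = ⊥ ∧ ⁅cj g ⁅V, E₁⁆, E₁⁆ = ⊥ :=
    fun g hg hgM => conj_pair IH hE hEV h₁ hs hg hgM
  have hcen : cj e ⁅V, E₁⁆ ≤ Subgroup.centralizer (E₁ : Set G) :=
    Subgroup.commutator_eq_bot_iff_le_centralizer.mp (L e heE heM).2
  have hint : ⁅V, E₁⁆ ⊓ cj e ⁅V, E₁⁆ = ⊥ := by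
    rw [eq_bot_iff, ← h₁.fixed]
    exact inf_le_inf_left _ hcen
  -- every element of `[V, E₂]` is a commutator `[u, e]`
  have hsurj : ∀ v ∈ ⁅V, E₂⁆, ∃ u ∈ ⁅V, E₁⁆, v = ⁅u, e⁆ := by
    have hinj : Function.Injective (fun u : ↥(⁅V, E₁⁆ : Subgroup G) =>
        (⟨⁅(u : G), e⁆, Subgroup.commutator_mem_commutator (comm_le_of_normalizer h₁.n u.2) he⟩ :
          ↥(⁅V, E₂⁆ : Subgroup G))) := by
      intro u u' huu
      exact Subtype.ext (comm_inj hint u.2 u'.2 (congrArg Subtype.val huu))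
    have hbij := hinj.bijective_of_nat_card_le hcard.ge
    intro v hv
    obtain ⟨u, hu⟩ := hbij.2 ⟨v, hv⟩
    exact ⟨u, u.2, (congrArg Subtype.val hu).symm⟩
  have h12 : ⁅V, E₁⁆ ⊓ ⁅V, E₂⁆ = ⊥ := by
    rw [eq_bot_iff]
    rintro x ⟨hx1, hx2⟩
    obtain ⟨u, hu, rfl⟩ := hsurj x hx2
    have h1 : e * u⁻¹ * e⁻¹ ∈ ⁅V, E₁⁆ ⊓ cj e ⁅V, E₁⁆ := by
      refine ⟨?_, conj_mem_cj (Subgroup.inv_mem _ hu)⟩
      have : e * u⁻¹ * e⁻¹ = u⁻¹ * ⁅u, e⁆ := by rw [comm_elt_eq]; group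
      rw [this]; exact Subgroup.mul_mem _ (Subgroup.inv_mem _ hu) hx1
    rw [hint] at h1
    have h2 : e * u⁻¹ * e⁻¹ = 1 := by simpa using h1
    have h3 : u = 1 := by
      have := conj_eq_one_iff.mp h2
      simpa using this
    rw [h3]; simp
  have hV2 : ⁅V, E₂⁆ ≤ ⁅V, E₁⁆ ⊔ cj e ⁅V, E₁⁆ := by
    intro v hv
    obtain ⟨u, hu, rfl⟩ := hsurj v hv
    rw [comm_elt_eq]
    exact Subgroup.mul_mem _ (Subgroup.mem_sup_left hu)
      (Subgroup.mem_sup_right (conj_mem_cj (Subgroup.inv_mem _ hu)))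
  have hconj : ∀ y ∈ E₂, cj y ⁅V, E₁⁆ ≤ ⁅V, E₁⁆ ⊔ ⁅V, E₂⁆ := by
    intro y hy t ht
    rw [mem_cj] at ht
    have hu : y⁻¹ * t * y ∈ V := comm_le_of_normalizer h₁.n ht
    have hc : ⁅y⁻¹ * t * y, y⁆ ∈ ⁅V, E₂⁆ := Subgroup.commutator_mem_commutator hu hy
    have e1 : t = (⁅y⁻¹ * t * y, y⁆)⁻¹ * (y⁻¹ * t * y) := by
      rw [commutatorElement_def]; group
    rw [e1]
    exact Subgroup.mul_mem _ (Subgroup.mem_sup_right (Subgroup.inv_mem _ hc))
      (Subgroup.mem_sup_left ht)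
  -- at most two conjugates
  have hf4 : ∀ y ∈ E₂, cj y ⁅V, E₁⁆ = ⁅V, E₁⁆ ∨ cj y ⁅V, E₁⁆ = cj e ⁅V, E₁⁆ := by
    intro y hy
    by_contra hcon
    push Not at hcon
    obtain ⟨ha, hb⟩ := hcon
    have hyE : y ∈ E₁ ⊔ E₂ := Subgroup.mem_sup_right hy
    have c1 := (L y hyE ha).1
    have hgE : e⁻¹ * y ∈ E₁ ⊔ E₂ := Subgroup.mem_sup_right (E₂.mul_mem (E₂.inv_mem he) hy)
    have hg : cj (e⁻¹ * y) ⁅V, E₁⁆ ≠ ⁅V, E₁⁆ := by
      intro h
      apply hb
      have := congrArg (cj e) h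
      rwa [cj_cj, mul_inv_cancel_left] at this
    have c2' := (L _ hgE hg).1
    have c2 : ⁅cj e ⁅V, E₁⁆, cj y E₁⁆ = ⊥ := by
      have := congrArg (cj e) c2'
      rwa [cj_commutator, cj_cj, mul_inv_cancel_left, cj_bot] at this
    have hAB : ⁅V, E₁⁆ ⊔ cj e ⁅V, E₁⁆ ≤ Subgroup.centralizer ((cj y E₁ : Subgroup G) : Set G) :=
      sup_le (Subgroup.commutator_eq_bot_iff_le_centralizer.mp c1)
        (Subgroup.commutator_eq_bot_iff_le_centralizer.mp c2)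
    have h3 : cj y ⁅V, E₁⁆ ≤ Subgroup.centralizer ((cj y E₁ : Subgroup G) : Set G) :=
      ((hconj y hy).trans (sup_le le_sup_left hV2)).trans hAB
    rw [centralizer_cj, cj_le_iff, cj_inv_cj] at h3
    apply h₁.comm_ne_bot
    rw [eq_bot_iff, ← h₁.fixed]
    exact le_inf le_rfl h3
  have hM2e : cj e ⁅V, E₁⁆ ⊓ ⁅V, E₂⁆ = ⊥ := by
    have h1 : cj e ⁅V, E₂⁆ = ⁅V, E₂⁆ := cj_eq_of_mem_normalizer (normalizer_comm h₂.n he)
    rw [← h1, ← cj_inf, h12, cj_bot]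
  have hf5 : ∀ c ∈ E₂, cj c ⁅V, E₁⁆ = ⁅V, E₁⁆ → c = 1 := by
    intro c hc hcM
    have hcM' : cj c⁻¹ ⁅V, E₁⁆ = ⁅V, E₁⁆ := by
      have := congrArg (cj c⁻¹) hcM
      rw [cj_inv_cj] at this
      exact this.symm
    have hce : cj c (cj e ⁅V, E₁⁆) = cj e ⁅V, E₁⁆ := by
      rw [cj_cj]
      rcases hf4 (c * e) (E₂.mul_mem hc he) with h | h
      · exfalso
        apply heM
        have := congrArg (cj c⁻¹) h
        rwa [cj_cj, inv_mul_cancel_left, hcM'] at this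
      · exact h
    have hcN1 : c ∈ Subgroup.normalizer ((⁅V, E₁⁆ : Subgroup G) : Set G) := cj_eq_self_iff.mp hcM
    have hcN2 : c ∈ Subgroup.normalizer ((cj e ⁅V, E₁⁆ : Subgroup G) : Set G) :=
      cj_eq_self_iff.mp hce
    have hcV : cj e ⁅V, E₁⁆ ≤ V := by
      have := cj_mono (g := e) (comm_le_of_normalizer h₁.n)
      rwa [cj_eq_of_mem_normalizer (h₂.n he)] at this
    -- `c` commutes with everything in `[V,E₁]` and in its conjugate
    have hA : ⁅V, E₁⁆ ≤ Subgroup.centralizer ({c} : Set G) := by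
      intro u hu
      rw [Subgroup.mem_centralizer_iff]
      intro c' hc'
      rw [Set.mem_singleton_iff] at hc'
      subst hc'
      have h1 : ⁅u, c'⁆ ∈ ⁅V, E₁⁆ ⊓ ⁅V, E₂⁆ := by
        refine ⟨?_, Subgroup.commutator_mem_commutator (comm_le_of_normalizer h₁.n hu) hc⟩
        rw [comm_elt_eq]
        exact Subgroup.mul_mem _ hu
          ((Subgroup.mem_normalizer_iff.mp hcN1 _).mp (Subgroup.inv_mem _ hu))
      rw [h12] at h1
      have h2 : ⁅u, c'⁆ = 1 := by simpa using h1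
      exact (commutatorElement_eq_one_iff_mul_comm.mp h2).symm
    have hB : cj e ⁅V, E₁⁆ ≤ Subgroup.centralizer ({c} : Set G) := by
      intro u hu
      rw [Subgroup.mem_centralizer_iff]
      intro c' hc'
      rw [Set.mem_singleton_iff] at hc'
      subst hc'
      have h1 : ⁅u, c'⁆ ∈ cj e ⁅V, E₁⁆ ⊓ ⁅V, E₂⁆ := by
        refine ⟨?_, Subgroup.commutator_mem_commutator (hcV hu) hc⟩
        rw [comm_elt_eq]
        exact Subgroup.mul_mem _ hu
          ((Subgroup.mem_normalizer_iff.mp hcN2 _).mp (Subgroup.inv_mem _ hu))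
      rw [hM2e] at h1
      have h2 : ⁅u, c'⁆ = 1 := by simpa using h1
      exact (commutatorElement_eq_one_iff_mul_comm.mp h2).symm
    have hC : ⁅V, E₂⁆ ≤ Subgroup.centralizer ({c} : Set G) := hV2.trans (sup_le hA hB)
    have hc2 : c ∈ E₂ ⊓ Subgroup.centralizer ((⁅V, E₂⁆ : Subgroup G) : Set G) := by
      refine ⟨hc, ?_⟩
      show c ∈ Subgroup.centralizer _
      rw [Subgroup.mem_centralizer_iff]
      intro v hv
      exact ((Subgroup.mem_centralizer_iff.mp (hC hv)) c rfl).symm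
    rw [h₂.f] at hc2
    simpa using hc2
  have hf6 : ∀ y ∈ E₂, y = 1 ∨ y = e := by
    intro y hy
    rcases hf4 y hy with h | h
    · left; exact hf5 y hy h
    · right
      have h1 : cj (e⁻¹ * y) ⁅V, E₁⁆ = ⁅V, E₁⁆ := by
        rw [← cj_cj, h, cj_inv_cj]
      have := hf5 _ (E₂.mul_mem (E₂.inv_mem he) hy) h1
      exact (inv_mul_eq_one.mp this).symm
  have hsub : (E₂ : Set G) ⊆ {1, e} := by
    intro y hy
    rcases hf6 y hy with h | h
    · left; exact h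
    · right; exact h
  have h1 : (E₂ : Set G).ncard ≤ ({1, e} : Set G).ncard :=
    Set.ncard_le_ncard hsub (Set.toFinite _)
  have h2 : ({1, e} : Set G).ncard ≤ 2 := by
    have := Set.ncard_insert_le (1 : G) ({e} : Set G)
    rwa [Set.ncard_singleton] at this
  have h3 : Nat.card E₂ = (E₂ : Set G).ncard := rfl
  have := h₂.c
  omega

theorem cfg_main [Finite G] (V : Subgroup G) : ∀ n : ℕ, IHyp V n := by
  intro n
  induction n using Nat.strong_induction_on with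
  | _ n ih =>
    intro E₁ E₂ hlt h₁ h₂ hs₁ hs₂ h12 h21
    have IH : IHyp V (Nat.card ↥(E₁ ⊔ E₂)) := ih _ hlt
    have hsymm : Nat.card ↥(E₂ ⊔ E₁) = Nat.card ↥(E₁ ⊔ E₂) := by rw [sup_comm]
    have hs₂' : Sn E₂ (E₂ ⊔ E₁) := by rw [sup_comm]; exact hs₂
    by_cases hA : E₂ ≤ Subgroup.normalizer ((⁅V, E₁⁆ : Subgroup G) : Set G)
    · by_cases hB : E₁ ≤ Subgroup.normalizer ((⁅V, E₂⁆ : Subgroup G) : Set G)
      · have hn : E₁ ≤ Subgroup.normalizer ((⁅V, E₁⁆ ⊓ ⁅V, E₂⁆ : Subgroup G) : Set G) := by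
          intro x hx
          rw [← cj_eq_self_iff, cj_inf, cj_eq_of_mem_normalizer (normalizer_comm h₁.n hx),
            cj_eq_of_mem_normalizer (hB hx)]
        have h0 : ⁅V, E₁⁆ ⊓ ⁅V, E₂⁆ = ⊥ := by
          rcases h₁.i _ inf_le_left hn with h | h
          · exact h
          · exact absurd (by rw [← h]; exact inf_le_right) h12
        constructor
        · rw [eq_bot_iff, ← h0]
          exact le_inf (comm_le_of_normalizer hA)
            (Subgroup.commutator_mono (comm_le_of_normalizer h₁.n) le_rfl)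
        · rw [eq_bot_iff, ← h0]
          exact le_inf (Subgroup.commutator_mono (comm_le_of_normalizer h₂.n) le_rfl)
            (comm_le_of_normalizer hB)
      · exfalso
        obtain ⟨e', he', hne'⟩ := SetLike.not_le_iff_exists.mp hB
        have heM' : cj e' ⁅V, E₂⁆ ≠ ⁅V, E₂⁆ := fun h => hne' (cj_eq_self_iff.mp h)
        exact (half IH hsymm h₂ h₁ hs₂' h21 he' heM').2 hA
    · exfalso
      obtain ⟨e, he, hne⟩ := SetLike.not_le_iff_exists.mp hA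
      have heM : cj e ⁅V, E₁⁆ ≠ ⁅V, E₁⁆ := fun h => hne (cj_eq_self_iff.mp h)
      obtain ⟨hc1, hB⟩ := half IH rfl h₁ h₂ hs₁ h12 he heM
      obtain ⟨e', he', hne'⟩ := SetLike.not_le_iff_exists.mp hB
      have heM' : cj e' ⁅V, E₂⁆ ≠ ⁅V, E₂⁆ := fun h => hne' (cj_eq_self_iff.mp h)
      obtain ⟨hc2, -⟩ := half IH hsymm h₂ h₁ hs₂' h21 he' heM'
      exact final IH rfl h₁ h₂ hs₁ he heM (le_antisymm hc1 hc2)

/-- two subnormal subgroups acting faithfully and irreducibly on their incomparable commutator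
modules centralize each other's modules -/
theorem irr_pair [Finite G] {V E₁ E₂ : Subgroup G} (h₁ : Irr V E₁) (h₂ : Irr V E₂)
    (hs₁ : Sn E₁ (E₁ ⊔ E₂)) (hs₂ : Sn E₂ (E₁ ⊔ E₂)) (h12 : ¬ ⁅V, E₁⁆ ≤ ⁅V, E₂⁆)
    (h21 : ¬ ⁅V, E₂⁆ ≤ ⁅V, E₁⁆) : ⁅⁅V, E₁⁆, E₂⁆ = ⊥ ∧ ⁅⁅V, E₂⁆, E₁⁆ = ⊥ :=
  cfg_main V (Nat.card ↥(E₁ ⊔ E₂) + 1) E₁ E₂ (Nat.lt_succ_self _) h₁ h₂ hs₁ hs₂ h12 h21

/-! ### From `O_p(E) = 1` to faithfulness on the commutator module -/

theorem pow_conj_of_comm {k v c : G} (hc : k * v = c * v * k) (hkc : Commute k c) (n : ℕ) :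
    k ^ n * v = c ^ n * v * k ^ n := by
  induction n with
  | zero => simp
  | succ n ih =>
    have h1 : Commute k (c ^ n) := hkc.pow_right n
    calc k ^ (n + 1) * v = k * (k ^ n * v) := by rw [pow_succ']; group
      _ = k * (c ^ n * v * k ^ n) := by rw [ih]
      _ = (k * c ^ n) * v * k ^ n := by group
      _ = (c ^ n * k) * v * k ^ n := by rw [h1.eq]
      _ = c ^ n * (k * v) * k ^ n := by group
      _ = c ^ n * (c * v * k) * k ^ n := by rw [hc]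
      _ = c ^ (n + 1) * v * k ^ (n + 1) := by rw [pow_succ, pow_succ']; group

theorem faithful_of_pCore [Finite G] {p : ℕ} [Fact p.Prime] {V E X : Subgroup G}
    (hVp : ∀ a ∈ V, a ^ p = 1) (hEV : E ≤ Subgroup.normalizer (V : Set G))
    (hf : E ⊓ Subgroup.centralizer (V : Set G) = ⊥) (hOp : Cfsg.pCore p ↥E = ⊥) (hs : Sn X E) :
    X ⊓ Subgroup.centralizer ((⁅V, X⁆ : Subgroup G) : Set G) = ⊥ := by
  set K : Subgroup G := X ⊓ Subgroup.centralizer ((⁅V, X⁆ : Subgroup G) : Set G) with hK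
  have hXV : X ≤ Subgroup.normalizer (V : Set G) := hs.1.trans hEV
  have hKE : K ≤ E := inf_le_left.trans hs.1
  -- every element of `K` has order dividing `p`
  have hpow : ∀ k ∈ K, k ^ p = 1 := by
    intro k hk
    have hkX : k ∈ X := hk.1
    have hkC : k ∈ Subgroup.centralizer ((⁅V, X⁆ : Subgroup G) : Set G) := hk.2
    have h1 : k ^ p ∈ E ⊓ Subgroup.centralizer (V : Set G) := by
      refine ⟨E.pow_mem (hKE hk) p, ?_⟩
      show k ^ p ∈ Subgroup.centralizer _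
      rw [Subgroup.mem_centralizer_iff]
      intro v hv
      have hcm : ⁅v, k⁆ ∈ ⁅V, X⁆ := Subgroup.commutator_mem_commutator hv hkX
      have hcm' : (⁅v, k⁆)⁻¹ ∈ ⁅V, X⁆ := Subgroup.inv_mem _ hcm
      have hkc : Commute k (⁅v, k⁆)⁻¹ :=
        ((Subgroup.mem_centralizer_iff.mp hkC) _ hcm').symm
      have hc : k * v = (⁅v, k⁆)⁻¹ * v * k := by rw [commutatorElement_def]; group
      have h2 := pow_conj_of_comm hc hkc p
      have h3 : ((⁅v, k⁆)⁻¹) ^ p = 1 := hVp _ (comm_le_of_normalizer hXV hcm')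
      rw [h3, one_mul] at h2
      exact h2.symm
    rw [hf] at h1
    simpa using h1
  have hKp : IsPGroup p ↥(K.subgroupOf E) := by
    intro g
    refine ⟨1, ?_⟩
    apply Subtype.ext
    apply Subtype.ext
    have := hpow (g : E) (Subgroup.mem_subgroupOf.mp g.2)
    simpa using this
  -- `K` is normal in `X`
  have hXK : X ≤ Subgroup.normalizer (K : Set G) := by
    intro x hx
    rw [← cj_eq_self_iff, hK, cj_inf, cj_eq_of_mem hx, ← centralizer_cj,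
      cj_eq_of_mem_normalizer (normalizer_comm hXV hx)]
  have hKsub : (K.subgroupOf E).IsSubnormal := by
    refine Subgroup.IsSubnormal.step _ (X.subgroupOf E) ?_ hs.2 ?_
    · intro g hg
      rw [Subgroup.mem_subgroupOf] at hg ⊢
      exact hg.1
    · apply Subgroup.normal_subgroupOf_of_le_normalizer
      intro g hg
      rw [Subgroup.mem_subgroupOf] at hg
      have hgN := hXK hg
      rw [Subgroup.mem_normalizer_iff] at hgN ⊢
      intro h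
      rw [Subgroup.mem_subgroupOf, Subgroup.mem_subgroupOf]
      simpa using hgN (h : G)
  have hle := Cfsg.Agent.Lib.Helper66.subnormal_le_pCore hKsub hKp
  rw [hOp, le_bot_iff] at hle
  rw [eq_bot_iff]
  intro k hk
  have : (⟨k, hKE hk⟩ : E) ∈ K.subgroupOf E := Subgroup.mem_subgroupOf.mpr hk
  rw [hle] at this
  have h1 : (⟨k, hKE hk⟩ : E) = 1 := by simpa using this
  have := congrArg Subtype.val h1
  simpa using this

/-- the four conclusions from the two centralizing relations -/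
theorem irr_pair_concl [Finite G] {V E₁ E₂ : Subgroup G} (h₁ : Irr V E₁)
    (hf : (E₁ ⊔ E₂) ⊓ Subgroup.centralizer (V : Set G) = ⊥)
    (c1 : ⁅⁅V, E₁⁆, E₂⁆ = ⊥) (c2 : ⁅⁅V, E₂⁆, E₁⁆ = ⊥) :
    ⁅E₁, E₂⁆ = ⊥ ∧ E₁ ⊓ E₂ = ⊥ ∧ ⁅V, E₁⁆ ⊓ ⁅V, E₂⁆ = ⊥ ∧ ⁅V, E₁ ⊔ E₂⁆ = ⁅V, E₁⁆ ⊔ ⁅V, E₂⁆ := by
  have hcomm : ⁅E₁, E₂⁆ = ⊥ := by
    have h3 : ⁅⁅E₁, E₂⁆, V⁆ = ⊥ := by
      apply Subgroup.commutator_commutator_eq_bot_of_rotate
      · rw [Subgroup.commutator_comm E₂ V]; exact c2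
      · exact c1
    have h4 : ⁅E₁, E₂⁆ ≤ Subgroup.centralizer (V : Set G) :=
      Subgroup.commutator_eq_bot_iff_le_centralizer.mp h3
    have h5 : ⁅E₁, E₂⁆ ≤ E₁ ⊔ E₂ := by
      rw [Subgroup.commutator_le]
      intro a ha b hb
      rw [commutatorElement_def]
      have ha' : a ∈ E₁ ⊔ E₂ := Subgroup.mem_sup_left ha
      have hb' : b ∈ E₁ ⊔ E₂ := Subgroup.mem_sup_right hb
      exact Subgroup.mul_mem _ (Subgroup.mul_mem _ (Subgroup.mul_mem _ ha' hb')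
        (Subgroup.inv_mem _ ha')) (Subgroup.inv_mem _ hb')
    rw [eq_bot_iff, ← hf]
    exact le_inf h5 h4
  have hM2 : ⁅V, E₂⁆ ≤ Subgroup.centralizer (E₁ : Set G) :=
    Subgroup.commutator_eq_bot_iff_le_centralizer.mp c2
  have hM1 : ⁅V, E₁⁆ ≤ Subgroup.centralizer (E₂ : Set G) :=
    Subgroup.commutator_eq_bot_iff_le_centralizer.mp c1
  refine ⟨hcomm, ?_, ?_, ?_⟩
  · rw [eq_bot_iff, ← h₁.f]
    exact le_inf inf_le_left (inf_le_right.trans (Subgroup.le_centralizer_iff.mp hM1))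
  · rw [eq_bot_iff, ← h₁.fixed]
    exact le_inf inf_le_left (inf_le_right.trans hM2)
  · apply le_antisymm
    · rw [Subgroup.commutator_le]
      intro v hv x hx
      have hnorm : E₂ ≤ Subgroup.normalizer (E₁ : Set G) := by
        have : E₂ ≤ Subgroup.centralizer (E₁ : Set G) :=
          Subgroup.commutator_eq_bot_iff_le_centralizer.mp
            (by rw [Subgroup.commutator_comm]; exact hcomm)
        exact this.trans (Subgroup.centralizer_le_normalizer _)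
      have hx' : x ∈ E₂ ⊔ E₁ := by rw [sup_comm]; exact hx
      have hx'' : x ∈ ((E₂ ⊔ E₁ : Subgroup G) : Set G) := hx'
      rw [Subgroup.coe_mul_of_left_le_normalizer_right E₂ E₁ hnorm] at hx''
      obtain ⟨x₂, hx₂, x₁, hx₁, rfl⟩ := Set.mem_mul.mp hx''
      have hm1 : ⁅v, x₁⁆ ∈ ⁅V, E₁⁆ := Subgroup.commutator_mem_commutator hv hx₁
      have hm2 : ⁅v, x₂⁆ ∈ ⁅V, E₂⁆ := Subgroup.commutator_mem_commutator hv hx₂
      -- `x₂` commutes with `⁅v, x₁⁆`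
      have hc : Commute x₂ ⁅v, x₁⁆ := (Subgroup.mem_centralizer_iff.mp (hM1 hm1)) x₂ hx₂
      have e1 : ⁅v, x₂ * x₁⁆ = ⁅v, x₂⁆ * (x₂ * ⁅v, x₁⁆ * x₂⁻¹) := by
        simp only [commutatorElement_def]; group
      rw [e1, hc.eq, mul_inv_cancel_right]
      exact Subgroup.mul_mem _ (Subgroup.mem_sup_right hm2) (Subgroup.mem_sup_left hm1)
    · exact sup_le (Subgroup.commutator_mono le_rfl le_sup_left)
        (Subgroup.commutator_mono le_rfl le_sup_right)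

end Cfsg.Agent.Lib.Helper42
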