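import Mathlib
import Cfsg.Agent.Lib.Helper66.PAct

/-!
# Diagonal fixed points of a coprime operator group (helper42)

`H = E × D` (internal), a `q`-group `X` normalizing `H` such that every element of `X` either
centralizes `E` or conjugates `E` into `D`.  Then the fixed points of `X` in `H` project onto `E`:
for every `e ∈ E` there is `c ∈ C_H(X)` with `e⁻¹ c ∈ D` (`exists_fixed_diag`).
Consequence (`le_sup_fix_of_diag`): subgroups of `E` that are `H`-conjugate into `T` lie in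
`⟨T, C_H(X)⟩`.
-/

set_option autoImplicit false

namespace Cfsg.Agent.Lib.Helper42

section diag

variable {G : Type*} [Group G] [Finite G]

/-- An element of `H` all of whose `X`-conjugates have `E`-component `e`. -/
theorem exists_diag_elt (H E D X : Subgroup G)
    (hXH : X ≤ Subgroup.normalizer (H : Set G)) (hEH : E ≤ H)
    (hDn : ∀ h ∈ H, ∀ d ∈ D, h * d * h⁻¹ ∈ D)
    (hE : ∀ g ∈ X, g ∈ Subgroup.centralizer (E : Set G) ∨ ∀ y ∈ E, g * y * g⁻¹ ∈ D)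
    (e : G) (he : e ∈ E) :
    ∃ c ∈ H, ∀ g ∈ X, e⁻¹ * (g⁻¹ * c * g) ∈ D := by
  classical
  have key : ∀ 𝒯 : Finset ↥X, ∃ c ∈ H, ∀ g ∈ X,
      ((∃ t ∈ 𝒯, (t : G)⁻¹ * g ∈ Subgroup.centralizer (E : Set G)) →
        e⁻¹ * (g⁻¹ * c * g) ∈ D) ∧
      ((∀ t ∈ 𝒯, (t : G)⁻¹ * g ∉ Subgroup.centralizer (E : Set G)) → g⁻¹ * c * g ∈ D) := by
    intro 𝒯
    induction 𝒯 using Finset.induction_on with
    | empty =>
      refine ⟨1, H.one_mem, fun g hg => ⟨?_, ?_⟩⟩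
      · rintro ⟨t, ht, -⟩
        exact absurd ht (Finset.notMem_empty t)
      · intro _
        have : g⁻¹ * 1 * g = 1 := by group
        rw [this]; exact D.one_mem
    | insert g₀ 𝒯 hg₀ ih =>
      obtain ⟨c, hcH, hc⟩ := ih
      by_cases hcov : ∃ t ∈ 𝒯, (t : G)⁻¹ * (g₀ : G) ∈ Subgroup.centralizer (E : Set G)
      · obtain ⟨t₀, ht₀, ht₀c⟩ := hcov
        refine ⟨c, hcH, fun g hg => ⟨?_, ?_⟩⟩
        · rintro ⟨t, ht, htc⟩
          rw [Finset.mem_insert] at ht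
          rcases ht with ht | ht
          · apply (hc g hg).1
            refine ⟨t₀, ht₀, ?_⟩
            have : (t₀ : G)⁻¹ * g = ((t₀ : G)⁻¹ * (g₀ : G)) * ((g₀ : G)⁻¹ * g) := by group
            rw [this]
            rw [ht] at htc
            exact Subgroup.mul_mem _ ht₀c htc
          · exact (hc g hg).1 ⟨t, ht, htc⟩
        · intro h
          exact (hc g hg).2 (fun t ht => h t (Finset.mem_insert_of_mem ht))
      · push Not at hcov
        have hg₀X : (g₀ : G) ∈ X := g₀.2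
        have hconjH : (g₀ : G) * e * (g₀ : G)⁻¹ ∈ H :=
          (Subgroup.mem_normalizer_iff.mp (hXH hg₀X) e).mp (hEH he)
        refine ⟨(g₀ : G) * e * (g₀ : G)⁻¹ * c, H.mul_mem hconjH hcH, fun g hg => ?_⟩
        have hu : g⁻¹ * (g₀ : G) ∈ X := X.mul_mem (X.inv_mem hg) hg₀X
        have hrew : g⁻¹ * ((g₀ : G) * e * (g₀ : G)⁻¹ * c) * g =
            ((g⁻¹ * (g₀ : G)) * e * (g⁻¹ * (g₀ : G))⁻¹) * (g⁻¹ * c * g) := by group
        rw [hrew]
        by_cases hcase : (g₀ : G)⁻¹ * g ∈ Subgroup.centralizer (E : Set G)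
        · have hu' : g⁻¹ * (g₀ : G) ∈ Subgroup.centralizer (E : Set G) := by
            have : g⁻¹ * (g₀ : G) = ((g₀ : G)⁻¹ * g)⁻¹ := by group
            rw [this]; exact Subgroup.inv_mem _ hcase
          have hue : (g⁻¹ * (g₀ : G)) * e * (g⁻¹ * (g₀ : G))⁻¹ = e := by
            have h1 := Subgroup.mem_centralizer_iff.mp hu' e he
            rw [← h1]; group
          have hnot : ∀ t ∈ 𝒯, (t : G)⁻¹ * g ∉ Subgroup.centralizer (E : Set G) := by
            intro t ht htc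
            apply hcov t ht
            have : (t : G)⁻¹ * (g₀ : G) = ((t : G)⁻¹ * g) * (g⁻¹ * (g₀ : G)) := by group
            rw [this]; exact Subgroup.mul_mem _ htc hu'
          have hD := (hc g hg).2 hnot
          rw [hue]
          refine ⟨fun _ => ?_, fun h => ?_⟩
          · have : e⁻¹ * (e * (g⁻¹ * c * g)) = g⁻¹ * c * g := by group
            rw [this]; exact hD
          · exact absurd hcase (h g₀ (Finset.mem_insert_self _ _))
        · have hu' : g⁻¹ * (g₀ : G) ∉ Subgroup.centralizer (E : Set G) := by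
            intro h
            apply hcase
            have : (g₀ : G)⁻¹ * g = (g⁻¹ * (g₀ : G))⁻¹ := by group
            rw [this]; exact Subgroup.inv_mem _ h
          have hueD : (g⁻¹ * (g₀ : G)) * e * (g⁻¹ * (g₀ : G))⁻¹ ∈ D := by
            rcases hE _ hu with h | h
            · exact absurd h hu'
            · exact h e he
          refine ⟨?_, ?_⟩
          · rintro ⟨t, ht, htc⟩
            rw [Finset.mem_insert] at ht
            rcases ht with ht | ht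
            · rw [ht] at htc
              exact absurd htc hcase
            · have h1 := (hc g hg).1 ⟨t, ht, htc⟩
              have h2 : e⁻¹ * ((g⁻¹ * (g₀ : G)) * e * (g⁻¹ * (g₀ : G))⁻¹) * e⁻¹⁻¹ ∈ D :=
                hDn e⁻¹ (H.inv_mem (hEH he)) _ hueD
              have : e⁻¹ * ((g⁻¹ * (g₀ : G)) * e * (g⁻¹ * (g₀ : G))⁻¹ * (g⁻¹ * c * g)) =
                  (e⁻¹ * ((g⁻¹ * (g₀ : G)) * e * (g⁻¹ * (g₀ : G))⁻¹) * e⁻¹⁻¹) *
                    (e⁻¹ * (g⁻¹ * c * g)) := by group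
              rw [this]; exact D.mul_mem h2 h1
          · intro h
            have h1 := (hc g hg).2 (fun t ht => h t (Finset.mem_insert_of_mem ht))
            exact D.mul_mem hueD h1
  haveI : Fintype ↥X := Fintype.ofFinite _
  obtain ⟨c, hcH, hc⟩ := key Finset.univ
  refine ⟨c, hcH, fun g hg => (hc g hg).1 ⟨⟨g, hg⟩, Finset.mem_univ _, ?_⟩⟩
  have : g⁻¹ * g = 1 := by group
  rw [this]; exact Subgroup.one_mem _

/-- The fixed points of `X` in `H` project onto `E`. -/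
theorem exists_fixed_diag {q : ℕ} [Fact q.Prime] (H E D X : Subgroup G)
    (hX : IsPGroup q X) (hXH : X ≤ Subgroup.normalizer (H : Set G))
    (hq : ¬ q ∣ Nat.card H) (hEH : E ≤ H)
    (hDn : ∀ h ∈ H, ∀ d ∈ D, h * d * h⁻¹ ∈ D)
    (hE : ∀ g ∈ X, g ∈ Subgroup.centralizer (E : Set G) ∨ ∀ y ∈ E, g * y * g⁻¹ ∈ D)
    (e : G) (he : e ∈ E) :
    ∃ c ∈ H ⊓ Subgroup.centralizer (X : Set G), e⁻¹ * c ∈ D := by
  obtain ⟨c₀, hc₀H, hc₀⟩ := exists_diag_elt H E D X hXH hEH hDn hE e he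
  let D' : Subgroup G :=
    { carrier := {d | d ∈ H ∧ ∀ g ∈ X, g⁻¹ * d * g ∈ D}
      mul_mem' := by
        rintro a b ⟨ha, ha'⟩ ⟨hb, hb'⟩
        refine ⟨H.mul_mem ha hb, fun g hg => ?_⟩
        have : g⁻¹ * (a * b) * g = (g⁻¹ * a * g) * (g⁻¹ * b * g) := by group
        rw [this]; exact D.mul_mem (ha' g hg) (hb' g hg)
      one_mem' := ⟨H.one_mem, fun g _ => by
        have : g⁻¹ * 1 * g = 1 := by group
        rw [this]; exact D.one_mem⟩
      inv_mem' := by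
        rintro a ⟨ha, ha'⟩
        refine ⟨H.inv_mem ha, fun g hg => ?_⟩
        have : g⁻¹ * a⁻¹ * g = (g⁻¹ * a * g)⁻¹ := by group
        rw [this]; exact D.inv_mem (ha' g hg) }
  have hD'H : D' ≤ H := fun d hd => hd.1
  set 𝒮 : Set G := {c | c ∈ H ∧ ∀ g ∈ X, e⁻¹ * (g⁻¹ * c * g) ∈ D} with h𝒮
  have h𝒮eq : 𝒮 = (fun d => c₀ * d) '' (D' : Set G) := by
    ext c
    constructor
    · rintro ⟨hcH, hc⟩
      refine ⟨c₀⁻¹ * c, ⟨H.mul_mem (H.inv_mem hc₀H) hcH, fun g hg => ?_⟩, by group⟩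
      have : g⁻¹ * (c₀⁻¹ * c) * g = (e⁻¹ * (g⁻¹ * c₀ * g))⁻¹ * (e⁻¹ * (g⁻¹ * c * g)) := by
        group
      rw [this]; exact D.mul_mem (D.inv_mem (hc₀ g hg)) (hc g hg)
    · rintro ⟨d, ⟨hdH, hd⟩, rfl⟩
      refine ⟨H.mul_mem hc₀H hdH, fun g hg => ?_⟩
      have : e⁻¹ * (g⁻¹ * (c₀ * d) * g) = (e⁻¹ * (g⁻¹ * c₀ * g)) * (g⁻¹ * d * g) := by group
      rw [this]; exact D.mul_mem (hc₀ g hg) (hd g hg)
  have hcard : Nat.card 𝒮 = Nat.card D' := by
    rw [h𝒮eq]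
    exact Nat.card_image_of_injective (mul_right_injective c₀) _
  have hinv : ∀ x ∈ X, ∀ c ∈ 𝒮, x * c * x⁻¹ ∈ 𝒮 := by
    rintro x hx c ⟨hcH, hc⟩
    refine ⟨(Subgroup.mem_normalizer_iff.mp (hXH hx) c).mp hcH, fun g hg => ?_⟩
    have : g⁻¹ * (x * c * x⁻¹) * g = (x⁻¹ * g)⁻¹ * c * (x⁻¹ * g) := by group
    rw [this]; exact hc _ (X.mul_mem (X.inv_mem hx) hg)
  have hmod := Cfsg.Agent.Lib.Helper66.card_modEq_card_inter_centralizer hX 𝒮 hinv
  have hne : (𝒮 ∩ (Subgroup.centralizer (X : Set G) : Set G)).Nonempty := by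
    by_contra hemp
    rw [Set.not_nonempty_iff_eq_empty] at hemp
    rw [hemp, hcard] at hmod
    have h0 : Nat.card (∅ : Set G) = 0 := by simp
    rw [h0] at hmod
    have hdvd : q ∣ Nat.card D' := (Nat.modEq_zero_iff_dvd).mp hmod
    exact hq (hdvd.trans (Subgroup.card_dvd_of_le hD'H))
  obtain ⟨c, ⟨hcH, hc⟩, hcX⟩ := hne
  refine ⟨c, ⟨hcH, hcX⟩, ?_⟩
  have h1 := hc 1 X.one_mem
  have : e⁻¹ * ((1 : G)⁻¹ * c * 1) = e⁻¹ * c := by group
  rwa [this] at h1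

omit [Finite G] in
/-- Subgroups of `E` that are `H`-conjugate into `T` lie in `⟨T, C_H(X)⟩`. -/
theorem le_sup_fix_of_diag (H E D X T : Subgroup G)
    (hdiag : ∀ e ∈ E, ∃ c ∈ H ⊓ Subgroup.centralizer (X : Set G), e⁻¹ * c ∈ D)
    (hcomm : ∀ e ∈ E, ∀ d ∈ D, e * d = d * e)
    (hsup : ∀ h ∈ H, ∃ e ∈ E, ∃ d ∈ D, h = e * d)
    (B : Subgroup G) (hBE : B ≤ E) (h : G) (hh : h ∈ H) (hB : ∀ b ∈ B, h * b * h⁻¹ ∈ T) :
    B ≤ T ⊔ (H ⊓ Subgroup.centralizer (X : Set G)) := by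
  intro b hb
  obtain ⟨e, he, d, hd, rfl⟩ := hsup h hh
  have hbE := hBE hb
  have ht : e * b * e⁻¹ ∈ T := by
    have h1 := hB b hb
    have h2 : e * d * b * (e * d)⁻¹ = e * b * e⁻¹ := by
      have h3 := hcomm b hbE d hd
      calc e * d * b * (e * d)⁻¹ = e * (d * b) * d⁻¹ * e⁻¹ := by group
        _ = e * (b * d) * d⁻¹ * e⁻¹ := by rw [h3]
        _ = e * b * e⁻¹ := by group
    rwa [h2] at h1
  obtain ⟨c, hc, hcD⟩ := hdiag e⁻¹ (E.inv_mem he)
  have hcD' : e * c ∈ D := by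
    have : e⁻¹⁻¹ * c = e * c := by group
    rwa [this] at hcD
  have htE : e * b * e⁻¹ ∈ E := E.mul_mem (E.mul_mem he hbE) (E.inv_mem he)
  have key : b = c * (e * b * e⁻¹) * c⁻¹ := by
    have h2 := hcomm _ htE _ hcD'
    calc b = e⁻¹ * ((e * b * e⁻¹) * (e * c)) * (e * c)⁻¹ * e := by group
      _ = e⁻¹ * ((e * c) * (e * b * e⁻¹)) * (e * c)⁻¹ * e := by rw [h2]
      _ = c * (e * b * e⁻¹) * c⁻¹ := by group
  rw [key]
  have hcM : c ∈ T ⊔ (H ⊓ Subgroup.centralizer (X : Set G)) := Subgroup.mem_sup_right hc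
  exact Subgroup.mul_mem _ (Subgroup.mul_mem _ hcM (Subgroup.mem_sup_left ht))
    (Subgroup.inv_mem _ hcM)

end diag

end Cfsg.Agent.Lib.Helper42
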