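import Cfsg.Agent.Lib.Helper42.Sec33
import Cfsg.Agent.Lib.Helper42.Sec32
import Cfsg.Agent.Lib.Helper14.FF3
import Cfsg.Agent.Lib.Helper31.Basic

/-!
# Failure-of-factorization modules with a coprime operator group (helper42)

`ff_operator`: in the situation of the structure theorem for FF-modules (`H` faithful on `V`,
generated by best offenders, self-centralizing `p'`-core), let `X` be a `q`-group normalizing
`V` and `H` with `q ∤ |H|`, and `T ≤ H` contain an `H`-conjugate of every `p`-subgroup of `H`.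
Then `H = ⟨T, C_H(X)⟩`.
-/

set_option autoImplicit false

namespace Cfsg.Agent.Lib.Helper42

theorem two_dvd_card_SL22 : 2 ∣ Nat.card (Matrix.SpecialLinearGroup (Fin 2) (ZMod 2)) := by
  let g : Matrix.SpecialLinearGroup (Fin 2) (ZMod 2) := ⟨!![1, 1; 0, 1], by decide⟩
  have h1 : g ^ 2 = 1 := by
    apply Subtype.ext
    decide
  have h2 : g ≠ 1 := by
    intro h
    have := congrArg Subtype.val h
    revert this
    decide
  have : Fact (Nat.Prime 2) := ⟨Nat.prime_two⟩
  have h := orderOf_dvd_natCard g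
  rwa [orderOf_eq_prime h1 h2] at h

theorem three_dvd_card_SL22 : 3 ∣ Nat.card (Matrix.SpecialLinearGroup (Fin 2) (ZMod 2)) := by
  let g : Matrix.SpecialLinearGroup (Fin 2) (ZMod 2) := ⟨!![0, 1; 1, 1], by decide⟩
  have h1 : g ^ 3 = 1 := by
    apply Subtype.ext
    decide
  have h2 : g ≠ 1 := by
    intro h
    have := congrArg Subtype.val h
    revert this
    decide
  have : Fact (Nat.Prime 3) := ⟨Nat.prime_three⟩
  have h := orderOf_dvd_natCard g
  rwa [orderOf_eq_prime h1 h2] at h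

theorem two_dvd_card_SL23 : 2 ∣ Nat.card (Matrix.SpecialLinearGroup (Fin 2) (ZMod 3)) := by
  let g : Matrix.SpecialLinearGroup (Fin 2) (ZMod 3) := ⟨!![2, 0; 0, 2], by decide⟩
  have h1 : g ^ 2 = 1 := by
    apply Subtype.ext
    decide
  have h2 : g ≠ 1 := by
    intro h
    have := congrArg Subtype.val h
    revert this
    decide
  have : Fact (Nat.Prime 2) := ⟨Nat.prime_two⟩
  have h := orderOf_dvd_natCard g
  rwa [orderOf_eq_prime h1 h2] at h

theorem three_dvd_card_SL23 : 3 ∣ Nat.card (Matrix.SpecialLinearGroup (Fin 2) (ZMod 3)) := by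
  let g : Matrix.SpecialLinearGroup (Fin 2) (ZMod 3) := ⟨!![1, 1; 0, 1], by decide⟩
  have h1 : g ^ 3 = 1 := by
    apply Subtype.ext
    decide
  have h2 : g ≠ 1 := by
    intro h
    have := congrArg Subtype.val h
    revert this
    decide
  have : Fact (Nat.Prime 3) := ⟨Nat.prime_three⟩
  have h := orderOf_dvd_natCard g
  rwa [orderOf_eq_prime h1 h2] at h

/-- `2` and `3` divide the order of `SL(2, p)` for `p = 2, 3`. -/
theorem two_three_dvd_card_SL2 {p : ℕ} (hp : p = 2 ∨ p = 3) :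
    2 ∣ Nat.card (Matrix.SpecialLinearGroup (Fin 2) (ZMod p)) ∧
      3 ∣ Nat.card (Matrix.SpecialLinearGroup (Fin 2) (ZMod p)) := by
  rcases hp with rfl | rfl
  · exact ⟨two_dvd_card_SL22, three_dvd_card_SL22⟩
  · exact ⟨two_dvd_card_SL23, three_dvd_card_SL23⟩

end Cfsg.Agent.Lib.Helper42

open scoped commutatorElement

namespace Cfsg.Agent.Lib.Helper42

open Cfsg Cfsg.Agent.Lib.Helper14

universe u

section ffop

variable {G : Type u} [Group G]

/-- best offenders are permuted by the normalizer of `V`. -/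
theorem bo_cj {p : ℕ} {V A : Subgroup G} (hA : IsBestOffenderOn p V A) {g : G}
    (hg : g ∈ Subgroup.normalizer (V : Set G)) : IsBestOffenderOn p V (cj g A) := by
  have hV : cj g V = V := cj_eq_of_mem_normalizer hg
  have hcard : ∀ B : Subgroup G,
      Nat.card ↥(V ⊓ Subgroup.centralizer ((cj g B : Subgroup G) : Set G)) =
      Nat.card ↥(V ⊓ Subgroup.centralizer (B : Set G)) := by
    intro B
    rw [centralizer_cj]
    conv_lhs => rw [← hV]
    rw [← cj_inf, card_cj]
  obtain ⟨h1, h2, h3⟩ := hA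
  refine ⟨?_, ?_, ?_⟩
  · intro B hB
    have hB' : cj g⁻¹ B ≤ A := by
      have := cj_mono (g := g⁻¹) hB
      rwa [cj_inv_cj] at this
    have h := h1 (cj g⁻¹ B) hB'
    have hBc : Nat.card ↥(V ⊓ Subgroup.centralizer (B : Set G)) =
        Nat.card ↥(V ⊓ Subgroup.centralizer ((cj g⁻¹ B : Subgroup G) : Set G)) := by
      have := hcard (cj g⁻¹ B)
      rw [cj_cj_inv] at this
      exact this
    rw [hBc, hcard A, card_cj, ← card_cj g⁻¹ B]
    exact h
  · rw [← cj_commutator]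
    have h : cj g ⁅A, A⁆ ≤ cj g (Subgroup.centralizer (V : Set G)) := cj_mono h2
    rwa [← centralizer_cj, hV] at h
  · intro a ha
    rw [mem_cj] at ha
    have h := h3 _ ha
    have e : a ^ p = g * (g⁻¹ * a * g) ^ p * g⁻¹ := by
      rw [← conj_pow]
      congr 1
      group
    have h' : g * (g⁻¹ * a * g) ^ p * g⁻¹ ∈ cj g (Subgroup.centralizer (V : Set G)) :=
      conj_mem_cj h
    rw [← centralizer_cj, hV] at h'
    rwa [e]

/-- the image of `O_{p'}(H)` is invariant under the normalizer of `H`. -/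
theorem cj_pPrimeCore_map {p : ℕ} {H : Subgroup G} {g : G}
    (hg : g ∈ Subgroup.normalizer (H : Set G)) :
    cj g ((pPrimeCore p ↥H).map H.subtype) = (pPrimeCore p ↥H).map H.subtype := by
  set e : ↥H ≃* ↥H := H.normalizerMonoidHom ⟨g, hg⟩ with he
  have hcoe : ∀ h : ↥H, ((e h : ↥H) : G) = g * h * g⁻¹ := fun h => rfl
  have h1 : cj g ((pPrimeCore p ↥H).map H.subtype) =
      ((pPrimeCore p ↥H).map e.toMonoidHom).map H.subtype := by
    ext x
    constructor
    · rintro ⟨_, ⟨k, hk, rfl⟩, rfl⟩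
      exact ⟨e k, ⟨k, hk, rfl⟩, hcoe k⟩
    · rintro ⟨_, ⟨k, hk, rfl⟩, rfl⟩
      exact ⟨k, ⟨k, hk, rfl⟩, (hcoe k).symm⟩
  rw [h1, Cfsg.Agent.Lib.Helper31.pPrimeCore_map p e]

variable [Finite G]

/-- A `q`-group (`q ≥ 5`) normalizing `V` and a component `E` centralizes `E`. -/
theorem stab_centralizes {p q : ℕ} [Fact p.Prime] [Fact q.Prime] {V H E Q : Subgroup G}
    (hp : p = 2 ∨ p = 3) (hq2 : q ≠ 2) (hq3 : q ≠ 3)
    (hHV : H ≤ Subgroup.normalizer (V : Set G))
    (hf : H ⊓ Subgroup.centralizer (V : Set G) = ⊥) (hEH : E ≤ H)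
    (h3 : Nat.card ↥(⁅V, E⁆) = p ^ 2)
    (h5 : ⁅V, E⁆ ⊔ (V ⊓ Subgroup.centralizer (E : Set G)) = V)
    (hQ : IsPGroup q Q) (hQV : Q ≤ Subgroup.normalizer (V : Set G))
    (hQE : Q ≤ Subgroup.normalizer (E : Set G)) :
    Q ≤ Subgroup.centralizer (E : Set G) := by
  have hqp : q.Prime := Fact.out
  have hpp : p.Prime := Fact.out
  set W : Subgroup G := ⁅V, E⁆ with hW
  have hEV : E ≤ Subgroup.normalizer (V : Set G) := hEH.trans hHV
  have hEW : E ≤ Subgroup.normalizer (W : Set G) := normalizer_comm hEV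
  have hQW : Q ≤ Subgroup.normalizer (W : Set G) := by
    intro x hx
    rw [← cj_eq_self_iff, hW, cj_commutator, cj_eq_of_mem_normalizer (hQV hx),
      cj_eq_of_mem_normalizer (hQE hx)]
  have hmod := Cfsg.Agent.Lib.Helper66.card_modEq_card_inter_centralizer hQ (W : Set G)
    (fun x hx w hw => (Subgroup.mem_normalizer_iff.mp (hQW hx) w).mp hw)
  have e1 : Nat.card ((W : Set G)) = p ^ 2 := h3
  have e2 : Nat.card ((W : Set G) ∩ (Subgroup.centralizer (Q : Set G) : Set G) : Set G)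
      = Nat.card (W ⊓ Subgroup.centralizer (Q : Set G) : Subgroup G) := rfl
  rw [e1, e2] at hmod
  have hdvd : Nat.card (W ⊓ Subgroup.centralizer (Q : Set G) : Subgroup G) ∣ p ^ 2 := by
    rw [← h3]
    exact Subgroup.card_dvd_of_le inf_le_left
  obtain ⟨j, hj, hjeq⟩ := (Nat.dvd_prime_pow hpp).mp hdvd
  rw [hjeq] at hmod
  have hj2 : j = 2 := by
    by_contra hne
    have hjlt : j < 2 := lt_of_le_of_ne hj hne
    have hle : p ^ j ≤ p ^ 2 := Nat.pow_le_pow_right hpp.pos hj
    have hdiv : q ∣ p ^ 2 - p ^ j := (Nat.modEq_iff_dvd' hle).mp hmod.symm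
    rcases hp with rfl | rfl
    · interval_cases j
      · have h' : q ∣ 3 := by
          norm_num at hdiv
          exact hdiv
        exact hq3 ((Nat.prime_dvd_prime_iff_eq hqp Nat.prime_three).mp h')
      · have h' : q ∣ 2 := by
          norm_num at hdiv
          exact hdiv
        exact hq2 ((Nat.prime_dvd_prime_iff_eq hqp Nat.prime_two).mp h')
    · interval_cases j
      · have h' : q ∣ 8 := by
          norm_num at hdiv
          exact hdiv
        have h'' : q ∣ 2 ^ 3 := by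
          norm_num
          exact h'
        exact hq2 ((Nat.prime_dvd_prime_iff_eq hqp Nat.prime_two).mp (hqp.dvd_of_dvd_pow h''))
      · have h' : q ∣ 6 := by
          norm_num at hdiv
          exact hdiv
        have h'' : q ∣ 2 * 3 := by
          norm_num
          exact h'
        rcases (hqp.dvd_mul).mp h'' with h | h
        · exact hq2 ((Nat.prime_dvd_prime_iff_eq hqp Nat.prime_two).mp h)
        · exact hq3 ((Nat.prime_dvd_prime_iff_eq hqp Nat.prime_three).mp h)
  rw [hj2, ← h3] at hjeq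
  have hWQ : W ≤ Subgroup.centralizer (Q : Set G) := by
    have := subgroup_eq_of_le_of_card_le (inf_le_left :
      W ⊓ Subgroup.centralizer (Q : Set G) ≤ W) hjeq.ge
    rw [← this]; exact inf_le_right
  intro g hg
  rw [Subgroup.mem_centralizer_iff]
  intro y hy
  have hgi : g⁻¹ ∈ Q := Q.inv_mem hg
  have hcE : g * y * g⁻¹ * y⁻¹ ∈ E :=
    E.mul_mem ((Subgroup.mem_normalizer_iff.mp (hQE hg) y).mp hy) (E.inv_mem hy)
  have hcV : g * y * g⁻¹ * y⁻¹ ∈ Subgroup.centralizer (V : Set G) := by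
    have hWc : W ≤ Subgroup.centralizer ({g * y * g⁻¹ * y⁻¹} : Set G) := by
      intro w hw
      rw [Subgroup.mem_centralizer_iff]
      intro z hz
      rw [Set.mem_singleton_iff] at hz
      subst hz
      have hw1 : y⁻¹ * w * y ∈ W := by
        have := (Subgroup.mem_normalizer_iff.mp (hEW (E.inv_mem hy)) w).mp hw
        rwa [inv_inv] at this
      have ha : g⁻¹ * (y⁻¹ * w * y) = (y⁻¹ * w * y) * g⁻¹ :=
        Subgroup.mem_centralizer_iff.mp (hWQ hw1) g⁻¹ hgi
      have hb : g * w = w * g := Subgroup.mem_centralizer_iff.mp (hWQ hw) g hg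
      calc g * y * g⁻¹ * y⁻¹ * w = g * y * (g⁻¹ * (y⁻¹ * w * y)) * y⁻¹ := by group
        _ = g * y * ((y⁻¹ * w * y) * g⁻¹) * y⁻¹ := by rw [ha]
        _ = (g * w) * y * g⁻¹ * y⁻¹ := by group
        _ = (w * g) * y * g⁻¹ * y⁻¹ := by rw [hb]
        _ = w * (g * y * g⁻¹ * y⁻¹) := by group
    have hUc : V ⊓ Subgroup.centralizer (E : Set G) ≤
        Subgroup.centralizer ({g * y * g⁻¹ * y⁻¹} : Set G) := by
      rintro u ⟨-, hu⟩
      rw [Subgroup.mem_centralizer_iff]
      intro z hz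
      rw [Set.mem_singleton_iff] at hz
      subst hz
      have hu1 : g⁻¹ * u * g ∈ Subgroup.centralizer (E : Set G) := by
        rw [Subgroup.mem_centralizer_iff]
        intro e he
        have he' : g * e * g⁻¹ ∈ E := (Subgroup.mem_normalizer_iff.mp (hQE hg) e).mp he
        have h1 := Subgroup.mem_centralizer_iff.mp hu _ he'
        calc e * (g⁻¹ * u * g) = g⁻¹ * ((g * e * g⁻¹) * u) * g := by group
          _ = g⁻¹ * (u * (g * e * g⁻¹)) * g := by rw [h1]
          _ = g⁻¹ * u * g * e := by group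
      have ha : y⁻¹ * u = u * y⁻¹ := Subgroup.mem_centralizer_iff.mp hu _ (E.inv_mem hy)
      have hb : y * (g⁻¹ * u * g) = (g⁻¹ * u * g) * y :=
        Subgroup.mem_centralizer_iff.mp hu1 _ hy
      calc g * y * g⁻¹ * y⁻¹ * u = g * y * g⁻¹ * (y⁻¹ * u) := by group
        _ = g * y * g⁻¹ * (u * y⁻¹) := by rw [ha]
        _ = g * (y * (g⁻¹ * u * g)) * g⁻¹ * y⁻¹ := by group
        _ = g * ((g⁻¹ * u * g) * y) * g⁻¹ * y⁻¹ := by rw [hb]
        _ = u * (g * y * g⁻¹ * y⁻¹) := by group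
    have hVc : V ≤ Subgroup.centralizer ({g * y * g⁻¹ * y⁻¹} : Set G) := by
      rw [← h5]
      exact sup_le hWc hUc
    rw [Subgroup.mem_centralizer_iff]
    intro v hv
    exact (Subgroup.mem_centralizer_iff.mp (hVc hv) _ rfl).symm
  have h1 : g * y * g⁻¹ * y⁻¹ ∈ H ⊓ Subgroup.centralizer (V : Set G) := ⟨hEH hcE, hcV⟩
  rw [hf, Subgroup.mem_bot] at h1
  calc y * g = (g * y * g⁻¹ * y⁻¹)⁻¹ * (g * y) := by group
    _ = g * y := by rw [h1, inv_one, one_mul]

/-- **FF-modules with a coprime operator group**: `H = ⟨T, C_H(X)⟩`. -/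
theorem ff_operator {p q : ℕ} [Fact p.Prime] [Fact q.Prime]
    (V H : Subgroup G) (hV : IsElementaryAbelian p V)
    (hHV : H ≤ Subgroup.normalizer (V : Set G))
    (hf : H ⊓ Subgroup.centralizer (V : Set G) = ⊥)
    (hS1 : Subgroup.centralizer (pPrimeCore p ↥H : Set ↥H) ≤ pPrimeCore p ↥H)
    (hS3 : H = ⨆ A : {A : Subgroup G // A ≤ H ∧ IsBestOffenderOn p V A}, (A : Subgroup G))
    (hH1 : H ≠ ⊥)
    (X : Subgroup G) (hXq : IsPGroup q X) (hXV : X ≤ Subgroup.normalizer (V : Set G))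
    (hXH : X ≤ Subgroup.normalizer (H : Set G)) (hqH : ¬ q ∣ Nat.card H)
    (T : Subgroup G)
    (hT : ∀ B : Subgroup G, B ≤ H → IsPGroup p B → ∃ h ∈ H, ∀ b ∈ B, h * b * h⁻¹ ∈ T) :
    H ≤ T ⊔ (H ⊓ Subgroup.centralizer (X : Set G)) := by
  have S := FFSetup.of_hyp V H hV hHV hf hS1
  obtain ⟨hp23, -, -, hsup, -, -⟩ := ff_structure V H hV hHV hf hS1 hS3 hH1
  refine hsup.ge.trans (iSup_le ?_)
  rintro ⟨_, A, hAH, hA, hAV, hmin, rfl⟩
  have hc := isFFComp_of_min V H hV hHV hf hS1 hS3 hAH hA hAV hmin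
  obtain ⟨a, -, -, -, -, hcardA⟩ := S.bo_min_card' hAH hA hAV hmin
  set M := (pPrimeCore p ↥H).map H.subtype with hM
  set E := ⁅M, A⁆ ⊔ A with hE
  set D := H ⊓ Subgroup.centralizer ((⁅V, E⁆ : Subgroup G) : Set G) with hD
  have hEH : E ≤ H := hc.le_H
  obtain ⟨iso⟩ := hc.h2
  have hcardE : Nat.card E = Nat.card (Matrix.SpecialLinearGroup (Fin 2) (ZMod p)) :=
    Nat.card_congr iso.toEquiv
  obtain ⟨h2d, h3d⟩ := two_three_dvd_card_SL2 hp23
  have hEdvd : Nat.card E ∣ Nat.card H := Subgroup.card_dvd_of_le hEH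
  have hq2 : q ≠ 2 := by
    rintro rfl
    rw [← hcardE] at h2d
    exact hqH (h2d.trans hEdvd)
  have hq3 : q ≠ 3 := by
    rintro rfl
    rw [← hcardE] at h3d
    exact hqH (h3d.trans hEdvd)
  have hdich : ∀ g ∈ X, g ∈ Subgroup.centralizer (E : Set G) ∨ ∀ y ∈ E, g * y * g⁻¹ ∈ D := by
    intro g hg
    have hgV := hXV hg
    have hgH := hXH hg
    have hA'H : cj g A ≤ H := by
      have := cj_mono (g := g) hAH
      rwa [cj_eq_of_mem_normalizer hgH] at this
    have hA' : IsBestOffenderOn p V (cj g A) := bo_cj hA hgV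
    have hcard' : Nat.card (cj g A) = p := by rw [card_cj]; exact hcardA
    have hcjE : cj g E = ⁅M, cj g A⁆ ⊔ cj g A := by
      have h1 : cj g E = cj g ⁅M, A⁆ ⊔ cj g A := Subgroup.map_sup _ _ _
      rw [h1, cj_commutator, hM, cj_pPrimeCore_map hgH]
    rcases hc.comp_le S.hMH hA'H hA' hcard' with h | h
    · left
      have hle : cj g E ≤ E := by rw [hcjE]; exact h
      have heq : cj g E = E := subgroup_eq_of_le_of_card_le hle (by rw [card_cj])
      have hgE : g ∈ Subgroup.normalizer (E : Set G) := cj_eq_self_iff.mp heq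
      have hQ : X ⊓ Subgroup.normalizer (E : Set G) ≤ Subgroup.centralizer (E : Set G) :=
        stab_centralizes hp23 hq2 hq3 hHV hf hEH hc.h3 hc.h5 (hXq.to_le inf_le_left)
          (inf_le_left.trans hXV) inf_le_right
      exact hQ ⟨hg, hgE⟩
    · right
      intro y hy
      have h1 : g * y * g⁻¹ ∈ cj g E := conj_mem_cj hy
      rw [hcjE] at h1
      exact h h1
  have hdiag : ∀ e ∈ E, ∃ c ∈ H ⊓ Subgroup.centralizer (X : Set G), e⁻¹ * c ∈ D :=
    fun e he => exists_fixed_diag H E D X hXq hXH hqH hEH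
      (fun h hh d hd => conj_mem_of_normalizer hd (hc.normalC hh)) hdich e he
  have hsupE : ∀ h ∈ H, ∃ e ∈ E, ∃ d ∈ D, h = e * d := by
    intro h hh
    have hh' : h ∈ E ⊔ D := by rw [hc.h8]; exact hh
    exact mem_sup_of_comm hc.comm hh'
  have hB : ∀ B : Subgroup G, B ≤ E → IsPGroup p B →
      B ≤ T ⊔ (H ⊓ Subgroup.centralizer (X : Set G)) := by
    intro B hBE hBp
    obtain ⟨h, hh, hb⟩ := hT B (hBE.trans hEH) hBp
    exact le_sup_fix_of_diag H E D X T hdiag hc.comm hsupE B hBE h hh hb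
  have hAp : IsPGroup p A := IsPGroup.of_card (n := 1) (by rw [hcardA, pow_one])
  show E ≤ _
  rw [hE]
  apply sup_le
  · rw [Subgroup.commutator_le]
    intro m hm a' ha'
    have h1 : cj m A ≤ E := by
      have hmE : m ∈ Subgroup.normalizer (E : Set G) := hc.normal (S.hMH hm)
      have := cj_mono (g := m) (le_sup_right : A ≤ E)
      rwa [cj_eq_of_mem_normalizer hmE] at this
    have h2 := hB (cj m A) h1 (isPGroup_cj hAp)
    have h3 : m * a' * m⁻¹ ∈ cj m A := conj_mem_cj ha'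
    have h4 := hB A le_sup_right hAp
    rw [commutatorElement_def]
    exact Subgroup.mul_mem _ (h2 h3) (Subgroup.inv_mem _ (h4 ha'))
  · exact hB A le_sup_right hAp

end ffop

end Cfsg.Agent.Lib.Helper42
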