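import Cfsg.Agent.Lib.Helper42.Sec34
import Cfsg.Agent.S0618

/-!
# Thompson factorization with a coprime operator group (helper42)

`thompson_operator`: `K` a `p`-solvable group with `O_{p'}(K) = 1` which is not Thompson
factorizable, `𝒬` a `q`-group of automorphisms of `K` with `q ∤ |K|`, `S` a Sylow `p`-subgroup.
Then `K = ⟨N_K(J(S)), C_K(Ω₁(Z(S))), C_K(𝒬)⟩`.
-/

set_option autoImplicit false
open scoped commutatorElement

namespace Cfsg.Agent.Lib.Helper42

open Cfsg Cfsg.Agent.Lib.Helper14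

universe u

/-- restriction of automorphisms to an invariant subgroup. -/
def restrAut {K : Type*} [Group K] (V : Subgroup K) (hV : ∀ φ : MulAut K, ∀ v ∈ V, φ v ∈ V) :
    MulAut K →* MulAut ↥V where
  toFun φ :=
    { toFun := fun v => ⟨φ v, hV φ v v.2⟩
      invFun := fun v => ⟨φ⁻¹ v, hV φ⁻¹ v v.2⟩
      left_inv := fun v => Subtype.ext (by simp)
      right_inv := fun v => Subtype.ext (by simp)
      map_mul' := fun a b => Subtype.ext (map_mul φ _ _) }
  map_one' := by ext v; rfl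
  map_mul' := fun φ ψ => by ext v; rfl

theorem restrAut_apply {K : Type*} [Group K] (V : Subgroup K)
    (hV : ∀ φ : MulAut K, ∀ v ∈ V, φ v ∈ V) (φ : MulAut K) (v : ↥V) :
    ((restrAut V hV φ v : ↥V) : K) = φ v := rfl

theorem restrAut_inv_apply {K : Type*} [Group K] (V : Subgroup K)
    (hV : ∀ φ : MulAut K, ∀ v ∈ V, φ v ∈ V) (φ : MulAut K) (v : ↥V) :
    (((restrAut V hV φ)⁻¹ v : ↥V) : K) = φ⁻¹ v := rfl

/-- `⟨Ω₁(Z(S)) : S Sylow⟩` is invariant under automorphisms. -/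
theorem iSup_omegaZ_aut {K : Type*} [Group K] [Finite K] {p : ℕ} [Fact p.Prime] (φ : MulAut K) :
    ∀ v ∈ (⨆ S : Sylow p K, omegaOne p ((S : Subgroup K) ⊓
      Subgroup.centralizer ((S : Subgroup K) : Set K))), φ v ∈ (⨆ S : Sylow p K,
        omegaOne p ((S : Subgroup K) ⊓ Subgroup.centralizer ((S : Subgroup K) : Set K))) := by
  intro v hv
  have hmap : (⨆ S : Sylow p K, omegaOne p ((S : Subgroup K) ⊓
      Subgroup.centralizer ((S : Subgroup K) : Set K))).map φ.toMonoidHom ≤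
      (⨆ S : Sylow p K, omegaOne p ((S : Subgroup K) ⊓
        Subgroup.centralizer ((S : Subgroup K) : Set K))) := by
    rw [Subgroup.map_iSup]
    refine iSup_le fun S₁ => ?_
    have hsurj : Function.Surjective φ.toMonoidHom := φ.surjective
    refine le_trans ?_ (le_iSup (fun S : Sylow p K => omegaOne p ((S : Subgroup K) ⊓
      Subgroup.centralizer ((S : Subgroup K) : Set K))) (S₁.mapSurjective hsurj))
    unfold omegaOne
    rw [MonoidHom.map_closure, Subgroup.closure_le]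
    rintro _ ⟨x, ⟨hx, hxp⟩, rfl⟩
    apply Subgroup.subset_closure
    refine ⟨⟨?_, ?_⟩, ?_⟩
    · exact Subgroup.mem_map_of_mem _ hx.1
    · show φ x ∈ Subgroup.centralizer
        (((S₁.mapSurjective hsurj : Sylow p K) : Subgroup K) : Set K)
      rw [Subgroup.mem_centralizer_iff]
      rintro _ ⟨s, hs, rfl⟩
      have h1 := Subgroup.mem_centralizer_iff.mp hx.2 s hs
      show φ s * φ x = φ x * φ s
      rw [← map_mul, ← map_mul, h1]
    · show (φ x) ^ p = 1
      rw [← map_pow, hxp, map_one]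
  exact hmap (Subgroup.mem_map_of_mem _ hv)

/-- **Thompson factorization with coprime operators** (non-factorizable case). -/
theorem thompson_operator {𝔎 : Type u} [Group 𝔎] [Finite 𝔎] {p q : ℕ} [Fact p.Prime]
    [Fact q.Prime] (hsep : IsPSolvable p 𝔎) (hO : pPrimeCore p 𝔎 = ⊥)
    (hnf : ¬ IsThompsonFactorizable p 𝔎)
    (𝒬 : Subgroup (MulAut 𝔎)) (h𝒬 : IsPGroup q 𝒬) (hq : ¬ q ∣ Nat.card 𝔎) (S : Sylow p 𝔎)
    (F : Subgroup 𝔎) (hF : ∀ k : 𝔎, (∀ φ ∈ 𝒬, φ k = k) → k ∈ F) :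
    Subgroup.normalizer (thompsonSubgroupOf p (S : Subgroup 𝔎) : Set 𝔎) ⊔
      Subgroup.centralizer (omegaOne p ((S : Subgroup 𝔎) ⊓
        Subgroup.centralizer ((S : Subgroup 𝔎) : Set 𝔎)) : Set 𝔎) ⊔ F = ⊤ := by
  have hc : Subgroup.centralizer (pCore p 𝔎 : Set 𝔎) ≤ pCore p 𝔎 :=
    Cfsg.Agent.Lib.Helper40.centralizer_pCore_le hsep hO
  obtain ⟨hVn, hVea, -⟩ := Cfsg.Agent.S0601.result (G := 𝔎) (p := p) hc
  have hVchar : ∀ φ : MulAut 𝔎, ∀ v ∈ (⨆ S : Sylow p 𝔎, omegaOne p ((S : Subgroup 𝔎) ⊓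
      Subgroup.centralizer ((S : Subgroup 𝔎) : Set 𝔎))), φ v ∈ (⨆ S : Sylow p 𝔎,
        omegaOne p ((S : Subgroup 𝔎) ⊓ Subgroup.centralizer ((S : Subgroup 𝔎) : Set 𝔎))) :=
    fun φ => iSup_omegaZ_aut φ
  set V : Subgroup 𝔎 := ⨆ S : Sylow p 𝔎,
    omegaOne p ((S : Subgroup 𝔎) ⊓ Subgroup.centralizer ((S : Subgroup 𝔎) : Set 𝔎)) with hV
  have : V.Normal := hVn
  set C := Subgroup.centralizer (V : Set 𝔎) with hC
  set J := thompsonSubgroup p 𝔎 with hJ
  have hJchar : J.Characteristic := (Cfsg.Agent.S0602.result (G := 𝔎) (p := p)).1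
  have hJn : J.Normal := Subgroup.normal_of_characteristic J
  have hgen : V = ⨆ S : Sylow p 𝔎, V ⊓ Subgroup.centralizer ((S : Subgroup 𝔎) : Set 𝔎) := by
    apply le_antisymm
    · rw [hV]
      refine iSup_le fun S => ?_
      refine le_trans ?_ (le_iSup (fun S : Sylow p 𝔎 =>
        V ⊓ Subgroup.centralizer ((S : Subgroup 𝔎) : Set 𝔎)) S)
      refine le_inf (le_iSup (fun S : Sylow p 𝔎 => omegaOne p ((S : Subgroup 𝔎) ⊓
        Subgroup.centralizer ((S : Subgroup 𝔎) : Set 𝔎))) S) ?_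
      exact (omegaOne_le _).trans inf_le_right
    · exact iSup_le fun S => inf_le_left
  have hOq : pCore p (𝔎 ⧸ C) = ⊥ := Cfsg.Agent.S0600.result V hVea hgen
  have hJC : ¬ J ≤ C := by
    intro h
    exact hnf ((Cfsg.Agent.S0608.result hO).mpr h)
  set τ := holoHom V with hτ
  set ℍ : Subgroup (Holo V) := J.map τ with hℍ
  have hCker : C = τ.ker := by rw [hC, holoHom_ker]
  have hHV : ℍ ≤ Subgroup.normalizer (holoV V : Set (Holo V)) := by
    rw [Subgroup.normalizer_eq_top_iff.mpr (holoV_normal V)]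
    exact le_top
  have hf : ℍ ⊓ Subgroup.centralizer (holoV V : Set (Holo V)) = ⊥ := by
    rw [eq_bot_iff, ← holo_faithful V]
    exact inf_le_inf_right _ (Subgroup.map_le_range _ _)
  have hsol : IsPSolvable p ↥ℍ :=
    isPSolvable_map (τ.subgroupMap J) (τ.subgroupMap_surjective J) (isPSolvable_subgroup hsep J)
  have hS1 : Subgroup.centralizer (pPrimeCore p ↥ℍ : Set ↥ℍ) ≤ pPrimeCore p ↥ℍ :=
    centralizer_pPrimeCore_le hsol (Cfsg.Agent.S0618.pCore_map_thompson V hOq)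
  have hS3 : ℍ = ⨆ A : {A : Subgroup (Holo V) // A ≤ ℍ ∧ IsBestOffenderOn p (holoV V) A},
      (A : Subgroup (Holo V)) := by
    apply le_antisymm
    · rw [hℍ, Subgroup.map_le_iff_le_comap, hJ]
      unfold thompsonSubgroup
      apply sSup_le
      intro A hA
      rw [← Subgroup.map_le_iff_le_comap]
      exact le_iSup (fun A : {A : Subgroup (Holo V) // A ≤ ℍ ∧
        IsBestOffenderOn p (holoV V) A} => (A : Subgroup (Holo V)))
        ⟨A.map τ, Subgroup.map_mono (le_sSup hA),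
          holo_bo V A (Cfsg.Agent.S0606.result V hVea A hA)⟩
    · exact iSup_le fun A => A.2.1
  have hH1 : ℍ ≠ ⊥ := by
    intro h
    apply hJC
    intro x hx
    have h1 : τ x ∈ ℍ := ⟨x, hx, rfl⟩
    rw [h, Subgroup.mem_bot] at h1
    rw [hC, ← holoHom_ker V]
    exact h1
  -- the operator group inside the holomorph
  set ρ : MulAut 𝔎 →* Holo V :=
    (SemidirectProduct.inr : MulAut ↥V →* Holo V).comp (restrAut V hVchar) with hρ
  have hrel : ∀ (φ : MulAut 𝔎) (k : 𝔎), τ (φ k) = ρ φ * τ k * (ρ φ)⁻¹ := by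
    intro φ k
    show SemidirectProduct.inr (MulAut.conjNormal (φ k)) =
      SemidirectProduct.inr (restrAut V hVchar φ) * SemidirectProduct.inr (MulAut.conjNormal k) *
        (SemidirectProduct.inr (restrAut V hVchar φ))⁻¹
    rw [← map_inv, ← map_mul, ← map_mul]
    congr 1
    ext v
    show φ k * (v : 𝔎) * (φ k)⁻¹ = φ (k * φ⁻¹ (v : 𝔎) * k⁻¹)
    simp
  set X' : Subgroup (Holo V) := 𝒬.map ρ with hX'
  have hX'q : IsPGroup q X' := h𝒬.map ρ
  have hX'V : X' ≤ Subgroup.normalizer (holoV V : Set (Holo V)) := by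
    rw [Subgroup.normalizer_eq_top_iff.mpr (holoV_normal V)]
    exact le_top
  have hφJ : ∀ φ : MulAut 𝔎, ∀ j ∈ J, φ j ∈ J := by
    intro φ j hj
    have h1 : j ∈ J.comap φ.toMonoidHom := by rw [hJchar.fixed φ]; exact hj
    exact h1
  have hX'H : X' ≤ Subgroup.normalizer (ℍ : Set (Holo V)) := by
    rintro _ ⟨φ, -, rfl⟩
    apply mem_normalizer_of_conj_mem
    rintro _ ⟨j, hj, rfl⟩
    rw [← hrel]
    exact ⟨φ j, hφJ φ j hj, rfl⟩
  have hqH : ¬ q ∣ Nat.card ℍ := by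
    intro h
    apply hq
    have h1 := holo_card_map V J
    have h2 : Nat.card ℍ ∣ Nat.card J := Dvd.intro _ h1
    exact h.trans (h2.trans (Subgroup.card_subgroup_dvd_card J))
  -- the Sylow subgroup
  set T : Subgroup (Holo V) := ((S : Subgroup 𝔎) ⊓ J).map τ with hT
  have hTconj : ∀ B : Subgroup (Holo V), B ≤ ℍ → IsPGroup p B →
      ∃ h ∈ ℍ, ∀ b ∈ B, h * b * h⁻¹ ∈ T := by
    intro B hBH hBp
    obtain ⟨SJ, hSJ⟩ := exists_sylow_map_eq_inf J S
    set 𝕋 : Sylow p ↥ℍ := SJ.mapSurjective (τ.subgroupMap_surjective J) with h𝕋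
    have h𝕋T : ∀ t : ↥ℍ, t ∈ 𝕋 → (t : Holo V) ∈ T := by
      intro t ht
      have ht' : t ∈ (SJ : Subgroup ↥J).map (τ.subgroupMap J) := ht
      obtain ⟨s, hs, rfl⟩ := ht'
      have h1 : (s : 𝔎) ∈ (S : Subgroup 𝔎) ⊓ J := by
        rw [← hSJ]
        exact ⟨s, hs, rfl⟩
      exact ⟨(s : 𝔎), h1, rfl⟩
    have hB'p : IsPGroup p (B.subgroupOf ℍ) :=
      hBp.comap_of_injective ℍ.subtype ℍ.subtype_injective
    obtain ⟨Q, hQ⟩ := hB'p.exists_le_sylow
    obtain ⟨h, hh⟩ := MulAction.exists_smul_eq ↥ℍ 𝕋 Q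
    refine ⟨((h⁻¹ : ↥ℍ) : Holo V), (h⁻¹).2, fun b hb => ?_⟩
    have h1 : (⟨b, hBH hb⟩ : ↥ℍ) ∈ (Q : Subgroup ↥ℍ) := hQ (Subgroup.mem_subgroupOf.mpr hb)
    rw [← hh, sylow_smul_coe_eq_map] at h1
    obtain ⟨t, ht, hte⟩ := h1
    have h2 := h𝕋T t ht
    have h3 : (h : Holo V) * (t : Holo V) * (h : Holo V)⁻¹ = b := congrArg Subtype.val hte
    have h4 : ((h⁻¹ : ↥ℍ) : Holo V) * b * ((h⁻¹ : ↥ℍ) : Holo V)⁻¹ = (t : Holo V) := by
      rw [← h3]
      simp only [Subgroup.coe_inv]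
      group
    rw [h4]; exact h2
  have hmain := ff_operator (holoV V) ℍ (holoV_ea V hVea) hHV hf hS1 hS3 hH1 X' hX'q hX'V hX'H
    hqH T hTconj
  -- lifting of fixed points
  have hCchar : ∀ φ : MulAut 𝔎, ∀ c ∈ C, φ c ∈ C := by
    intro φ c hc
    rw [hC, Subgroup.mem_centralizer_iff]
    intro v hv
    have hv' : φ⁻¹ v ∈ V := hVchar φ⁻¹ v hv
    have h1 := Subgroup.mem_centralizer_iff.mp hc _ hv'
    have h2 : φ (φ⁻¹ v * c) = φ (c * φ⁻¹ v) := by rw [h1]
    simpa using h2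
  have hlift : ℍ ⊓ Subgroup.centralizer (X' : Set (Holo V)) ≤ F.map τ := by
    rintro _ ⟨⟨j, hj, rfl⟩, hcent⟩
    have hjφ : ∀ φ ∈ 𝒬, j⁻¹ * φ j ∈ C := by
      intro φ hφ
      have h1 := Subgroup.mem_centralizer_iff.mp hcent (ρ φ) ⟨φ, hφ, rfl⟩
      have h2 : τ (φ j) = τ j := by
        rw [hrel, h1]
        group
      rw [hCker, MonoidHom.mem_ker, map_mul, map_inv, h2, inv_mul_cancel]
    let act : MulAction ↥𝒬 {k : 𝔎 // j⁻¹ * k ∈ C} :=
      { smul := fun φ k => ⟨(φ : MulAut 𝔎) k.1, by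
          have h1 : j⁻¹ * (φ : MulAut 𝔎) k.1 =
              (j⁻¹ * (φ : MulAut 𝔎) j) * (φ : MulAut 𝔎) (j⁻¹ * k.1) := by
            rw [map_mul, map_inv]; group
          rw [h1]
          exact C.mul_mem (hjφ _ φ.2) (hCchar _ _ k.2)⟩
        one_smul := fun k => Subtype.ext rfl
        mul_smul := fun φ ψ k => Subtype.ext rfl }
    have hcardα : Nat.card {k : 𝔎 // j⁻¹ * k ∈ C} = Nat.card C := by
      apply Nat.card_congr
      exact
        { toFun := fun k => ⟨j⁻¹ * k.1, k.2⟩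
          invFun := fun c => ⟨j * c.1, by
            have : j⁻¹ * (j * c.1) = c.1 := by group
            rw [this]; exact c.2⟩
          left_inv := fun k => Subtype.ext (by group)
          right_inv := fun c => Subtype.ext (by group) }
    have hnd : ¬ q ∣ Nat.card {k : 𝔎 // j⁻¹ * k ∈ C} := by
      rw [hcardα]
      intro h
      exact hq (h.trans (Subgroup.card_subgroup_dvd_card C))
    obtain ⟨k, hk⟩ := h𝒬.nonempty_fixed_point_of_prime_not_dvd_card
      {k : 𝔎 // j⁻¹ * k ∈ C} hnd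
    have hkF : k.1 ∈ F := by
      apply hF
      intro φ hφ
      have := hk ⟨φ, hφ⟩
      exact congrArg Subtype.val this
    refine ⟨k.1, hkF, ?_⟩
    have h1 : j⁻¹ * k.1 ∈ τ.ker := by rw [← hCker]; exact k.2
    rw [MonoidHom.mem_ker, map_mul, map_inv] at h1
    exact (inv_mul_eq_one.mp h1).symm
  have hJle : J ≤ (S : Subgroup 𝔎) ⊔ F ⊔ C := by
    intro j hj
    have h1 : τ j ∈ T ⊔ F.map τ :=
      (sup_le_sup_left hlift T) (hmain ⟨j, hj, rfl⟩)
    have h2 : T ⊔ F.map τ ≤ ((S : Subgroup 𝔎) ⊔ F).map τ := by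
      rw [Subgroup.map_sup]
      exact sup_le_sup_right (Subgroup.map_mono inf_le_left) _
    obtain ⟨y, hy, hyj⟩ := h2 h1
    have h3 : y⁻¹ * j ∈ C := by
      rw [hCker, MonoidHom.mem_ker, map_mul, map_inv, hyj, inv_mul_cancel]
    have h4 : j = y * (y⁻¹ * j) := by group
    rw [h4]
    exact Subgroup.mul_mem _ (Subgroup.mem_sup_left hy) (Subgroup.mem_sup_right h3)
  -- Frattini argument
  set L : Subgroup 𝔎 := J ⊔ C with hL
  have hLn : L.Normal := by rw [hL]; infer_instance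
  have hfr := normalizer_inf_sup_eq_top L S
  have hK : Subgroup.normalizer (((S : Subgroup 𝔎) ⊓ L : Subgroup 𝔎) : Set 𝔎) ≤
      Subgroup.normalizer (thompsonSubgroupOf p (S : Subgroup 𝔎) : Set 𝔎) := by
    apply le_normalizer_of_conj_mem
    intro m hm x hx
    have hmap : (thompsonSubgroupOf p (S : Subgroup 𝔎)).map (MulAut.conj m).toMonoidHom ≤
        thompsonSubgroupOf p (S : Subgroup 𝔎) := by
      rw [Subgroup.map_le_iff_le_comap]
      conv_lhs => rw [thompsonOf_sylow_eq_sSup S]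
      apply sSup_le
      rintro A ⟨hA, hAS⟩
      rw [← Subgroup.map_le_iff_le_comap]
      apply maxEA_le_thompsonOf (maxEA_conj m hA)
      rintro _ ⟨a, ha, rfl⟩
      have haSL : a ∈ (S : Subgroup 𝔎) ⊓ L :=
        Subgroup.mem_inf.mpr ⟨hAS ha, Subgroup.mem_sup_left (maxEA_le_thompson hA ha)⟩
      exact (Subgroup.mem_inf.mp (conj_mem_of_normalizer haSL hm)).1
    exact hmap (Subgroup.mem_map_of_mem (MulAut.conj m).toMonoidHom hx)
  have hSN : (S : Subgroup 𝔎) ≤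
      Subgroup.normalizer (((S : Subgroup 𝔎) ⊓ L : Subgroup 𝔎) : Set 𝔎) := by
    apply le_normalizer_of_conj_mem
    rintro b hb x ⟨hxS, hxL⟩
    exact ⟨Subgroup.mul_mem _ (Subgroup.mul_mem _ hb hxS) (Subgroup.inv_mem _ hb),
      hLn.conj_mem x hxL b⟩
  have hCΩ : C ≤ Subgroup.centralizer (omegaOne p ((S : Subgroup 𝔎) ⊓
      Subgroup.centralizer ((S : Subgroup 𝔎) : Set 𝔎)) : Set 𝔎) := by
    refine Subgroup.centralizer_le ?_
    exact le_iSup (fun S : Sylow p 𝔎 =>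
      omegaOne p ((S : Subgroup 𝔎) ⊓ Subgroup.centralizer ((S : Subgroup 𝔎) : Set 𝔎))) S
  rw [eq_top_iff, ← hfr]
  apply sup_le
  · exact hK.trans (le_sup_left.trans le_sup_left)
  · rw [hL]
    apply sup_le
    · refine hJle.trans (sup_le (sup_le ?_ le_sup_right) ?_)
      · exact (hSN.trans hK).trans (le_sup_left.trans le_sup_left)
      · exact hCΩ.trans (le_sup_right.trans le_sup_left)
    · exact hCΩ.trans (le_sup_right.trans le_sup_left)

end Cfsg.Agent.Lib.Helper42
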