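import Cfsg.Agent.Lib.Helper42.Sec33
import Cfsg.Agent.Lib.Helper42.Fusion
import Cfsg.Agent.Lib.Helper14.FF3

/-!
# Diagonal complements under a coprime operator group (helper42)

`V` abelian, `V = W₁ × U`, `X` a `q`-group normalizing `V` each of whose elements centralizes
`W₁` or conjugates `W₁` into `U`.  Then `W = ⟨W₁^X⟩ ∩ C(X)` is another complement of `U` in `V`
(`diag_inf_bot`, `diag_sup`, `diag_card`).  `exists_projHom`: the projection of a subgroup of an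
internal direct product `E × D` onto `E` as a homomorphism.
-/

set_option autoImplicit false

namespace Cfsg.Agent.Lib.Helper42

open Cfsg.Agent.Lib.Helper14

section diagc

variable {G : Type*} [Group G] [Finite G]

theorem diag_inf_bot (V W₁ U X : Subgroup G) (hVc : ∀ x ∈ V, ∀ y ∈ V, x * y = y * x)
    (hW₁V : W₁ ≤ V) (hUV : U ≤ V) (hXV : X ≤ Subgroup.normalizer (V : Set G))
    (hWU : W₁ ⊓ U = ⊥)
    (hdich : ∀ g ∈ X, g ∈ Subgroup.centralizer (W₁ : Set G) ∨ ∀ y ∈ W₁, g * y * g⁻¹ ∈ U) :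
    ((⨆ g : ↥X, cj (g : G) W₁) ⊓ Subgroup.centralizer (X : Set G)) ⊓ U = ⊥ := by
  classical
  have hd : ∀ u ∈ X, cj u W₁ = W₁ ∨ cj u W₁ ≤ U := by
    intro u hu
    rcases hdich u hu with h | h
    · left
      ext x
      rw [mem_cj]
      constructor
      · intro hx
        have h1 := Subgroup.mem_centralizer_iff.mp h _ hx
        have h2 : x = u⁻¹ * x * u := by
          calc x = (u * (u⁻¹ * x * u)) * u⁻¹ := by group
            _ = ((u⁻¹ * x * u) * u) * u⁻¹ := by rw [h1]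
            _ = u⁻¹ * x * u := by group
        rw [h2]; exact hx
      · intro hx
        have h1 := Subgroup.mem_centralizer_iff.mp h _ hx
        have h2 : u⁻¹ * x * u = x := by
          calc u⁻¹ * x * u = u⁻¹ * (x * u) := by group
            _ = u⁻¹ * (u * x) := by rw [h1]
            _ = x := by group
        rw [h2]; exact hx
    · right
      rintro _ ⟨y, hy, rfl⟩
      exact h y hy
  have hcjV : ∀ g ∈ X, ∀ A : Subgroup G, A ≤ V → cj g A ≤ V := by
    intro g hg A hA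
    have := cj_mono (g := g) hA
    rwa [cj_eq_of_mem_normalizer (hXV hg)] at this
  have key : ∀ I : Finset ↥X, ∀ c ∈ I.sup (fun g : ↥X => cj (g : G) W₁),
      (∀ g ∈ I, c ∈ cj (g : G) U) → c = 1 := by
    intro I
    induction I using Finset.induction_on with
    | empty =>
      intro c hc _
      rw [Finset.sup_empty, Subgroup.mem_bot] at hc
      exact hc
    | insert g₀ I hg₀ ih =>
      intro c hc hcU
      rw [Finset.sup_insert] at hc
      by_cases hcov : ∃ g ∈ I, cj (g : G) W₁ = cj (g₀ : G) W₁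
      · obtain ⟨g, hg, hgeq⟩ := hcov
        have hle : cj (g₀ : G) W₁ ⊔ I.sup (fun g : ↥X => cj (g : G) W₁) ≤
            I.sup (fun g : ↥X => cj (g : G) W₁) := by
          apply sup_le _ le_rfl
          rw [← hgeq]
          exact Finset.le_sup (f := fun g : ↥X => cj (g : G) W₁) hg
        exact ih c (hle hc) (fun g hg => hcU g (Finset.mem_insert_of_mem hg))
      · push Not at hcov
        have hIle : I.sup (fun g : ↥X => cj (g : G) W₁) ≤ cj (g₀ : G) U := by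
          apply Finset.sup_le
          intro g hg
          have hu : (g₀ : G)⁻¹ * (g : G) ∈ X := X.mul_mem (X.inv_mem g₀.2) g.2
          have e : (g₀ : G) * ((g₀ : G)⁻¹ * (g : G)) = g := by group
          rcases hd _ hu with h | h
          · exfalso
            apply hcov g hg
            have h1 := congrArg (cj (g₀ : G)) h
            rw [cj_cj, e] at h1
            exact h1
          · have h1 := cj_mono (g := (g₀ : G)) h
            rw [cj_cj, e] at h1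
            exact h1
        have hcomm : ∀ a ∈ cj (g₀ : G) W₁, ∀ b ∈ I.sup (fun g : ↥X => cj (g : G) W₁),
            a * b = b * a := by
          intro a ha b hb
          exact hVc a (hcjV _ g₀.2 W₁ hW₁V ha) b (hcjV _ g₀.2 U hUV (hIle hb))
        obtain ⟨a, ha, b, hb, rfl⟩ := mem_sup_of_comm hcomm hc
        have hbU := hIle hb
        have haU : a ∈ cj (g₀ : G) U := by
          have h1 := hcU g₀ (Finset.mem_insert_self _ _)
          have h2 : a = (a * b) * b⁻¹ := by group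
          rw [h2]; exact Subgroup.mul_mem _ h1 (Subgroup.inv_mem _ hbU)
        have ha1 : a = 1 := by
          have h1 : a ∈ cj (g₀ : G) (W₁ ⊓ U) := by rw [cj_inf]; exact ⟨ha, haU⟩
          rw [hWU, cj, Subgroup.map_bot, Subgroup.mem_bot] at h1
          exact h1
        rw [ha1, one_mul] at hcU ⊢
        exact ih b hb (fun g hg => hcU g (Finset.mem_insert_of_mem hg))
  rw [eq_bot_iff]
  rintro c ⟨⟨hcO, hcX⟩, hcU⟩
  rw [Subgroup.mem_bot]
  have : Fintype ↥X := Fintype.ofFinite _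
  apply key Finset.univ c
  · rw [Finset.sup_univ_eq_iSup]; exact hcO
  · intro g _
    rw [mem_cj]
    have h1 := Subgroup.mem_centralizer_iff.mp hcX (g : G) g.2
    have h2 : (g : G)⁻¹ * c * g = c := by
      calc (g : G)⁻¹ * c * g = (g : G)⁻¹ * (c * g) := by group
        _ = (g : G)⁻¹ * (g * c) := by rw [h1]
        _ = c := by group
    rw [h2]; exact hcU

theorem diag_sup {q : ℕ} [Fact q.Prime] (V W₁ U X : Subgroup G)
    (hVc : ∀ x ∈ V, ∀ y ∈ V, x * y = y * x)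
    (hW₁V : W₁ ≤ V) (hUV : U ≤ V) (hX : IsPGroup q X)
    (hXV : X ≤ Subgroup.normalizer (V : Set G)) (hq : ¬ q ∣ Nat.card V)
    (hdich : ∀ g ∈ X, g ∈ Subgroup.centralizer (W₁ : Set G) ∨ ∀ y ∈ W₁, g * y * g⁻¹ ∈ U) :
    W₁ ≤ ((⨆ g : ↥X, cj (g : G) W₁) ⊓ Subgroup.centralizer (X : Set G)) ⊔ U := by
  set WO : Subgroup G := ⨆ g : ↥X, cj (g : G) W₁ with hWO
  have hWOV : WO ≤ V := by
    refine iSup_le fun g => ?_
    have := cj_mono (g := (g : G)) hW₁V
    rwa [cj_eq_of_mem_normalizer (hXV g.2)] at this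
  have hXWO : X ≤ Subgroup.normalizer (WO : Set G) := by
    intro x hx
    apply mem_normalizer_of_conj_mem
    intro y hy
    have h1 : x * y * x⁻¹ ∈ cj x WO := conj_mem_cj hy
    have h2 : cj x WO ≤ WO := by
      rw [hWO, cj, Subgroup.map_iSup]
      refine iSup_le fun g => ?_
      have h3 : cj x (cj (g : G) W₁) = cj ((⟨x * g, X.mul_mem hx g.2⟩ : ↥X) : G) W₁ :=
        cj_cj _ _ _
      show cj x (cj (g : G) W₁) ≤ _
      rw [h3]
      exact le_iSup (fun g : ↥X => cj (g : G) W₁) ⟨x * g, X.mul_mem hx g.2⟩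
    exact h2 h1
  have hqWO : ¬ q ∣ Nat.card WO := fun h => hq (h.trans (Subgroup.card_dvd_of_le hWOV))
  have hW₁WO : W₁ ≤ WO := by
    have h1 := le_iSup (fun g : ↥X => cj (g : G) W₁) (1 : ↥X)
    have h2 : cj (((1 : ↥X) : G)) W₁ = W₁ := cj_one W₁
    rw [← h2]; exact h1
  intro w hw
  obtain ⟨c, hc, hcD⟩ := exists_fixed_diag WO W₁ U X hX hXWO hqWO hW₁WO
    (fun h hh d hd => by
      have h1 := hVc h (hWOV hh) d (hUV hd)
      have e : h * d * h⁻¹ = d := by rw [h1]; group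
      rw [e]; exact hd) hdich w hw
  have h1 : w = c * (w⁻¹ * c)⁻¹ := by group
  rw [h1]
  exact Subgroup.mul_mem _ (Subgroup.mem_sup_left hc)
    (Subgroup.mem_sup_right (Subgroup.inv_mem _ hcD))

theorem diag_card (V W₁ U W : Subgroup G) (hVc : ∀ x ∈ V, ∀ y ∈ V, x * y = y * x)
    (hWV : W ≤ V) (hW₁V : W₁ ≤ V) (hUV : U ≤ V)
    (h1 : W₁ ⊓ U = ⊥) (h2 : W₁ ⊔ U = V) (h3 : W ⊓ U = ⊥) (h4 : W₁ ≤ W ⊔ U) :
    Nat.card W = Nat.card W₁ := by
  have hsup : W ⊔ U = V := by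
    apply le_antisymm (sup_le hWV hUV)
    rw [← h2]
    exact sup_le h4 le_sup_right
  have hn : ∀ A : Subgroup G, A ≤ V → A ≤ Subgroup.normalizer (U : Set G) := by
    intro A hA a ha
    apply mem_normalizer_of_conj_mem
    intro u hu
    have h5 := hVc a (hA ha) u (hUV hu)
    have e : a * u * a⁻¹ = u := by rw [h5]; group
    rw [e]; exact hu
  have e1 := card_sup_mul_card_inf (hn W hWV)
  have e2 := card_sup_mul_card_inf (hn W₁ hW₁V)
  rw [hsup, h3] at e1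
  rw [h2, h1] at e2
  have hpos : 0 < Nat.card U := Nat.card_pos
  have h5 : Nat.card W * Nat.card U = Nat.card W₁ * Nat.card U := by rw [← e1, ← e2]
  exact Nat.eq_of_mul_eq_mul_right hpos h5

omit [Finite G] in
/-- the projection of a subgroup `D₀ ≤ E × D` onto `E`. -/
theorem exists_projHom (E D D₀ : Subgroup G) (hcomm : ∀ e ∈ E, ∀ d ∈ D, e * d = d * e)
    (hED : E ⊓ D = ⊥) (hD₀ : ∀ c ∈ D₀, ∃ e ∈ E, e⁻¹ * c ∈ D) :
    ∃ ψ : ↥D₀ →* ↥E, ∀ (c : ↥D₀) (e : ↥E), ψ c = e ↔ (e : G)⁻¹ * (c : G) ∈ D := by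
  classical
  have huniq : ∀ c : G, ∀ e ∈ E, ∀ e' ∈ E, e⁻¹ * c ∈ D → e'⁻¹ * c ∈ D → e = e' := by
    intro c e he e' he' h h'
    have h1 : e'⁻¹ * e ∈ E ⊓ D := ⟨E.mul_mem (E.inv_mem he') he, by
      have h2 : e'⁻¹ * e = (e'⁻¹ * c) * (e⁻¹ * c)⁻¹ := by group
      rw [h2]; exact D.mul_mem h' (D.inv_mem h)⟩
    rw [hED, Subgroup.mem_bot] at h1
    exact (inv_mul_eq_one.mp h1).symm
  choose f hfE hfD using hD₀
  let ψ : ↥D₀ →* ↥E := MonoidHom.mk' (fun c => ⟨f c.1 c.2, hfE c.1 c.2⟩) (by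
    intro c₁ c₂
    apply Subtype.ext
    apply huniq (c₁.1 * c₂.1) _ (hfE _ (D₀.mul_mem c₁.2 c₂.2)) _
      (E.mul_mem (hfE _ c₁.2) (hfE _ c₂.2)) (hfD _ (D₀.mul_mem c₁.2 c₂.2))
    have hd₁ := hfD c₁.1 c₁.2
    have hd₂ := hfD c₂.1 c₂.2
    have hc := hcomm _ (E.inv_mem (hfE c₂.1 c₂.2)) _ hd₁
    have h2 : (f c₁.1 c₁.2 * f c₂.1 c₂.2)⁻¹ * (c₁.1 * c₂.1) =
        ((f c₁.1 c₁.2)⁻¹ * c₁.1) * ((f c₂.1 c₂.2)⁻¹ * c₂.1) := by
      calc (f c₁.1 c₁.2 * f c₂.1 c₂.2)⁻¹ * (c₁.1 * c₂.1)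
          = ((f c₂.1 c₂.2)⁻¹ * ((f c₁.1 c₁.2)⁻¹ * c₁.1)) * c₂.1 := by group
        _ = (((f c₁.1 c₁.2)⁻¹ * c₁.1) * (f c₂.1 c₂.2)⁻¹) * c₂.1 := by rw [hc]
        _ = ((f c₁.1 c₁.2)⁻¹ * c₁.1) * ((f c₂.1 c₂.2)⁻¹ * c₂.1) := by group
    show (f c₁.1 c₁.2 * f c₂.1 c₂.2)⁻¹ * (c₁.1 * c₂.1) ∈ D
    rw [h2]; exact D.mul_mem hd₁ hd₂)
  refine ⟨ψ, fun c e => ⟨?_, ?_⟩⟩
  · intro h
    rw [← h]; exact hfD c.1 c.2
  · intro h
    apply Subtype.ext
    exact huniq c.1 _ (hfE c.1 c.2) _ e.2 (hfD c.1 c.2) h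

end diagc

end Cfsg.Agent.Lib.Helper42
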