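import Cfsg.Agent.Lib.Helper42.Sec34
import Cfsg.Agent.Lib.Helper42.Sec36

/-!
# Fixed points of a coprime operator group on an FF-module involve `SL(2, p)` (helper42)

`ff_operator_sl2`: in the situation of `ff_operator`, there is a plane `W ≤ C_V(X)` of order `p²`
normalized by `C_H(X)`, on which `C_H(X)` induces `SL(2, p)`.
-/

set_option autoImplicit false
open scoped commutatorElement

namespace Cfsg.Agent.Lib.Helper42

open Cfsg Cfsg.Agent.Lib.Helper14

universe u

section ffsl

variable {G : Type u} [Group G] [Finite G]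

/-- A `q`-group (`q ≥ 5`) normalizing `V` and a component `E` centralizes the plane `[V, E]`. -/
theorem stab_centralizes_W {p q : ℕ} [Fact p.Prime] [Fact q.Prime] {V E Q : Subgroup G}
    (hp : p = 2 ∨ p = 3) (hq2 : q ≠ 2) (hq3 : q ≠ 3)
    (h3 : Nat.card ↥(⁅V, E⁆) = p ^ 2)
    (hQ : IsPGroup q Q) (hQV : Q ≤ Subgroup.normalizer (V : Set G))
    (hQE : Q ≤ Subgroup.normalizer (E : Set G)) :
    ⁅V, E⁆ ≤ Subgroup.centralizer (Q : Set G) := by
  have hqp : q.Prime := Fact.out
  have hpp : p.Prime := Fact.out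
  set W : Subgroup G := ⁅V, E⁆ with hW
  have hQW : Q ≤ Subgroup.normalizer (W : Set G) := by
    intro x hx
    rw [← cj_eq_self_iff, hW, cj_commutator, cj_eq_of_mem_normalizer (hQV hx),
      cj_eq_of_mem_normalizer (hQE hx)]
  have hmod := Cfsg.Agent.Lib.Helper66.card_modEq_card_inter_centralizer hQ (W : Set G)
    (fun x hx w hw => (Subgroup.mem_normalizer_iff.mp (hQW hx) w).mp hw)
  have e1 : Nat.card ((W : Set G)) = p ^ 2 := h3
  have e2 : Nat.card ((W : Set G) ∩ (Subgroup.centralizer (Q : Set G) : Set G) : Set G)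
      = Nat.card (W ⊓ Subgroup.centralizer (Q : Set G) : Subgroup G) := rfl
  rw [e1, e2] at hmod
  have hdvd : Nat.card (W ⊓ Subgroup.centralizer (Q : Set G) : Subgroup G) ∣ p ^ 2 := by
    rw [← h3]
    exact Subgroup.card_dvd_of_le inf_le_left
  obtain ⟨j, hj, hjeq⟩ := (Nat.dvd_prime_pow hpp).mp hdvd
  rw [hjeq] at hmod
  have hj2 : j = 2 := by
    by_contra hne
    have hjlt : j < 2 := lt_of_le_of_ne hj hne
    have hle : p ^ j ≤ p ^ 2 := Nat.pow_le_pow_right hpp.pos hj
    have hdiv : q ∣ p ^ 2 - p ^ j := (Nat.modEq_iff_dvd' hle).mp hmod.symm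
    rcases hp with rfl | rfl
    · interval_cases j
      · have h' : q ∣ 3 := by
          norm_num at hdiv
          exact hdiv
        exact hq3 ((Nat.prime_dvd_prime_iff_eq hqp Nat.prime_three).mp h')
      · have h' : q ∣ 2 := by
          norm_num at hdiv
          exact hdiv
        exact hq2 ((Nat.prime_dvd_prime_iff_eq hqp Nat.prime_two).mp h')
    · interval_cases j
      · have h' : q ∣ 8 := by
          norm_num at hdiv
          exact hdiv
        have h'' : q ∣ 2 ^ 3 := by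
          norm_num
          exact h'
        exact hq2 ((Nat.prime_dvd_prime_iff_eq hqp Nat.prime_two).mp (hqp.dvd_of_dvd_pow h''))
      · have h' : q ∣ 6 := by
          norm_num at hdiv
          exact hdiv
        have h'' : q ∣ 2 * 3 := by
          norm_num
          exact h'
        rcases (hqp.dvd_mul).mp h'' with h | h
        · exact hq2 ((Nat.prime_dvd_prime_iff_eq hqp Nat.prime_two).mp h)
        · exact hq3 ((Nat.prime_dvd_prime_iff_eq hqp Nat.prime_three).mp h)
  rw [hj2, ← h3] at hjeq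
  have := subgroup_eq_of_le_of_card_le (inf_le_left :
    W ⊓ Subgroup.centralizer (Q : Set G) ≤ W) hjeq.ge
  rw [← this]; exact inf_le_right

/-- **Fixed points on an FF-module involve `SL(2,p)`.** -/
theorem ff_operator_sl2 {p q : ℕ} [Fact p.Prime] [Fact q.Prime]
    (V H : Subgroup G) (hV : IsElementaryAbelian p V)
    (hHV : H ≤ Subgroup.normalizer (V : Set G))
    (hf : H ⊓ Subgroup.centralizer (V : Set G) = ⊥)
    (hS1 : Subgroup.centralizer (pPrimeCore p ↥H : Set ↥H) ≤ pPrimeCore p ↥H)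
    (hS3 : H = ⨆ A : {A : Subgroup G // A ≤ H ∧ IsBestOffenderOn p V A}, (A : Subgroup G))
    (hH1 : H ≠ ⊥)
    (X : Subgroup G) (hXq : IsPGroup q X) (hXV : X ≤ Subgroup.normalizer (V : Set G))
    (hXH : X ≤ Subgroup.normalizer (H : Set G)) (hqH : ¬ q ∣ Nat.card H)
    (hqV : ¬ q ∣ Nat.card V) :
    (p = 2 ∨ p = 3) ∧ ∃ W : Subgroup G, W ≤ V ∧ W ≤ Subgroup.centralizer (X : Set G) ∧
      Nat.card W = p ^ 2 ∧
      H ⊓ Subgroup.centralizer (X : Set G) ≤ Subgroup.normalizer (W : Set G) ∧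
      ∃ ψ : ↥(H ⊓ Subgroup.centralizer (X : Set G)) →*
          Matrix.SpecialLinearGroup (Fin 2) (ZMod p),
        Function.Surjective ψ ∧ ∀ c : ↥(H ⊓ Subgroup.centralizer (X : Set G)),
          ψ c = 1 ↔ (c : G) ∈ Subgroup.centralizer (W : Set G) := by
  have S := FFSetup.of_hyp V H hV hHV hf hS1
  obtain ⟨hp23, -, -, hsup, -, -⟩ := ff_structure V H hV hHV hf hS1 hS3 hH1
  refine ⟨hp23, ?_⟩
  obtain ⟨E₁⟩ : Nonempty {E : Subgroup G // IsMinComp p V H E} := by
    by_contra hemp
    rw [not_nonempty_iff] at hemp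
    apply hH1
    rw [← hsup, iSup_of_empty]
  obtain ⟨_, A, hAH, hA, hAV, hmin, rfl⟩ := E₁
  have hc := isFFComp_of_min V H hV hHV hf hS1 hS3 hAH hA hAV hmin
  obtain ⟨a, -, -, -, -, hcardA⟩ := S.bo_min_card' hAH hA hAV hmin
  set M := (pPrimeCore p ↥H).map H.subtype with hM
  set E := ⁅M, A⁆ ⊔ A with hE
  set D := H ⊓ Subgroup.centralizer ((⁅V, E⁆ : Subgroup G) : Set G) with hD
  have hEH : E ≤ H := hc.le_H
  have hEV : E ≤ Subgroup.normalizer (V : Set G) := hEH.trans hHV
  obtain ⟨iso⟩ := hc.h2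
  have hcardE : Nat.card E = Nat.card (Matrix.SpecialLinearGroup (Fin 2) (ZMod p)) :=
    Nat.card_congr iso.toEquiv
  obtain ⟨h2d, h3d⟩ := two_three_dvd_card_SL2 hp23
  have hEdvd : Nat.card E ∣ Nat.card H := Subgroup.card_dvd_of_le hEH
  have hq2 : q ≠ 2 := by
    rintro rfl
    rw [← hcardE] at h2d
    exact hqH (h2d.trans hEdvd)
  have hq3 : q ≠ 3 := by
    rintro rfl
    rw [← hcardE] at h3d
    exact hqH (h3d.trans hEdvd)
  have hdich : ∀ g ∈ X, g ∈ Subgroup.centralizer (E : Set G) ∨ ∀ y ∈ E, g * y * g⁻¹ ∈ D := by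
    intro g hg
    have hgV := hXV hg
    have hgH := hXH hg
    have hA'H : cj g A ≤ H := by
      have := cj_mono (g := g) hAH
      rwa [cj_eq_of_mem_normalizer hgH] at this
    have hA' : IsBestOffenderOn p V (cj g A) := bo_cj hA hgV
    have hcard' : Nat.card (cj g A) = p := by rw [card_cj]; exact hcardA
    have hcjE : cj g E = ⁅M, cj g A⁆ ⊔ cj g A := by
      have h1 : cj g E = cj g ⁅M, A⁆ ⊔ cj g A := Subgroup.map_sup _ _ _
      rw [h1, cj_commutator, hM, cj_pPrimeCore_map hgH]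
    rcases hc.comp_le S.hMH hA'H hA' hcard' with h | h
    · left
      have hle : cj g E ≤ E := by rw [hcjE]; exact h
      have heq : cj g E = E := subgroup_eq_of_le_of_card_le hle (by rw [card_cj])
      have hgE : g ∈ Subgroup.normalizer (E : Set G) := cj_eq_self_iff.mp heq
      have hQ : X ⊓ Subgroup.normalizer (E : Set G) ≤ Subgroup.centralizer (E : Set G) :=
        stab_centralizes hp23 hq2 hq3 hHV hf hEH hc.h3 hc.h5 (hXq.to_le inf_le_left)
          (inf_le_left.trans hXV) inf_le_right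
      exact hQ ⟨hg, hgE⟩
    · right
      intro y hy
      have h1 : g * y * g⁻¹ ∈ cj g E := conj_mem_cj hy
      rw [hcjE] at h1
      exact h h1
  have hdiag : ∀ e ∈ E, ∃ c ∈ H ⊓ Subgroup.centralizer (X : Set G), e⁻¹ * c ∈ D :=
    fun e he => exists_fixed_diag H E D X hXq hXH hqH hEH
      (fun h hh d hd => conj_mem_of_normalizer hd (hc.normalC hh)) hdich e he
  have hsupE : ∀ h ∈ H, ∃ e ∈ E, ∃ d ∈ D, h = e * d := by
    intro h hh
    have hh' : h ∈ E ⊔ D := by rw [hc.h8]; exact hh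
    exact mem_sup_of_comm hc.comm hh'
  -- the module side
  set W₁ : Subgroup G := ⁅V, E⁆ with hW₁
  set U : Subgroup G := V ⊓ Subgroup.centralizer (E : Set G) with hU
  have hW₁V : W₁ ≤ V := comm_le_of_normalizer hEV
  have hUV : U ≤ V := inf_le_left
  have hWQ : W₁ ≤ Subgroup.centralizer ((X ⊓ Subgroup.normalizer (E : Set G) : Subgroup G) : Set G) :=
    stab_centralizes_W hp23 hq2 hq3 hc.h3 (hXq.to_le inf_le_left)
      (inf_le_left.trans hXV) inf_le_right
  have hdW : ∀ g ∈ X, g ∈ Subgroup.centralizer (W₁ : Set G) ∨ ∀ y ∈ W₁, g * y * g⁻¹ ∈ U := by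
    intro g hg
    rcases hdich g⁻¹ (X.inv_mem hg) with h | h
    · left
      have hgc : g ∈ Subgroup.centralizer (E : Set G) := by
        have := Subgroup.inv_mem _ h
        rwa [inv_inv] at this
      have hgn : g ∈ Subgroup.normalizer (E : Set G) :=
        Subgroup.centralizer_le_normalizer _ hgc
      have hgQ : g ∈ X ⊓ Subgroup.normalizer (E : Set G) := ⟨hg, hgn⟩
      rw [Subgroup.mem_centralizer_iff]
      intro w hw
      exact (Subgroup.mem_centralizer_iff.mp (hWQ hw) g hgQ).symm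
    · right
      intro w hw
      refine ⟨conj_mem_of_normalizer (hW₁V hw) (hXV hg), ?_⟩
      show g * w * g⁻¹ ∈ Subgroup.centralizer (E : Set G)
      rw [Subgroup.mem_centralizer_iff]
      intro e he
      have h1 := (h e he).2
      rw [inv_inv] at h1
      have h2 := Subgroup.mem_centralizer_iff.mp h1 w hw
      calc e * (g * w * g⁻¹) = g * ((g⁻¹ * e * g) * w) * g⁻¹ := by group
        _ = g * (w * (g⁻¹ * e * g)) * g⁻¹ := by rw [h2]
        _ = g * w * g⁻¹ * e := by group
  set WO : Subgroup G := ⨆ g : ↥X, cj (g : G) W₁ with hWO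
  set W : Subgroup G := WO ⊓ Subgroup.centralizer (X : Set G) with hW
  have hWOV : WO ≤ V := by
    refine iSup_le fun g => ?_
    have := cj_mono (g := (g : G)) hW₁V
    rwa [cj_eq_of_mem_normalizer (hXV g.2)] at this
  have hWV : W ≤ V := inf_le_left.trans hWOV
  have h3' : W ⊓ U = ⊥ := diag_inf_bot V W₁ U X S.hVc hW₁V hUV hXV hc.h4 hdW
  have h4' : W₁ ≤ W ⊔ U := diag_sup V W₁ U X S.hVc hW₁V hUV hXq hXV hqV hdW
  have hcardW : Nat.card W = p ^ 2 :=
    (diag_card V W₁ U W S.hVc hWV hW₁V hUV hc.h4 hc.h5 h3' h4').trans hc.h3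
  -- H normalizes WO
  have hHWO : ∀ c ∈ H, ∀ w ∈ WO, c * w * c⁻¹ ∈ WO := by
    intro c hcH w hw
    have h1 : c * w * c⁻¹ ∈ cj c WO := conj_mem_cj hw
    have h2 : cj c WO ≤ WO := by
      rw [hWO, cj, Subgroup.map_iSup]
      refine iSup_le fun g => ?_
      refine le_trans (le_of_eq ?_) (le_iSup (fun g : ↥X => cj (g : G) W₁) g)
      show cj c (cj (g : G) W₁) = cj (g : G) W₁
      have hgH := hXH g.2
      have hgV := hXV g.2
      have e1 : cj (g : G) W₁ = ⁅V, cj (g : G) E⁆ := (comm_cj hgV).symm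
      have hcn : c ∈ Subgroup.normalizer ((cj (g : G) E : Subgroup G) : Set G) := by
        rw [normalizer_cj, mem_cj]
        exact hc.normal ((Subgroup.mem_normalizer_iff.mp (Subgroup.inv_mem _ hgH) c).mp hcH
          |> fun h => by simpa using h)
      rw [e1, cj_commutator, cj_eq_of_mem_normalizer (hHV hcH), cj_eq_of_mem_normalizer hcn]
    exact h2 h1
  have hDW : H ⊓ Subgroup.centralizer (X : Set G) ≤ Subgroup.normalizer (W : Set G) := by
    apply le_normalizer_of_conj_mem
    rintro c ⟨hcH, hcX⟩ w ⟨hwO, hwX⟩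
    exact ⟨hHWO c hcH w hwO,
      Subgroup.mul_mem _ (Subgroup.mul_mem _ hcX hwX) (Subgroup.inv_mem _ hcX)⟩
  -- the projection
  obtain ⟨ψ₀, hψ₀⟩ := exists_projHom E D (H ⊓ Subgroup.centralizer (X : Set G)) hc.comm hc.h7
    (fun c hcm => by
      obtain ⟨e, he, d, hd, rfl⟩ := hsupE c hcm.1
      refine ⟨e, he, ?_⟩
      have : e⁻¹ * (e * d) = d := by group
      rw [this]; exact hd)
  refine ⟨W, hWV, inf_le_right, hcardW, hDW, iso.toMonoidHom.comp ψ₀, ?_, ?_⟩
  · intro s
    obtain ⟨c, hcm, hcD⟩ := hdiag (iso.symm s : G) (iso.symm s).2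
    refine ⟨⟨c, hcm⟩, ?_⟩
    have h1 : ψ₀ ⟨c, hcm⟩ = iso.symm s := (hψ₀ ⟨c, hcm⟩ (iso.symm s)).mpr hcD
    show iso (ψ₀ ⟨c, hcm⟩) = s
    rw [h1, MulEquiv.apply_symm_apply]
  · intro c
    have hcH : (c : G) ∈ H := c.2.1
    have hcX : (c : G) ∈ Subgroup.centralizer (X : Set G) := c.2.2
    have hiff : (iso.toMonoidHom.comp ψ₀) c = 1 ↔ (c : G) ∈ D := by
      have h1 : (iso.toMonoidHom.comp ψ₀) c = 1 ↔ ψ₀ c = 1 := by
        show iso (ψ₀ c) = 1 ↔ ψ₀ c = 1
        rw [MulEquiv.map_eq_one_iff]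
      rw [h1, hψ₀ c 1]
      have : ((1 : ↥E) : G)⁻¹ * (c : G) = c := by simp
      rw [this]
    rw [hiff]
    constructor
    · intro hcD
      -- c centralizes every conjugate of W₁
      have hle : WO ≤ Subgroup.centralizer ({(c : G)} : Set G) := by
        refine iSup_le fun g => ?_
        rintro _ ⟨w, hw, rfl⟩
        rw [Subgroup.mem_centralizer_iff]
        intro z hz
        rw [Set.mem_singleton_iff] at hz
        subst hz
        have h1 : (g : G) * (c : G) = (c : G) * g :=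
          Subgroup.mem_centralizer_iff.mp hcX g g.2
        have h2 : w * (c : G) = (c : G) * w := Subgroup.mem_centralizer_iff.mp hcD.2 w hw
        show (c : G) * ((g : G) * w * (g : G)⁻¹) = (g : G) * w * (g : G)⁻¹ * (c : G)
        calc (c : G) * ((g : G) * w * (g : G)⁻¹) = ((c : G) * g) * w * (g : G)⁻¹ := by group
          _ = (g : G) * ((c : G) * w) * (g : G)⁻¹ := by rw [← h1]; group
          _ = (g : G) * (w * (c : G)) * (g : G)⁻¹ := by rw [h2]
          _ = (g : G) * w * ((g : G)⁻¹ * ((g : G) * (c : G)) * (g : G)⁻¹) := by group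
          _ = (g : G) * w * ((g : G)⁻¹ * ((c : G) * g) * (g : G)⁻¹) := by rw [h1]
          _ = (g : G) * w * (g : G)⁻¹ * (c : G) := by group
      rw [Subgroup.mem_centralizer_iff]
      intro w hw
      exact (Subgroup.mem_centralizer_iff.mp (hle hw.1) _ rfl).symm
    · intro hcW
      obtain ⟨e, he, d, hd, hced⟩ := hsupE (c : G) hcH
      -- e centralizes W₁
      have heW : ∀ w ∈ W₁, e * w * e⁻¹ = w := by
        intro w hw
        have hcomm2 : ∀ a ∈ W, ∀ b ∈ U, a * b = b * a :=
          fun a ha b hb => S.hVc a (hWV ha) b (hUV hb)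
        obtain ⟨cw, hcw, u, hu, hwe⟩ := mem_sup_of_comm hcomm2 (h4' hw)
        have h1 : cw * (c : G) = (c : G) * cw := Subgroup.mem_centralizer_iff.mp hcW cw hcw
        have hdw : w * d = d * w := Subgroup.mem_centralizer_iff.mp hd.2 w hw
        have hconj : (c : G) * w * (c : G)⁻¹ = e * w * e⁻¹ := by
          rw [hced]
          calc e * d * w * (e * d)⁻¹ = e * (d * w) * d⁻¹ * e⁻¹ := by group
            _ = e * (w * d) * d⁻¹ * e⁻¹ := by rw [hdw]
            _ = e * w * e⁻¹ := by group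
        have hu' : (c : G) * u * (c : G)⁻¹ ∈ U := by
          refine ⟨conj_mem_of_normalizer hu.1 (hHV hcH), ?_⟩
          have hcn : (c : G) ∈ Subgroup.normalizer (E : Set G) := hc.normal hcH
          have h2 : (c : G) * u * (c : G)⁻¹ ∈ cj (c : G) (Subgroup.centralizer (E : Set G)) :=
            conj_mem_cj hu.2
          rwa [← centralizer_cj, cj_eq_of_mem_normalizer hcn] at h2
        have hew : e * w * e⁻¹ ∈ W₁ :=
          conj_mem_of_normalizer hw (normalizer_comm hEV he)
        -- w⁻¹ * (e w e⁻¹) = u⁻¹ * (c u c⁻¹)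
        have h3 : w⁻¹ * (e * w * e⁻¹) = u⁻¹ * ((c : G) * u * (c : G)⁻¹) := by
          rw [← hconj, hwe]
          have huc : u * cw = cw * u := (hcomm2 cw hcw u hu).symm
          calc (cw * u)⁻¹ * ((c : G) * (cw * u) * (c : G)⁻¹)
              = u⁻¹ * cw⁻¹ * (((c : G) * cw) * u * (c : G)⁻¹) := by group
            _ = u⁻¹ * cw⁻¹ * ((cw * (c : G)) * u * (c : G)⁻¹) := by rw [h1]
            _ = u⁻¹ * ((c : G) * u * (c : G)⁻¹) := by group
        have h4 : w⁻¹ * (e * w * e⁻¹) ∈ W₁ ⊓ U :=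
          ⟨W₁.mul_mem (W₁.inv_mem hw) hew, by rw [h3]; exact U.mul_mem (U.inv_mem hu) hu'⟩
        rw [hc.h4, Subgroup.mem_bot] at h4
        exact (inv_mul_eq_one.mp h4).symm
      have heV : e ∈ Subgroup.centralizer (V : Set G) := by
        have hW₁c : W₁ ≤ Subgroup.centralizer ({e} : Set G) := by
          intro w hw
          rw [Subgroup.mem_centralizer_iff]
          intro z hz
          rw [Set.mem_singleton_iff] at hz
          subst hz
          have := heW w hw
          calc z * w = (z * w * z⁻¹) * z := by group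
            _ = w * z := by rw [this]
        have hUc : U ≤ Subgroup.centralizer ({e} : Set G) := by
          rintro u ⟨-, hu⟩
          rw [Subgroup.mem_centralizer_iff]
          intro z hz
          rw [Set.mem_singleton_iff] at hz
          subst hz
          exact Subgroup.mem_centralizer_iff.mp hu z he
        have hVc' : V ≤ Subgroup.centralizer ({e} : Set G) := by
          rw [← hc.h5]
          exact sup_le hW₁c hUc
        rw [Subgroup.mem_centralizer_iff]
        intro v hv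
        exact (Subgroup.mem_centralizer_iff.mp (hVc' hv) _ rfl).symm
      have he1 : e = 1 := by
        have h1 : e ∈ H ⊓ Subgroup.centralizer (V : Set G) := ⟨hEH he, heV⟩
        rw [hf, Subgroup.mem_bot] at h1
        exact h1
      rw [hced, he1, one_mul]
      exact hd

end ffsl

end Cfsg.Agent.Lib.Helper42
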