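import Cfsg.Agent.Lib.Helper42.Sec35
import Cfsg.Agent.Lib.Helper42.Sec37

/-!
# Coprime operators: fixed points involve `SL(2, p)` when Thompson factorization fails (helper42)

`thompson_operator_sl2`: `K` a `p`-solvable group with `O_{p'}(K) = 1`, not Thompson
factorizable, `𝒬` a `q`-group of automorphisms with `q ∤ |K|`.  Then `p ∈ {2, 3}` and the fixed
points of `𝒬` contain a plane `W` of order `p²` and a subgroup `D` normalizing `W` and inducing
`SL(2, p)` on it.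
-/

set_option autoImplicit false
open scoped commutatorElement

namespace Cfsg.Agent.Lib.Helper42

open Cfsg Cfsg.Agent.Lib.Helper14

universe u

theorem thompson_operator_sl2 {𝔎 : Type u} [Group 𝔎] [Finite 𝔎] {p q : ℕ} [Fact p.Prime]
    [Fact q.Prime] (hsep : IsPSolvable p 𝔎) (hO : pPrimeCore p 𝔎 = ⊥)
    (hnf : ¬ IsThompsonFactorizable p 𝔎)
    (𝒬 : Subgroup (MulAut 𝔎)) (h𝒬 : IsPGroup q 𝒬) (hq : ¬ q ∣ Nat.card 𝔎) :
    (p = 2 ∨ p = 3) ∧ ∃ W D : Subgroup 𝔎,
      (∀ w ∈ W, ∀ φ ∈ 𝒬, φ w = w) ∧ (∀ d ∈ D, ∀ φ ∈ 𝒬, φ d = d) ∧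
      IsElementaryAbelian p W ∧ Nat.card W = p ^ 2 ∧
      D ≤ Subgroup.normalizer (W : Set 𝔎) ∧
      ∃ ψ : ↥D →* Matrix.SpecialLinearGroup (Fin 2) (ZMod p), Function.Surjective ψ ∧
        ∀ d : ↥D, ψ d = 1 ↔ (d : 𝔎) ∈ Subgroup.centralizer (W : Set 𝔎) := by
  have hc : Subgroup.centralizer (pCore p 𝔎 : Set 𝔎) ≤ pCore p 𝔎 :=
    Cfsg.Agent.Lib.Helper40.centralizer_pCore_le hsep hO
  obtain ⟨hVn, hVea, -⟩ := Cfsg.Agent.S0601.result (G := 𝔎) (p := p) hc
  have hVchar : ∀ φ : MulAut 𝔎, ∀ v ∈ (⨆ S : Sylow p 𝔎, omegaOne p ((S : Subgroup 𝔎) ⊓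
      Subgroup.centralizer ((S : Subgroup 𝔎) : Set 𝔎))), φ v ∈ (⨆ S : Sylow p 𝔎,
        omegaOne p ((S : Subgroup 𝔎) ⊓ Subgroup.centralizer ((S : Subgroup 𝔎) : Set 𝔎))) :=
    fun φ => iSup_omegaZ_aut φ
  set V : Subgroup 𝔎 := ⨆ S : Sylow p 𝔎,
    omegaOne p ((S : Subgroup 𝔎) ⊓ Subgroup.centralizer ((S : Subgroup 𝔎) : Set 𝔎)) with hV
  have : V.Normal := hVn
  set C := Subgroup.centralizer (V : Set 𝔎) with hC
  set J := thompsonSubgroup p 𝔎 with hJ
  have hJchar : J.Characteristic := (Cfsg.Agent.S0602.result (G := 𝔎) (p := p)).1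
  have hJn : J.Normal := Subgroup.normal_of_characteristic J
  have hgen : V = ⨆ S : Sylow p 𝔎, V ⊓ Subgroup.centralizer ((S : Subgroup 𝔎) : Set 𝔎) := by
    apply le_antisymm
    · rw [hV]
      refine iSup_le fun S => ?_
      refine le_trans ?_ (le_iSup (fun S : Sylow p 𝔎 =>
        V ⊓ Subgroup.centralizer ((S : Subgroup 𝔎) : Set 𝔎)) S)
      refine le_inf (le_iSup (fun S : Sylow p 𝔎 => omegaOne p ((S : Subgroup 𝔎) ⊓
        Subgroup.centralizer ((S : Subgroup 𝔎) : Set 𝔎))) S) ?_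
      exact (omegaOne_le _).trans inf_le_right
    · exact iSup_le fun S => inf_le_left
  have hOq : pCore p (𝔎 ⧸ C) = ⊥ := Cfsg.Agent.S0600.result V hVea hgen
  have hJC : ¬ J ≤ C := by
    intro h
    exact hnf ((Cfsg.Agent.S0608.result hO).mpr h)
  set τ := holoHom V with hτ
  set ℍ : Subgroup (Holo V) := J.map τ with hℍ
  have hCker : C = τ.ker := by rw [hC, holoHom_ker]
  have hHV : ℍ ≤ Subgroup.normalizer (holoV V : Set (Holo V)) := by
    rw [Subgroup.normalizer_eq_top_iff.mpr (holoV_normal V)]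
    exact le_top
  have hf : ℍ ⊓ Subgroup.centralizer (holoV V : Set (Holo V)) = ⊥ := by
    rw [eq_bot_iff, ← holo_faithful V]
    exact inf_le_inf_right _ (Subgroup.map_le_range _ _)
  have hsol : IsPSolvable p ↥ℍ :=
    isPSolvable_map (τ.subgroupMap J) (τ.subgroupMap_surjective J) (isPSolvable_subgroup hsep J)
  have hS1 : Subgroup.centralizer (pPrimeCore p ↥ℍ : Set ↥ℍ) ≤ pPrimeCore p ↥ℍ :=
    centralizer_pPrimeCore_le hsol (Cfsg.Agent.S0618.pCore_map_thompson V hOq)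
  have hS3 : ℍ = ⨆ A : {A : Subgroup (Holo V) // A ≤ ℍ ∧ IsBestOffenderOn p (holoV V) A},
      (A : Subgroup (Holo V)) := by
    apply le_antisymm
    · rw [hℍ, Subgroup.map_le_iff_le_comap, hJ]
      unfold thompsonSubgroup
      apply sSup_le
      intro A hA
      rw [← Subgroup.map_le_iff_le_comap]
      exact le_iSup (fun A : {A : Subgroup (Holo V) // A ≤ ℍ ∧
        IsBestOffenderOn p (holoV V) A} => (A : Subgroup (Holo V)))
        ⟨A.map τ, Subgroup.map_mono (le_sSup hA),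
          holo_bo V A (Cfsg.Agent.S0606.result V hVea A hA)⟩
    · exact iSup_le fun A => A.2.1
  have hH1 : ℍ ≠ ⊥ := by
    intro h
    apply hJC
    intro x hx
    have h1 : τ x ∈ ℍ := ⟨x, hx, rfl⟩
    rw [h, Subgroup.mem_bot] at h1
    rw [hC, ← holoHom_ker V]
    exact h1
  -- the operator group inside the holomorph
  set ρ : MulAut 𝔎 →* Holo V :=
    (SemidirectProduct.inr : MulAut ↥V →* Holo V).comp (restrAut V hVchar) with hρ
  have hrel : ∀ (φ : MulAut 𝔎) (k : 𝔎), τ (φ k) = ρ φ * τ k * (ρ φ)⁻¹ := by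
    intro φ k
    show SemidirectProduct.inr (MulAut.conjNormal (φ k)) =
      SemidirectProduct.inr (restrAut V hVchar φ) * SemidirectProduct.inr (MulAut.conjNormal k) *
        (SemidirectProduct.inr (restrAut V hVchar φ))⁻¹
    rw [← map_inv, ← map_mul, ← map_mul]
    congr 1
    ext v
    show φ k * (v : 𝔎) * (φ k)⁻¹ = φ (k * φ⁻¹ (v : 𝔎) * k⁻¹)
    simp
  set X' : Subgroup (Holo V) := 𝒬.map ρ with hX'
  have hX'q : IsPGroup q X' := h𝒬.map ρ
  have hX'V : X' ≤ Subgroup.normalizer (holoV V : Set (Holo V)) := by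
    rw [Subgroup.normalizer_eq_top_iff.mpr (holoV_normal V)]
    exact le_top
  have hφJ : ∀ φ : MulAut 𝔎, ∀ j ∈ J, φ j ∈ J := by
    intro φ j hj
    have h1 : j ∈ J.comap φ.toMonoidHom := by rw [hJchar.fixed φ]; exact hj
    exact h1
  have hX'H : X' ≤ Subgroup.normalizer (ℍ : Set (Holo V)) := by
    rintro _ ⟨φ, -, rfl⟩
    apply mem_normalizer_of_conj_mem
    rintro _ ⟨j, hj, rfl⟩
    rw [← hrel]
    exact ⟨φ j, hφJ φ j hj, rfl⟩
  have hqH : ¬ q ∣ Nat.card ℍ := by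
    intro h
    apply hq
    have h1 := holo_card_map V J
    have h2 : Nat.card ℍ ∣ Nat.card J := Dvd.intro _ h1
    exact h.trans (h2.trans (Subgroup.card_subgroup_dvd_card J))
  have hqV : ¬ q ∣ Nat.card ↥(holoV V) := by
    rw [holoV_card]
    intro h
    exact hq (h.trans (Subgroup.card_subgroup_dvd_card V))
  obtain ⟨hp23, W', hW'V, hW'X, hW'card, hW'n, ψ', hψ's, hψ'k⟩ :=
    ff_operator_sl2 (holoV V) ℍ (holoV_ea V hVea) hHV hf hS1 hS3 hH1 X' hX'q hX'V hX'H hqH hqV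
  refine ⟨hp23, ?_⟩
  -- the fixed points
  let F : Subgroup 𝔎 :=
    { carrier := {k | ∀ φ ∈ 𝒬, φ k = k}
      mul_mem' := by
        intro a b ha hb φ hφ
        rw [map_mul, ha φ hφ, hb φ hφ]
      one_mem' := fun φ _ => map_one φ
      inv_mem' := by
        intro a ha φ hφ
        rw [map_inv, ha φ hφ] }
  have hF : ∀ k : 𝔎, (∀ φ ∈ 𝒬, φ k = k) → k ∈ F := fun k hk => hk
  -- lifting of fixed points
  have hCchar : ∀ φ : MulAut 𝔎, ∀ c ∈ C, φ c ∈ C := by
    intro φ c hc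
    rw [hC, Subgroup.mem_centralizer_iff]
    intro v hv
    have hv' : φ⁻¹ v ∈ V := hVchar φ⁻¹ v hv
    have h1 := Subgroup.mem_centralizer_iff.mp hc _ hv'
    have h2 : φ (φ⁻¹ v * c) = φ (c * φ⁻¹ v) := by rw [h1]
    simpa using h2
  have hlift' : ℍ ⊓ Subgroup.centralizer (X' : Set (Holo V)) ≤ F.map τ := by
    rintro _ ⟨⟨j, hj, rfl⟩, hcent⟩
    have hjφ : ∀ φ ∈ 𝒬, j⁻¹ * φ j ∈ C := by
      intro φ hφ
      have h1 := Subgroup.mem_centralizer_iff.mp hcent (ρ φ) ⟨φ, hφ, rfl⟩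
      have h2 : τ (φ j) = τ j := by
        rw [hrel, h1]
        group
      rw [hCker, MonoidHom.mem_ker, map_mul, map_inv, h2, inv_mul_cancel]
    let act : MulAction ↥𝒬 {k : 𝔎 // j⁻¹ * k ∈ C} :=
      { smul := fun φ k => ⟨(φ : MulAut 𝔎) k.1, by
          have h1 : j⁻¹ * (φ : MulAut 𝔎) k.1 =
              (j⁻¹ * (φ : MulAut 𝔎) j) * (φ : MulAut 𝔎) (j⁻¹ * k.1) := by
            rw [map_mul, map_inv]; group
          rw [h1]
          exact C.mul_mem (hjφ _ φ.2) (hCchar _ _ k.2)⟩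
        one_smul := fun k => Subtype.ext rfl
        mul_smul := fun φ ψ k => Subtype.ext rfl }
    have hcardα : Nat.card {k : 𝔎 // j⁻¹ * k ∈ C} = Nat.card C := by
      apply Nat.card_congr
      exact
        { toFun := fun k => ⟨j⁻¹ * k.1, k.2⟩
          invFun := fun c => ⟨j * c.1, by
            have : j⁻¹ * (j * c.1) = c.1 := by group
            rw [this]; exact c.2⟩
          left_inv := fun k => Subtype.ext (by group)
          right_inv := fun c => Subtype.ext (by group) }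
    have hnd : ¬ q ∣ Nat.card {k : 𝔎 // j⁻¹ * k ∈ C} := by
      rw [hcardα]
      intro h
      exact hq (h.trans (Subgroup.card_subgroup_dvd_card C))
    obtain ⟨k, hk⟩ := h𝒬.nonempty_fixed_point_of_prime_not_dvd_card
      {k : 𝔎 // j⁻¹ * k ∈ C} hnd
    have hkF : k.1 ∈ F := by
      apply hF
      intro φ hφ
      have := hk ⟨φ, hφ⟩
      exact congrArg Subtype.val this
    refine ⟨k.1, hkF, ?_⟩
    have h1 : j⁻¹ * k.1 ∈ τ.ker := by rw [← hCker]; exact k.2
    rw [MonoidHom.mem_ker, map_mul, map_inv] at h1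
    exact (inv_mul_eq_one.mp h1).symm
  have hlift : ∀ {y : Holo V}, y ∈ ℍ ⊓ Subgroup.centralizer (X' : Set (Holo V)) →
      ∃ k ∈ F, τ k = y := fun hy => hlift' hy
  set W₀ : Subgroup ↥V := W'.comap (SemidirectProduct.inl : ↥V →* Holo V) with hW₀
  set D : Subgroup 𝔎 := (ℍ ⊓ Subgroup.centralizer (X' : Set (Holo V))).comap τ ⊓ F with hD
  have hinlconj : ∀ (φ : MulAut 𝔎) (v : ↥V),
      ρ φ * (SemidirectProduct.inl v : Holo V) * (ρ φ)⁻¹ =
        SemidirectProduct.inl (restrAut V hVchar φ v) := by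
    intro φ v
    show SemidirectProduct.inr (restrAut V hVchar φ) * SemidirectProduct.inl v *
      (SemidirectProduct.inr (restrAut V hVchar φ))⁻¹ = _
    rw [← map_inv]
    exact (SemidirectProduct.inl_aut (φ := MonoidHom.id (MulAut ↥V))
      (restrAut V hVchar φ) v).symm
  have hW'range : W' ≤ (SemidirectProduct.inl : ↥V →* Holo V).range := hW'V
  have hmapW₀ : W₀.map (SemidirectProduct.inl : ↥V →* Holo V) = W' :=
    Subgroup.map_comap_eq_self hW'range
  refine ⟨W₀.map V.subtype, D, ?_, ?_, ?_, ?_, ?_, ?_⟩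
  · rintro _ ⟨v, hv, rfl⟩ φ hφ
    have hv' : (SemidirectProduct.inl v : Holo V) ∈ W' := hv
    have h1 := Subgroup.mem_centralizer_iff.mp (hW'X hv') (ρ φ) ⟨φ, hφ, rfl⟩
    have h2 : (SemidirectProduct.inl (restrAut V hVchar φ v) : Holo V) =
        SemidirectProduct.inl v := by
      rw [← hinlconj, h1]
      group
    have h3 := SemidirectProduct.inl_injective h2
    have h4 := congrArg (fun z : ↥V => (z : 𝔎)) h3
    exact h4
  · intro d hd φ hφ
    exact hd.2 φ hφ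
  · exact ea_of_le hVea (Subgroup.map_subtype_le _)
  · rw [Subgroup.card_map_of_injective V.subtype_injective, ← hW'card, ← hmapW₀,
      Subgroup.card_map_of_injective SemidirectProduct.inl_injective]
  · apply le_normalizer_of_conj_mem
    rintro d hd _ ⟨v, hv, rfl⟩
    have hv' : (SemidirectProduct.inl v : Holo V) ∈ W' := hv
    have hτd : τ d ∈ ℍ ⊓ Subgroup.centralizer (X' : Set (Holo V)) := hd.1
    have h1 : τ d * SemidirectProduct.inl v * (τ d)⁻¹ ∈ W' :=
      conj_mem_of_normalizer hv' (hW'n hτd)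
    rw [holo_conj V d v] at h1
    exact ⟨MulAut.conjNormal d v, h1, rfl⟩
  · -- the homomorphism
    let τ' : ↥D →* ↥(ℍ ⊓ Subgroup.centralizer (X' : Set (Holo V))) :=
      (τ.comp D.subtype).codRestrict _ (fun d => d.2.1)
    refine ⟨ψ'.comp τ', ?_, ?_⟩
    · intro s
      obtain ⟨y, rfl⟩ := hψ's s
      obtain ⟨k, hkF, hky⟩ := hlift y.2
      have hkD : k ∈ D := ⟨by
        show τ k ∈ ℍ ⊓ Subgroup.centralizer (X' : Set (Holo V))
        rw [hky]; exact y.2, hkF⟩
      refine ⟨⟨k, hkD⟩, ?_⟩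
      show ψ' (τ' ⟨k, hkD⟩) = ψ' y
      congr 1
      exact Subtype.ext hky
    · intro d
      have h1 : (ψ'.comp τ') d = 1 ↔
          τ (d : 𝔎) ∈ Subgroup.centralizer (W' : Set (Holo V)) := hψ'k (τ' d)
      rw [h1, Subgroup.mem_centralizer_iff, Subgroup.mem_centralizer_iff]
      constructor
      · rintro h _ ⟨v, hv, rfl⟩
        have hv' : (SemidirectProduct.inl v : Holo V) ∈ W' := hv
        have h2 := h _ hv'
        have h3 : (SemidirectProduct.inl (MulAut.conjNormal (d : 𝔎) v) : Holo V) =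
            SemidirectProduct.inl v := by
          have h4 := holo_conj V (d : 𝔎) v
          rw [← h4]
          have h2' : (SemidirectProduct.inl v : Holo V) * holoHom V (d : 𝔎) =
              holoHom V (d : 𝔎) * SemidirectProduct.inl v := h2
          calc holoHom V (d : 𝔎) * SemidirectProduct.inl v * (holoHom V (d : 𝔎))⁻¹
              = ((SemidirectProduct.inl v : Holo V) * holoHom V (d : 𝔎)) *
                  (holoHom V (d : 𝔎))⁻¹ := by rw [h2']
            _ = SemidirectProduct.inl v := by group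
        have h4 := congrArg (fun z : ↥V => (z : 𝔎)) (SemidirectProduct.inl_injective h3)
        have h5 : (d : 𝔎) * (v : 𝔎) * (d : 𝔎)⁻¹ = v := h4
        show (v : 𝔎) * (d : 𝔎) = (d : 𝔎) * (v : 𝔎)
        calc (v : 𝔎) * (d : 𝔎) = ((d : 𝔎) * (v : 𝔎) * (d : 𝔎)⁻¹) * (d : 𝔎) := by rw [h5]
          _ = (d : 𝔎) * (v : 𝔎) := by group
      · intro h w' hw'
        obtain ⟨v, rfl⟩ := hW'range hw'
        have hv : v ∈ W₀ := hw'
        have h2 : (v : 𝔎) * (d : 𝔎) = (d : 𝔎) * (v : 𝔎) := h _ ⟨v, hv, rfl⟩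
        have h3 : MulAut.conjNormal (d : 𝔎) v = v := by
          apply Subtype.ext
          rw [MulAut.conjNormal_apply, ← h2]
          group
        have h4 := holo_conj V (d : 𝔎) v
        rw [h3] at h4
        calc (SemidirectProduct.inl v : Holo V) * τ (d : 𝔎)
            = (τ (d : 𝔎) * SemidirectProduct.inl v * (τ (d : 𝔎))⁻¹) * τ (d : 𝔎) := by rw [h4]
          _ = τ (d : 𝔎) * SemidirectProduct.inl v := by group

end Cfsg.Agent.Lib.Helper42
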