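import Mathlib
import Cfsg.Agent.Lib.Helper42.Sec2

set_option autoImplicit false

namespace Cfsg.Agent.Lib.Helper42.U95

universe u

variable {G : Type u} [Group G] [Finite G]

/-- S1402 piece J2: conjugation by `n * k` (with `k` in a `p'`-subgroup `O` normalized by `N`)
agrees on `B` with conjugation by an element of `N`, provided it maps `B` into the `p`-subgroup
`R ≤ N`. -/
theorem conj_eq_of_core_factor {p : ℕ} [Fact p.Prime] {O N R B : Subgroup G} {k n : G}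
    (hO : (Nat.card O).Coprime p) (hNO : N ≤ Subgroup.normalizer (O : Set G)) (hRN : R ≤ N)
    (hR : IsPGroup p R) (hB : B ≤ R) (hk : k ∈ O) (hn : n ∈ N)
    (hBh : ∀ b ∈ B, (n * k) * b * (n * k)⁻¹ ∈ R) :
    ∃ x ∈ N, ∀ b ∈ B, x * b * x⁻¹ = (n * k) * b * (n * k)⁻¹ := by
  have hBN : B ≤ N := hB.trans hRN
  have hBp : IsPGroup p B := hR.to_le hB
  have hconjO : ∀ g ∈ N, ∀ o ∈ O, g * o * g⁻¹ ∈ O := fun g hg o ho =>
    (Subgroup.mem_normalizer_iff.mp (hNO hg) o).mp ho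
  set K : Subgroup G := O ⊓ N with hK
  have hBK : B ≤ Subgroup.normalizer (K : Set G) := by
    intro b hb
    rw [Subgroup.mem_normalizer_iff]
    intro x
    constructor
    · rintro ⟨hx1, hx2⟩
      exact ⟨hconjO b (hBN hb) x hx1, N.mul_mem (N.mul_mem (hBN hb) hx2) (N.inv_mem (hBN hb))⟩
    · rintro ⟨hx1, hx2⟩
      refine ⟨?_, ?_⟩
      · have := hconjO b⁻¹ (N.inv_mem (hBN hb)) _ hx1
        have e : b⁻¹ * (b * x * b⁻¹) * b⁻¹⁻¹ = x := by group
        rwa [e] at this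
      · have := N.mul_mem (N.mul_mem (N.inv_mem (hBN hb)) hx2) (hBN hb)
        have e : b⁻¹ * (b * x * b⁻¹) * b = x := by group
        rwa [e] at this
  have hBOb : B ⊓ O = ⊥ := by
    apply Disjoint.eq_bot
    apply Subgroup.disjoint_of_coprime_natCard
    obtain ⟨j, hj⟩ := IsPGroup.iff_card.mp hBp
    rw [hj]
    exact Nat.Coprime.pow_left j hO.symm
  have hBO : ∀ x, x ∈ B → x ∈ O → x = 1 := by
    intro x hxB hxO
    have : x ∈ B ⊓ O := ⟨hxB, hxO⟩
    rw [hBOb] at this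
    exact Subgroup.mem_bot.mp this
  have hSyl : IsSylIn p B (B ⊔ K) := by
    refine ⟨le_sup_left, hBp, ?_⟩
    have hBKb : B ⊓ K = ⊥ := by
      rw [eq_bot_iff]
      intro x hx
      exact Subgroup.mem_bot.mpr (hBO x hx.1 hx.2.1)
    -- second isomorphism theorem
    have hri : K.relIndex (B ⊔ K) = K.relIndex B := by
      have := Subgroup.normal_subgroupOf_of_le_normalizer hBK
      have := Subgroup.normal_subgroupOf_sup_of_le_normalizer hBK
      exact Nat.card_congr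
        (QuotientGroup.quotientInfEquivProdNormalizerQuotient B K hBK).toEquiv.symm
    have cmr : ∀ {H L : Subgroup G}, H ≤ L → Nat.card H * H.relIndex L = Nat.card L := by
      intro H L h
      have := Subgroup.relIndex_mul_relIndex (H := (⊥ : Subgroup G)) (K := H) (L := L) bot_le h
      rwa [Subgroup.relIndex_bot_left, Subgroup.relIndex_bot_left] at this
    have h1 : Nat.card K * K.relIndex (B ⊔ K) = Nat.card (B ⊔ K : Subgroup G) :=
      cmr le_sup_right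
    have h2 : Nat.card (B ⊓ K : Subgroup G) * (B ⊓ K).relIndex B = Nat.card B :=
      cmr inf_le_left
    rw [hri] at h1
    rw [Subgroup.inf_relIndex_left, hBKb, Subgroup.card_bot, one_mul] at h2
    rw [h2] at h1
    have h3 : Nat.card B * B.relIndex (B ⊔ K) = Nat.card (B ⊔ K : Subgroup G) :=
      cmr le_sup_left
    have h4 : B.relIndex (B ⊔ K) = Nat.card K := by
      have hpos : 0 < Nat.card B := Nat.card_pos
      rw [← h1, mul_comm (Nat.card K)] at h3
      exact Nat.eq_of_mul_eq_mul_left hpos h3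
    rw [h4]
    intro hdvd
    have hd : p ∣ Nat.card O := hdvd.trans (Subgroup.card_dvd_of_le inf_le_left)
    exact (Nat.Prime.coprime_iff_not_dvd Fact.out).mp hO.symm hd
  have hB' : cj k B ≤ B ⊔ K := by
    intro x hx
    rw [mem_cj] at hx
    obtain ⟨b, hb, hx'⟩ : ∃ b ∈ B, x = k * b * k⁻¹ := ⟨k⁻¹ * x * k, hx, by group⟩
    have hbN := hBN hb
    have h1 : k * b * k⁻¹ * b⁻¹ ∈ O := by
      have := O.mul_mem hk (hconjO b hbN k⁻¹ (O.inv_mem hk))
      have e : k * (b * k⁻¹ * b⁻¹) = k * b * k⁻¹ * b⁻¹ := by group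
      rwa [e] at this
    have h2 : k * b * k⁻¹ ∈ N := by
      have h3 := hRN (hBh b hb)
      have := N.mul_mem (N.mul_mem (N.inv_mem hn) h3) hn
      have e : n⁻¹ * (n * k * b * (n * k)⁻¹) * n = k * b * k⁻¹ := by group
      rwa [e] at this
    have h4 : k * b * k⁻¹ * b⁻¹ ∈ K := ⟨h1, N.mul_mem h2 (N.inv_mem hbN)⟩
    have e2 : x = (k * b * k⁻¹ * b⁻¹) * b := by rw [hx']; group
    rw [e2]
    exact Subgroup.mul_mem _ (Subgroup.mem_sup_right h4) (Subgroup.mem_sup_left hb)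
  obtain ⟨y, hy, hyB⟩ := hSyl.exists_conj_le hB' (isPGroup_cj hBp)
  obtain ⟨b₀, hb₀, o, ho, rfl⟩ := mem_sup_of_le_normalizer hBK hy
  have hok : ∀ b ∈ B, (o * k) * b * (o * k)⁻¹ ∈ B := by
    intro b hb
    have h1 : (b₀ * o) * (k * b * k⁻¹) * (b₀ * o)⁻¹ ∈ B :=
      hyB (conj_mem_cj (conj_mem_cj hb))
    have h2 := B.mul_mem (B.mul_mem (B.inv_mem hb₀) h1) hb₀
    have e : b₀⁻¹ * ((b₀ * o) * (k * b * k⁻¹) * (b₀ * o)⁻¹) * b₀ = (o * k) * b * (o * k)⁻¹ := by
      group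
    rwa [e] at h2
  have hfix : ∀ b ∈ B, (o * k) * b * (o * k)⁻¹ = b := by
    intro b hb
    have h1 : (o * k) * b * (o * k)⁻¹ * b⁻¹ ∈ B := B.mul_mem (hok b hb) (B.inv_mem hb)
    have h2 : (o * k) * b * (o * k)⁻¹ * b⁻¹ ∈ O := by
      have hokO : o * k ∈ O := O.mul_mem ho.1 hk
      have := O.mul_mem hokO (hconjO b (hBN hb) _ (O.inv_mem hokO))
      have e : o * k * (b * (o * k)⁻¹ * b⁻¹) = (o * k) * b * (o * k)⁻¹ * b⁻¹ := by group
      rwa [e] at this
    exact mul_inv_eq_one.mp (hBO _ h1 h2)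
  refine ⟨n * o⁻¹, N.mul_mem hn (N.inv_mem ho.2), fun b hb => ?_⟩
  have h := hfix b hb
  have h' : k * b * k⁻¹ = o⁻¹ * b * o := by
    calc k * b * k⁻¹ = o⁻¹ * ((o * k) * b * (o * k)⁻¹) * o := by group
      _ = o⁻¹ * b * o := by rw [h]
  calc n * o⁻¹ * b * (n * o⁻¹)⁻¹ = n * (o⁻¹ * b * o) * n⁻¹ := by group
    _ = n * (k * b * k⁻¹) * n⁻¹ := by rw [h']
    _ = (n * k) * b * (n * k)⁻¹ := by group

end Cfsg.Agent.Lib.Helper42.U95
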