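import Mathlib
import Cfsg.Prelude.Def_Classical

/-!
# UF-FIXND (piece of S5982, helper96): the hermitian form is nondegenerate on the fixed space
of an isometry `Z` with `Z ^ r = 1`, `r` invertible in `F`.
-/

set_option autoImplicit false

namespace Cfsg.Agent.Lib.Helper42.Uf

open Matrix

theorem herm_add_left {F : Type*} [Field F] (q₀ n : ℕ) (u u' v : Fin n → F) :
    Cfsg.hermForm n F q₀ (u + u') v = Cfsg.hermForm n F q₀ u v + Cfsg.hermForm n F q₀ u' v := by
  unfold Cfsg.hermForm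
  rw [← Finset.sum_add_distrib]
  refine Finset.sum_congr rfl fun i _ => ?_
  simp only [Pi.add_apply]
  ring

theorem herm_zero_left {F : Type*} [Field F] (q₀ n : ℕ) (v : Fin n → F) :
    Cfsg.hermForm n F q₀ 0 v = 0 := by
  unfold Cfsg.hermForm
  simp

theorem herm_sum_left {F : Type*} [Field F] (q₀ n : ℕ) {ι : Type*} (s : Finset ι)
    (w : ι → Fin n → F) (v : Fin n → F) :
    Cfsg.hermForm n F q₀ (∑ t ∈ s, w t) v = ∑ t ∈ s, Cfsg.hermForm n F q₀ (w t) v := by
  classical
  induction s using Finset.induction_on with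
  | empty => simp [herm_zero_left]
  | insert a s ha ih => rw [Finset.sum_insert ha, Finset.sum_insert ha, herm_add_left, ih]

theorem fix_nondeg {F : Type*} [Field F] (q₀ n r : ℕ) (hrF : (r : F) ≠ 0)
    (Z : Matrix (Fin n) (Fin n) F) (hZ : Z ^ r = 1)
    (hiso : ∀ u v, Cfsg.hermForm n F q₀ (Z *ᵥ u) (Z *ᵥ v) = Cfsg.hermForm n F q₀ u v) :
    ∀ c ∈ LinearMap.ker (Matrix.toLin' Z - 1), c ≠ 0 →
      ∃ x ∈ LinearMap.ker (Matrix.toLin' Z - 1), Cfsg.hermForm n F q₀ x c ≠ 0 := by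
  classical
  intro c hc hc0
  have hZc : Z *ᵥ c = c := by
    have h := LinearMap.mem_ker.mp hc
    simp only [LinearMap.sub_apply, Matrix.toLin'_apply, Module.End.one_apply] at h
    exact sub_eq_zero.mp h
  have hZtc : ∀ t : ℕ, (Z ^ t) *ᵥ c = c := by
    intro t
    induction t with
    | zero => simp
    | succ t ih => rw [pow_succ, ← Matrix.mulVec_mulVec, hZc, ih]
  have hisot : ∀ (t : ℕ) (u v : Fin n → F),
      Cfsg.hermForm n F q₀ ((Z ^ t) *ᵥ u) ((Z ^ t) *ᵥ v) = Cfsg.hermForm n F q₀ u v := by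
    intro t
    induction t with
    | zero => intro u v; simp
    | succ t ih =>
      intro u v
      rw [pow_succ', ← Matrix.mulVec_mulVec, ← Matrix.mulVec_mulVec, hiso, ih]
  obtain ⟨i, hi⟩ : ∃ i, c i ≠ 0 := by
    by_contra hcon
    push Not at hcon
    exact hc0 (funext hcon)
  set v : Fin n → F := Pi.single i 1 with hv
  have hvc : Cfsg.hermForm n F q₀ v c = c i ^ q₀ := by
    unfold Cfsg.hermForm
    rw [Finset.sum_eq_single i]
    · simp [hv]
    · intro j _ hj
      simp [hv, Pi.single_apply, hj]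
    · intro h; exact absurd (Finset.mem_univ i) h
  set x : Fin n → F := ∑ t ∈ Finset.range r, (Z ^ t) *ᵥ v with hx
  have hr0 : r ≠ 0 := by
    rintro rfl
    exact hrF (by simp)
  have hZx : Z *ᵥ x = x := by
    rw [hx, Matrix.mulVec_sum]
    have h1 : ∀ t ∈ Finset.range r, Z *ᵥ ((Z ^ t) *ᵥ v) = (Z ^ (t + 1)) *ᵥ v := by
      intro t _
      rw [Matrix.mulVec_mulVec, ← pow_succ']
    rw [Finset.sum_congr rfl h1]
    obtain ⟨m, rfl⟩ := Nat.exists_eq_succ_of_ne_zero hr0
    rw [Finset.sum_range_succ (fun t => (Z ^ (t + 1)) *ᵥ v) m,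
      Finset.sum_range_succ' (fun t => (Z ^ t) *ᵥ v) m, hZ]
    simp
  refine ⟨x, ?_, ?_⟩
  · rw [LinearMap.mem_ker]
    simp only [LinearMap.sub_apply, Matrix.toLin'_apply, Module.End.one_apply]
    exact sub_eq_zero.mpr hZx
  · rw [hx, herm_sum_left]
    have h2 : ∀ t ∈ Finset.range r,
        Cfsg.hermForm n F q₀ ((Z ^ t) *ᵥ v) c = c i ^ q₀ := by
      intro t _
      conv_lhs => rw [← hZtc t]
      rw [hisot, hvc]
    rw [Finset.sum_congr rfl h2, Finset.sum_const, Finset.card_range, nsmul_eq_mul]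
    exact mul_ne_zero hrF (pow_ne_zero _ hi)

end Cfsg.Agent.Lib.Helper42.Uf
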