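import Cfsg.Agent.Lib.Helper22.W2Defs
import Cfsg.Agent.Lib.Helper83.Linear
import Cfsg.Agent.Lib.Helper4.CharDecomp

/-!
Project W2 (helper22, for S4707), piece DEC3: a character `π` with `⟨π, 1⟩ = 1` and `⟨π, π⟩ = 3`
is `1 + χ₁ + χ₂` with two distinct non-trivial irreducible characters.
-/

set_option autoImplicit false
set_option linter.unusedSectionVars false

namespace Cfsg.Agent.Lib.Helper42.W2

open Cfsg Cfsg.Agent.Lib.Helper83 Cfsg.Agent.Lib.Helper22.W2
open scoped ComplexConjugate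

universe u

variable {G : Type u} [Group G] [Fintype G]

/-- PIECE DEC3 -/
theorem dec3 (π : G → ℂ) (hπ : IsCharacter G π)
    (h1 : ∑ g : G, π g = (Nat.card G : ℂ))
    (h3 : ∑ g : G, π g * conj (π g) = 3 * (Nat.card G : ℂ)) :
    ∃ χ₁ χ₂ : IrrCharacter G, χ₁ ≠ χ₂ ∧ χ₁ ≠ trivIrr G ∧ χ₂ ≠ trivIrr G ∧
      ∀ g : G, π g = 1 + χ₁.1 g + χ₂.1 g := by
  classical
  haveI : Finite (IrrCharacter G) := Cfsg.Agent.Lib.Helper4.irr_finite
  letI : Fintype (IrrCharacter G) := Fintype.ofFinite _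
  obtain ⟨m, hm⟩ := Cfsg.Agent.Lib.Helper4.exists_decomp_of_isCharacter π hπ
  have hG : (Nat.card G : ℂ) ≠ 0 := by
    have hpos : 0 < Nat.card G := Nat.card_pos
    exact_mod_cast hpos.ne'
  have hmt : m (trivIrr G) = 1 := by
    have e1 : classInner π (trivIrr G : G → ℂ) = 1 := by
      unfold classInner
      have e0 : ∑ g : G, π g * conj ((trivIrr G : G → ℂ) g) = ∑ g : G, π g := by
        refine Finset.sum_congr rfl fun g _ => ?_
        rw [trivIrr_apply, map_one, mul_one]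
      rw [e0, h1, inv_mul_cancel₀ hG]
    have e2 := Cfsg.Agent.Lib.Helper4.classInner_sum_irr (fun χ => (m χ : ℂ)) (trivIrr G)
    rw [← hm, e1] at e2
    exact_mod_cast e2.symm
  have hm2 : ∑ χ : IrrCharacter G, m χ * m χ = 3 := by
    have e1 : classInner π π = 3 := by
      unfold classInner
      rw [h3]
      field_simp
    have e2 := Cfsg.Agent.Lib.Helper4.classInner_sum_sum_irr (fun χ => (m χ : ℂ))
      (fun χ => (m χ : ℂ))
    rw [← hm, e1] at e2
    have e3 : ∑ χ : IrrCharacter G, (m χ : ℂ) * (m χ : ℂ) = 3 := by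
      rw [e2]
      refine Finset.sum_congr rfl fun χ _ => ?_
      rw [Complex.conj_natCast]
    exact_mod_cast e3
  have hle1 : ∀ χ : IrrCharacter G, χ ≠ trivIrr G → m χ ≤ 1 := by
    intro χ hne
    by_contra hcon
    have h2 : 2 ≤ m χ := by omega
    have hle : m (trivIrr G) * m (trivIrr G) + m χ * m χ ≤ ∑ χ : IrrCharacter G, m χ * m χ := by
      have h0 := Finset.sum_le_sum_of_subset (f := fun χ => m χ * m χ)
        (Finset.subset_univ ({trivIrr G, χ} : Finset (IrrCharacter G)))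
      rwa [Finset.sum_pair hne.symm] at h0
    have h4 : 2 * 2 ≤ m χ * m χ := Nat.mul_le_mul h2 h2
    rw [hm2, hmt] at hle
    omega
  have hsplit : ∑ χ ∈ Finset.univ.erase (trivIrr G), m χ * m χ = 2 := by
    have h0 := Finset.add_sum_erase Finset.univ (fun χ => m χ * m χ) (Finset.mem_univ (trivIrr G))
    rw [hm2, hmt] at h0
    omega
  have hcard : ((Finset.univ.erase (trivIrr G)).filter (fun χ => m χ ≠ 0)).card = 2 := by
    rw [Finset.card_filter, ← hsplit]
    refine Finset.sum_congr rfl fun χ hχ => ?_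
    have hne : χ ≠ trivIrr G := Finset.ne_of_mem_erase hχ
    have h0 := hle1 χ hne
    interval_cases h : m χ <;> simp
  obtain ⟨χ₁, χ₂, h12, hS⟩ := Finset.card_eq_two.mp hcard
  have hmem : ∀ χ, χ ∈ (Finset.univ.erase (trivIrr G)).filter (fun χ => m χ ≠ 0) ↔
      χ = χ₁ ∨ χ = χ₂ := by
    intro χ
    rw [hS]
    simp
  have hχ₁ := (hmem χ₁).mpr (Or.inl rfl)
  have hχ₂ := (hmem χ₂).mpr (Or.inr rfl)
  rw [Finset.mem_filter, Finset.mem_erase] at hχ₁ hχ₂
  have hm1 : m χ₁ = 1 := by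
    have h0 := hle1 χ₁ hχ₁.1.1
    have h5 := hχ₁.2
    omega
  have hm2' : m χ₂ = 1 := by
    have h0 := hle1 χ₂ hχ₂.1.1
    have h5 := hχ₂.2
    omega
  refine ⟨χ₁, χ₂, h12, hχ₁.1.1, hχ₂.1.1, fun g => ?_⟩
  have hother : ∀ χ : IrrCharacter G, χ ∉ ({trivIrr G, χ₁, χ₂} : Finset (IrrCharacter G)) →
      m χ = 0 := by
    intro χ hχ
    by_contra h0
    simp only [Finset.mem_insert, Finset.mem_singleton, not_or] at hχ
    have h5 : χ ∈ (Finset.univ.erase (trivIrr G)).filter (fun χ => m χ ≠ 0) := by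
      rw [Finset.mem_filter, Finset.mem_erase]
      exact ⟨⟨hχ.1, Finset.mem_univ _⟩, h0⟩
    rcases (hmem χ).mp h5 with h | h
    · exact hχ.2.1 h
    · exact hχ.2.2 h
  have hπg : π g = ∑ χ : IrrCharacter G, (m χ : ℂ) * (χ : G → ℂ) g := by
    have h0 := congrFun hm g
    rw [h0]
    simp only [Finset.sum_apply, Pi.smul_apply, smul_eq_mul]
  have hnot1 : trivIrr G ∉ ({χ₁, χ₂} : Finset (IrrCharacter G)) := by
    simp only [Finset.mem_insert, Finset.mem_singleton, not_or]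
    exact ⟨fun h => hχ₁.1.1 h.symm, fun h => hχ₂.1.1 h.symm⟩
  have hnot2 : χ₁ ∉ ({χ₂} : Finset (IrrCharacter G)) := by
    simp only [Finset.mem_singleton]
    exact h12
  rw [hπg, ← Finset.sum_subset (Finset.subset_univ ({trivIrr G, χ₁, χ₂} : Finset (IrrCharacter G)))
    (fun χ _ hχ => by rw [hother χ hχ]; simp)]
  rw [Finset.sum_insert hnot1, Finset.sum_insert hnot2, Finset.sum_singleton, hmt, hm1, hm2',
    trivIrr_apply]
  simp [add_assoc]

end Cfsg.Agent.Lib.Helper42.W2
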